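import Mathlib
import Cfsg.Agent.Lib.Helper24.Constituent
import Cfsg.Agent.Lib.Lead.DegBound
import Cfsg.Agent.S0008
import Cfsg.Agent.S0044
import Cfsg.Agent.S0070
import Cfsg.Agent.Lib.Helper4.Frat
import Cfsg.Agent.Lib.Helper13.Gallagher

set_option autoImplicit false
set_option linter.unusedSectionVars false
set_option linter.style.haveILetI false

/-! The Broline–Garrison theorem (Isaacs 12.19). -/

namespace Cfsg.Agent.Lib.Helper13.Broline

open Cfsg Cfsg.Agent.Lib.Helper2 Cfsg.Agent.Lib.Helper6 Cfsg.Agent.Lib.Helper24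
open scoped ComplexConjugate Classical

attribute [local instance] irrFintype

variable {G : Type*} [Group G] [Fintype G]

omit [Fintype G] in
theorem exists_mul_of_sup (L M : Subgroup G) [L.Normal] (h : L ⊔ M = ⊤) (g : G) :
    ∃ l ∈ L, ∃ m ∈ M, g = l * m := by
  have h1 : g ∈ (↑(L ⊔ M) : Set G) := by
    rw [h]
    trivial
  rw [Subgroup.normal_mul] at h1
  obtain ⟨l, hl, m, hm, rfl⟩ := Set.mem_mul.mp h1
  exact ⟨l, hl, m, hm, rfl⟩

theorem restrict_irr_of_sup {ξ : G → ℂ} (hξ : IsIrrCharacter G ξ) (L M : Subgroup G) [L.Normal]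
    (hL : ∀ n ∈ L, ξ n = ξ 1) (h : L ⊔ M = ⊤) : IsIrrCharacter M (fun m : M => ξ m) := by
  obtain ⟨ψ, hψ, hψξ⟩ := IsIrrCharacter.deflate L hξ hL
  have hsurj : Function.Surjective ((QuotientGroup.mk' L).comp M.subtype) := by
    intro q
    obtain ⟨g, rfl⟩ := QuotientGroup.mk_surjective q
    obtain ⟨l, hl, m, hm, rfl⟩ := exists_mul_of_sup L M h g
    refine ⟨⟨m, hm⟩, ?_⟩
    show (m : G ⧸ L) = ((l * m : G) : G ⧸ L)
    rw [QuotientGroup.mk_mul, (QuotientGroup.eq_one_iff l).mpr hl, one_mul]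
  have := Cfsg.Agent.Lib.Helper24.IsIrrCharacter.inflate _ hsurj hψ
  convert this using 1
  funext m
  exact (hψξ m).symm

theorem indFun_restrict_apply {χ : G → ℂ} (hcl : IsClassFunction G χ) (M : Subgroup G) (g : G) :
    indFun M (fun m : M => χ m) g = (Nat.card M : ℂ)⁻¹ *
      (((Finset.univ.filter (fun x : G => x⁻¹ * g * x ∈ M)).card : ℂ) * χ g) := by
  unfold indFun
  congr 1
  have : ∀ x : G, extendByZero M (fun m : M => χ m) (x⁻¹ * g * x) =
      if x⁻¹ * g * x ∈ M then χ g else 0 := by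
    intro x
    by_cases h : x⁻¹ * g * x ∈ M
    · rw [if_pos h]
      have h1 := extendByZero_coe M (fun m : M => χ m) ⟨_, h⟩
      have h2 : extendByZero M (fun m : M => χ m) (x⁻¹ * g * x) = χ (x⁻¹ * g * x) := h1
      rw [h2]
      have := hcl g x⁻¹
      simpa using this
    · rw [if_neg h, extendByZero_not_mem M _ h]
  rw [Finset.sum_congr rfl (fun x _ => this x), ← Finset.sum_filter, Finset.sum_const, nsmul_eq_mul]

theorem key {χ : G → ℂ} (hχ : IsIrrCharacter G χ) (K : Subgroup G) [K.Normal]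
    (hK : ∀ g, g ∈ K ↔ χ g = χ 1) (M : Subgroup G) (hM : IsCoatom M) (hKM : ¬ K ≤ M) :
    (∃ ψ : IrrCharacter G, charDegree χ < charDegree (ψ : G → ℂ) ∧
      ∃ L : Subgroup G, (∀ g, g ∈ L ↔ (ψ : G → ℂ) g = (ψ : G → ℂ) 1) ∧ L < K) ∨
    (∀ m ∈ M, χ m = 0 ∨ ∀ x : G, x⁻¹ * m * x ∈ M) := by
  have hsup : ∀ L : Subgroup G, ¬ L ≤ M → L ⊔ M = ⊤ := by
    intro L hL
    apply hM.2
    exact lt_of_le_of_ne le_sup_right (fun h => hL (by rw [h]; exact le_sup_left))
  have hχc := IsIrrCharacter.isCharacter hχ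
  have hχcl := IsCharacter.isClassFunction hχc
  have hθ : IsIrrCharacter M (fun m : M => χ m) :=
    restrict_irr_of_sup hχ K M (fun n hn => (hK n).mp hn) (hsup K hKM)
  have hΘc := IsCharacter.indFun M (IsIrrCharacter.isCharacter hθ)
  have hΘcl := IsCharacter.isClassFunction hΘc
  have hfrob : ∀ ψ : IrrCharacter G, classInner (indFun M (fun m : M => χ m)) (ψ : G → ℂ) ≠ 0 →
      classInner (fun m : M => (ψ : G → ℂ) m) (fun m : M => χ m) ≠ 0 := by
    intro ψ h
    rw [frobenius_reciprocity M _ _ (irr_isClassFunction ψ.2)] at h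
    rw [← classInner_conj_symm]
    exact (map_ne_zero _).mpr h
  by_cases hex : ∃ ψ : IrrCharacter G, classInner (indFun M (fun m : M => χ m)) (ψ : G → ℂ) ≠ 0 ∧
      charDegree (ψ : G → ℂ) ≠ charDegree χ
  · left
    obtain ⟨ψ, hψ, hdeg⟩ := hex
    have hψc := IsIrrCharacter.isCharacter ψ.2
    have h1 := hfrob ψ hψ
    have hle : charDegree χ ≤ charDegree (ψ : G → ℂ) :=
      degree_le_of_constituent (IsCharacter.restrict M hψc) ⟨_, hθ⟩ h1
    refine ⟨ψ, lt_of_le_of_ne hle hdeg.symm, kerOf hψc, mem_kerOf hψc, ?_⟩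
    haveI := kerOf_normal hψc
    have hLM : kerOf hψc ≤ M := by
      by_contra hcon
      have h2 := restrict_irr_of_sup ψ.2 (kerOf hψc) M (fun n hn => (mem_kerOf hψc n).mp hn)
        (hsup _ hcon)
      rw [classInner_irr h2 hθ] at h1
      have h3 : (fun m : M => (ψ : G → ℂ) m) = fun m : M => χ m := by
        by_contra h4
        rw [if_neg h4] at h1
        exact h1 rfl
      apply hdeg
      have h5 := congrFun h3 1
      have h6 : (ψ : G → ℂ) 1 = χ 1 := h5
      have h7 : (charDegree (ψ : G → ℂ) : ℂ) = (charDegree χ : ℂ) := by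
        rw [charDegree_cast hψc, charDegree_cast hχc, h6]
      exact_mod_cast h7
    refine lt_of_le_of_ne ?_ ?_
    · intro x hx
      rw [hK]
      have h2 := Cfsg.Agent.Lib.Lead.DegBound.ker_of_constituent (IsCharacter.restrict M hψc) hθ h1
        (b := ⟨x, hLM hx⟩) ((mem_kerOf hψc x).mp hx)
      exact h2
    · intro h
      apply hKM
      rw [← h]
      exact hLM
  · right
    push Not at hex
    obtain ⟨c, hc⟩ : ∃ c : IrrCharacter G → ℂ,
        ∀ ψ, c ψ = classInner (indFun M (fun m : M => χ m)) (ψ : G → ℂ) := ⟨_, fun _ => rfl⟩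
    have hc01 : ∀ ψ : IrrCharacter G, c ψ = 0 ∨ (c ψ = 1 ∧ (ψ : G → ℂ) 1 = χ 1) := by
      intro ψ
      by_cases h0 : c ψ = 0
      · left; exact h0
      · right
        rw [hc] at h0
        have hd := hex ψ h0
        have h1 := hfrob ψ h0
        have h2 : (fun m : M => (ψ : G → ℂ) m) = fun m : M => χ m :=
          eq_of_constituent_of_degree_eq (IsCharacter.restrict M (IsIrrCharacter.isCharacter ψ.2))
            ⟨_, hθ⟩ h1 hd
        refine ⟨?_, congrFun h2 1⟩
        rw [hc, frobenius_reciprocity M _ _ (irr_isClassFunction ψ.2), h2, classInner_irr hθ hθ,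
          if_pos rfl]
    have hsum : indFun M (fun m : M => χ m) = ∑ ψ : IrrCharacter G, c ψ • (ψ : G → ℂ) := by
      rw [classFunction_eq_sum hΘcl]
      refine Finset.sum_congr rfl fun ψ _ => ?_
      rw [hc]
    have hχ1 := irr_one_ne_zero hχ
    have hS : ∑ ψ : IrrCharacter G, c ψ = (M.index : ℂ) := by
      have h1 := congrFun hsum 1
      rw [Cfsg.Agent.Lib.Helper24.indFun_one, Finset.sum_apply] at h1
      have h2 : ∀ ψ : IrrCharacter G, (c ψ • (ψ : G → ℂ)) 1 = c ψ * χ 1 := by
        intro ψ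
        rcases hc01 ψ with h | ⟨_, h⟩
        · simp [h]
        · rw [Pi.smul_apply, smul_eq_mul, h]
      rw [Finset.sum_congr rfl (fun ψ _ => h2 ψ), ← Finset.sum_mul] at h1
      exact (mul_right_cancel₀ hχ1 h1).symm
    have hnorm : classInner (indFun M (fun m : M => χ m)) (indFun M (fun m : M => χ m)) =
        (M.index : ℂ) := by
      have h1 : classInner (indFun M (fun m : M => χ m)) (indFun M (fun m : M => χ m)) =
          classInner (∑ ψ : IrrCharacter G, c ψ • (ψ : G → ℂ)) (indFun M (fun m : M => χ m)) := by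
        rw [← hsum]
      rw [h1, classInner_sum_left, ← hS]
      refine Finset.sum_congr rfl fun ψ _ => ?_
      rw [classInner_smul_left, ← classInner_conj_symm, ← hc]
      rcases hc01 ψ with h | ⟨h, _⟩ <;> simp [h]
    rw [frobenius_reciprocity M _ _ hΘcl] at hnorm
    have hone := classInner_irr hθ hθ
    rw [if_pos rfl] at hone
    simp only [classInner] at hnorm hone
    simp_rw [indFun_restrict_apply hχcl M] at hnorm
    have hM0 : (Nat.card M : ℝ) ≠ 0 := by exact_mod_cast (Nat.card_pos (α := M)).ne'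
    have hidx : (M.index : ℝ) * (Nat.card M : ℝ) = (Nat.card G : ℝ) := by
      exact_mod_cast M.index_mul_card
    have e2 : ∑ m : M, Complex.normSq (χ m) = (Nat.card M : ℝ) := by
      have h1 : ((∑ m : M, Complex.normSq (χ m) : ℝ) : ℂ) = ((Nat.card M : ℝ) : ℂ) := by
        push_cast
        simp_rw [← Complex.mul_conj]
        have hM0' : (Nat.card M : ℂ) ≠ 0 := by exact_mod_cast hM0
        rw [inv_mul_eq_iff_eq_mul₀ hM0', mul_one] at hone
        exact hone
      exact_mod_cast h1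
    have e1 : ∑ m : M, ((Finset.univ.filter (fun x : G => x⁻¹ * (m : G) * x ∈ M)).card : ℝ) *
        Complex.normSq (χ m) = (Nat.card G : ℝ) * (Nat.card M : ℝ) := by
      have h1 : ((∑ m : M, ((Finset.univ.filter (fun x : G => x⁻¹ * (m : G) * x ∈ M)).card : ℝ) *
          Complex.normSq (χ m) : ℝ) : ℂ) = (((Nat.card G : ℝ) * (Nat.card M : ℝ) : ℝ) : ℂ) := by
        push_cast
        simp_rw [← Complex.mul_conj]
        have hM0' : (Nat.card M : ℂ) ≠ 0 := by exact_mod_cast hM0
        have hidx' : (M.index : ℂ) * (Nat.card M : ℂ) = (Nat.card G : ℂ) := by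
          exact_mod_cast hidx
        rw [inv_mul_eq_iff_eq_mul₀ hM0'] at hnorm
        have h2 : ∑ m : M, χ m * conj ((Nat.card M : ℂ)⁻¹ *
            (((Finset.univ.filter (fun x : G => x⁻¹ * (m : G) * x ∈ M)).card : ℂ) * χ m)) =
            (Nat.card M : ℂ)⁻¹ * ∑ m : M,
            ((Finset.univ.filter (fun x : G => x⁻¹ * (m : G) * x ∈ M)).card : ℂ) *
              (χ m * conj (χ m)) := by
          rw [Finset.mul_sum]
          refine Finset.sum_congr rfl fun m _ => ?_
          rw [map_mul, map_mul, map_inv₀, Complex.conj_natCast, Complex.conj_natCast]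
          ring
        rw [h2, inv_mul_eq_iff_eq_mul₀ hM0'] at hnorm
        rw [hnorm, ← hidx']
        ring
      exact_mod_cast h1
    have e3 : ∑ m : M, ((Nat.card G : ℝ) -
        ((Finset.univ.filter (fun x : G => x⁻¹ * (m : G) * x ∈ M)).card : ℝ)) *
        Complex.normSq (χ m) = 0 := by
      simp_rw [sub_mul]
      rw [Finset.sum_sub_distrib, ← Finset.mul_sum, e1, e2, sub_self]
    have hle : ∀ m : M, ((Finset.univ.filter (fun x : G => x⁻¹ * (m : G) * x ∈ M)).card : ℝ) ≤
        (Nat.card G : ℝ) := by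
      intro m
      rw [Nat.card_eq_fintype_card]
      exact_mod_cast Finset.card_le_univ _
    have e4 := (Finset.sum_eq_zero_iff_of_nonneg (fun m _ =>
      mul_nonneg (sub_nonneg.mpr (hle m)) (Complex.normSq_nonneg _))).mp e3
    intro m hm
    have h5 := e4 ⟨m, hm⟩ (Finset.mem_univ _)
    rcases mul_eq_zero.mp h5 with h6 | h6
    · right
      have h7 : (Finset.univ.filter (fun x : G => x⁻¹ * m * x ∈ M)).card = Fintype.card G := by
        rw [← Nat.card_eq_fintype_card]
        have : ((Finset.univ.filter (fun x : G => x⁻¹ * m * x ∈ M)).card : ℝ) =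
            (Nat.card G : ℝ) := (sub_eq_zero.mp h6).symm
        exact_mod_cast this
      have h8 := Finset.eq_univ_of_card _ h7
      intro x
      have h9 : x ∈ Finset.univ.filter (fun x : G => x⁻¹ * m * x ∈ M) := by
        rw [h8]
        exact Finset.mem_univ x
      exact (Finset.mem_filter.mp h9).2
    · left
      exact Complex.normSq_eq_zero.mp h6

theorem case1 {χ : G → ℂ} (hχ : IsIrrCharacter G χ) (K : Subgroup G) [hKn : K.Normal]
    (hK : ∀ g, g ∈ K ↔ χ g = χ 1) (h : ¬ K ≤ fittingSubgroup G) :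
    ∃ ψ : IrrCharacter G, charDegree χ < charDegree (ψ : G → ℂ) ∧
      ∃ L : Subgroup G, (∀ g, g ∈ L ↔ (ψ : G → ℂ) g = (ψ : G → ℂ) 1) ∧ L < K := by
  have hnil : ¬ Group.IsNilpotent K := fun hn => h (le_sSup ⟨hKn, hn⟩)
  obtain ⟨p, hp, P, hP⟩ : ∃ (p : ℕ) (_ : Fact p.Prime) (P : Sylow p K),
      ¬ (P : Subgroup K).Normal := by
    by_contra hcon
    push Not at hcon
    exact hnil (((Group.isNilpotent_of_finite_tfae (G := K)).out 0 3).mpr hcon)
  obtain ⟨Q, hQ⟩ : ∃ Q : Subgroup G, Q = (P : Subgroup K).map K.subtype := ⟨_, rfl⟩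
  have hfr := Sylow.normalizer_sup_eq_top P
  rw [← hQ] at hfr
  have hNtop : Subgroup.normalizer (Q : Set G) ≠ ⊤ := by
    intro htop
    apply hP
    have hQn : Q.Normal := Subgroup.normalizer_eq_top_iff.mp htop
    have h1 : (P : Subgroup K) = Q.comap K.subtype := by
      rw [hQ, Subgroup.comap_map_eq_self_of_injective K.subtype_injective]
    rw [h1]
    exact hQn.comap _
  obtain ⟨M, hM, hNM⟩ := (eq_top_or_exists_le_coatom (Subgroup.normalizer (Q : Set G))).resolve_left
    hNtop
  have hKM : ¬ K ≤ M := by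
    intro hle
    apply hM.1
    rw [eq_top_iff, ← hfr]
    exact sup_le hNM hle
  rcases key hχ K hK M hM hKM with h1 | h1
  · exact h1
  · exfalso
    have hχ1 := irr_one_ne_zero hχ
    have hD : ∀ d ∈ K ⊓ M, ∀ x : G, x⁻¹ * d * x ∈ M := by
      intro d hd
      rcases h1 d hd.2 with h2 | h2
      · rw [(hK d).mp hd.1] at h2
        exact absurd h2 hχ1
      · exact h2
    haveI hDn : (K ⊓ M).Normal := ⟨fun d hd g => ⟨hKn.conj_mem d hd.1 g, by
      have := hD d hd g⁻¹
      simpa using this⟩⟩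
    have hQK : Q ≤ K := hQ ▸ Subgroup.map_subtype_le _
    have hQD : Q ≤ K ⊓ M := le_inf hQK (Subgroup.le_normalizer.trans hNM)
    have hQp : IsPGroup p Q := hQ ▸ P.2.map _
    obtain ⟨S, hS⟩ := (hQp.comap_of_injective (K ⊓ M).subtype
      (K ⊓ M).subtype_injective).exists_le_sylow
    have hSQ : (S : Subgroup (K ⊓ M : Subgroup G)).map (K ⊓ M).subtype = Q := by
      have hRp : IsPGroup p ((S : Subgroup (K ⊓ M : Subgroup G)).map (K ⊓ M).subtype) := S.2.map _
      have hRK : (S : Subgroup (K ⊓ M : Subgroup G)).map (K ⊓ M).subtype ≤ K :=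
        (Subgroup.map_subtype_le _).trans inf_le_left
      have hQR : Q ≤ (S : Subgroup (K ⊓ M : Subgroup G)).map (K ⊓ M).subtype := by
        rw [← Subgroup.map_subgroupOf_eq_of_le hQD]
        exact Subgroup.map_mono hS
      have h3 := P.is_maximal' (Q := ((S : Subgroup (K ⊓ M : Subgroup G)).map
        (K ⊓ M).subtype).subgroupOf K) (hRp.comap_of_injective K.subtype K.subtype_injective) (by
          intro x hx
          exact hQR (hQ ▸ ⟨x, hx, rfl⟩))
      rw [← Subgroup.map_subgroupOf_eq_of_le hRK, h3, hQ]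
    have hfr2 := Sylow.normalizer_sup_eq_top S
    rw [hSQ] at hfr2
    apply hM.1
    rw [eq_top_iff, ← hfr2]
    exact sup_le hNM inf_le_right

theorem case2 {χ : G → ℂ} (hχ : IsIrrCharacter G χ) (K : Subgroup G) [hKn : K.Normal]
    (hK : ∀ g, g ∈ K ↔ χ g = χ 1) (hKF : K = fittingSubgroup G)
    (hsolv : Group.IsSolvable (G ⧸ K)) (hne : K ≠ ⊤) :
    ∃ ψ : IrrCharacter G, charDegree χ < charDegree (ψ : G → ℂ) ∧
      ∃ L : Subgroup G, (∀ g, g ∈ L ↔ (ψ : G → ℂ) g = (ψ : G → ℂ) 1) ∧ L < K := by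
  by_contra hcon
  have hbad : ∀ M : Subgroup G, IsCoatom M → ¬ K ≤ M → ∀ m ∈ M, χ m = 0 ∨
      ∀ x : G, x⁻¹ * m * x ∈ M := fun M hM hKM => (key hχ K hK M hM hKM).resolve_left hcon
  haveI hKnil : Group.IsNilpotent K := hKF ▸ Cfsg.Agent.S0008.result
  haveI hG : Group.IsSolvable G :=
    Group.isSolvable_of_ker_le_range K.subtype (QuotientGroup.mk' K) (by simp)
  have hχc := IsIrrCharacter.isCharacter hχ
  have hcomm : (⁅K, K⁆ : Subgroup G) ≤ frattini G := by
    rw [← Subgroup.map_subtype_commutator]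
    exact (Subgroup.map_mono Cfsg.Agent.Lib.Helper4.commutator_le_frattini_of_nilpotent).trans
      (Cfsg.Agent.Lib.Helper4.map_frattini_le_frattini K)
  have hvan : ∀ x, x ∉ K → χ x = 0 := by
    intro x hx
    have h1 : ∃ f ∈ K, x * f * x⁻¹ * f⁻¹ ∉ frattini G := by
      by_contra h
      push Not at h
      apply hx
      have h2 : (x : G ⧸ frattini G) ∈
          Subgroup.centralizer (fittingSubgroup (G ⧸ frattini G) : Set (G ⧸ frattini G)) := by
        rw [Cfsg.Agent.S0070.result, Subgroup.mem_centralizer_iff]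
        rintro _ ⟨f, hf, rfl⟩
        have h3 := h f (hKF ▸ hf)
        rw [← QuotientGroup.eq_one_iff] at h3
        show (f : G ⧸ frattini G) * (x : G ⧸ frattini G) = (x : G ⧸ frattini G) * f
        have h4 : (x : G ⧸ frattini G) * f * (x : G ⧸ frattini G)⁻¹ * (f : G ⧸ frattini G)⁻¹ = 1 :=
          h3
        calc (f : G ⧸ frattini G) * (x : G ⧸ frattini G)
            = ((x : G ⧸ frattini G) * f * (x : G ⧸ frattini G)⁻¹ * (f : G ⧸ frattini G)⁻¹) *
              (f * x) := by rw [h4, one_mul]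
          _ = (x : G ⧸ frattini G) * f := by group
      have h3 := Cfsg.Agent.S0044.result (G := G ⧸ frattini G) h2
      rw [Cfsg.Agent.S0070.result] at h3
      obtain ⟨f, hf, hfx⟩ := h3
      have h4 : f⁻¹ * x ∈ frattini G := QuotientGroup.eq.mp hfx
      have h5 : frattini G ≤ fittingSubgroup G := le_sSup ⟨inferInstance, frattini_nilpotent⟩
      rw [hKF]
      have := mul_mem hf (h5 h4)
      simpa using this
    obtain ⟨f, hf, hfx⟩ := h1
    obtain ⟨M, hM, hxM⟩ : ∃ M : Subgroup G, IsCoatom M ∧ x * f * x⁻¹ * f⁻¹ ∉ M := by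
      by_contra h
      push Not at h
      exact hfx (Cfsg.Agent.Lib.Helper1.mem_frattini_iff.mpr h)
    have hKM : ¬ K ≤ M := by
      intro hle
      apply hxM
      apply hle
      exact K.mul_mem (hKn.conj_mem f hf x) (K.inv_mem hf)
    have hsup : K ⊔ M = ⊤ := by
      apply hM.2
      exact lt_of_le_of_ne le_sup_right (fun h => hKM (by rw [h]; exact le_sup_left))
    obtain ⟨k, hk, m, hm, rfl⟩ := exists_mul_of_sup K M hsup x
    rw [Cfsg.Agent.Lib.Helper13.apply_mul_of_ker K hχc (fun n hn => (hK n).mp hn) hk m]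
    rcases hbad M hM hKM m hm with h0 | hcore
    · exact h0
    · exfalso
      apply hxM
      have e1 : k * m * f * (k * m)⁻¹ * f⁻¹ =
          (k * m * k⁻¹) * (k * f * m * f⁻¹ * k⁻¹)⁻¹ * (k * f * k⁻¹ * f⁻¹) := by group
      rw [e1]
      refine M.mul_mem (M.mul_mem ?_ (M.inv_mem ?_)) ?_
      · have := hcore k⁻¹
        simpa using this
      · have := hcore (k * f)⁻¹
        simpa [mul_assoc] using this
      · apply frattini_le_coatom hM
        apply hcomm
        have := Subgroup.commutator_mem_commutator hk hf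
        rwa [commutatorElement_def] at this
  apply hne
  have hsumχ : ∑ g : G, χ g = (Nat.card K : ℂ) * χ 1 := by
    have h1 : ∀ g : G, χ g = if g ∈ K then χ 1 else 0 := by
      intro g
      by_cases hg : g ∈ K
      · rw [if_pos hg, (hK g).mp hg]
      · rw [if_neg hg, hvan g hg]
    rw [Finset.sum_congr rfl (fun g _ => h1 g), ← Finset.sum_filter, Finset.sum_const, nsmul_eq_mul,
      ← Fintype.card_subtype, ← Nat.card_eq_fintype_card]
  have h2 := classInner_irr hχ (isIrrCharacter_one (G := G))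
  have h3 : χ = fun _ => 1 := by
    by_contra h4
    rw [if_neg h4] at h2
    simp only [classInner, map_one, mul_one] at h2
    rw [hsumχ] at h2
    have hG0 : (Nat.card G : ℂ) ≠ 0 := by exact_mod_cast (Nat.card_pos (α := G)).ne'
    have hK0 : (Nat.card K : ℂ) ≠ 0 := by exact_mod_cast (Nat.card_pos (α := K)).ne'
    exact (mul_ne_zero (inv_ne_zero hG0) (mul_ne_zero hK0 (irr_one_ne_zero hχ))) h2
  rw [eq_top_iff]
  intro g _
  rw [hK, h3]

end Cfsg.Agent.Lib.Helper13.Broline
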