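import Mathlib
import Cfsg.Prelude.Def_OddOrderChar
import Cfsg.Agent.Lib.Helper13.Clifford1

set_option autoImplicit false
set_option linter.style.haveILetI false
set_option linter.unusedSectionVars false

/-! The Dade isometry (Peterfalvi, section 2). -/

namespace Cfsg.Agent.Lib.Helper13.DadeIso

open Cfsg.Agent.Lib.Helper2 Cfsg.Agent.Lib.Helper13 Cfsg.Agent.Lib.Lead
open scoped ComplexConjugate

universe u

variable {G : Type u} [Group G] {A : Set G} {L : Subgroup G} {H : G → Subgroup G}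

theorem card_sOf {K T : Subgroup G} (h : K ≤ T) : Nat.card (K.subgroupOf T) = Nat.card K :=
  Nat.card_congr (Subgroup.subgroupOfEquivOfLe h).toEquiv

theorem commute_of_mem_H (hD : Cfsg.DadeHypothesis A L H) {a u : G} (ha : a ∈ A) (hu : u ∈ H a) :
    Commute a u := by
  have := hD.le_centralizer a ha hu
  rw [Subgroup.mem_centralizer_singleton_iff] at this
  exact this.symm

theorem mem_CL (hD : Cfsg.DadeHypothesis A L H) {a : G} (ha : a ∈ A) :
    a ∈ L ⊓ Subgroup.centralizer ({a} : Set G) :=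
  ⟨hD.subset ha, Subgroup.mem_centralizer_singleton_iff.mpr rfl⟩

variable [Finite G]

/-- the `π`-part of `a u` is `a` -/
theorem exists_pow (hD : Cfsg.DadeHypothesis A L H) {a b u v : G} (ha : a ∈ A) (hb : b ∈ A)
    (hu : u ∈ H a) (hv : v ∈ H b) : ∃ k : ℕ, (a * u) ^ k = a ∧ (b * v) ^ k = b := by
  set m := Nat.card (H a) * Nat.card (H b) with hm
  set n := Nat.card ↥(L ⊓ Subgroup.centralizer ({a} : Set G)) *
    Nat.card ↥(L ⊓ Subgroup.centralizer ({b} : Set G)) with hn
  have hcop : Nat.Coprime m n :=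
    Nat.Coprime.mul_left
      (Nat.Coprime.mul_right (hD.coprime a ha a ha) (hD.coprime a ha b hb))
      (Nat.Coprime.mul_right (hD.coprime b hb a ha) (hD.coprime b hb b hb))
  obtain ⟨k, hk0, hk1⟩ := Nat.chineseRemainder hcop 0 1
  have key : ∀ {c w : G}, c ∈ A → w ∈ H c → Nat.card (H c) ∣ m →
      Nat.card ↥(L ⊓ Subgroup.centralizer ({c} : Set G)) ∣ n → (c * w) ^ k = c := by
    intro c w hc hw h1 h2
    rw [(commute_of_mem_H hD hc hw).mul_pow]
    have e1 : w ^ k = 1 := by
      rw [← orderOf_dvd_iff_pow_eq_one]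
      have d1 : orderOf w ∣ Nat.card (H c) := by
        have := orderOf_dvd_natCard (⟨w, hw⟩ : H c)
        rwa [Subgroup.orderOf_mk] at this
      exact d1.trans (h1.trans ((Nat.modEq_zero_iff_dvd).mp hk0))
    have e2 : c ^ k = c ^ 1 := by
      rw [pow_eq_pow_iff_modEq]
      have d1 : orderOf c ∣ Nat.card ↥(L ⊓ Subgroup.centralizer ({c} : Set G)) := by
        have := orderOf_dvd_natCard (⟨c, mem_CL hD hc⟩ : ↥(L ⊓ Subgroup.centralizer ({c} : Set G)))
        rwa [Subgroup.orderOf_mk] at this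
      exact hk1.of_dvd (d1.trans h2)
    rw [e1, e2, pow_one, mul_one]
  exact ⟨k, key ha hu (dvd_mul_right _ _) (dvd_mul_right _ _),
    key hb hv (dvd_mul_left _ _) (dvd_mul_left _ _)⟩

theorem conj_eq (hD : Cfsg.DadeHypothesis A L H) {a b u v x : G} (ha : a ∈ A) (hb : b ∈ A)
    (hu : u ∈ H a) (hv : v ∈ H b) (h : x * (a * u) * x⁻¹ = b * v) : x * a * x⁻¹ = b := by
  obtain ⟨k, h1, h2⟩ := exists_pow hD ha hb hu hv
  rw [← h1, ← conj_pow, h, h2]

/-- `H a` and `C_L(a)` are complements in `C_G(a)` -/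
theorem isComplement' (hD : Cfsg.DadeHypothesis A L H) {a : G} (ha : a ∈ A) :
    ((H a).subgroupOf (Subgroup.centralizer ({a} : Set G))).IsComplement'
      ((L ⊓ Subgroup.centralizer ({a} : Set G)).subgroupOf (Subgroup.centralizer ({a} : Set G))) := by
  haveI : ((H a).subgroupOf (Subgroup.centralizer ({a} : Set G))).Normal := by
    constructor
    intro n hn g
    exact hD.conj_mem_H a ha g g.2 n hn
  apply Subgroup.isComplement'_of_disjoint_and_mul_eq_univ
  · rw [Subgroup.disjoint_def]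
    intro x h1 h2
    have h3 : (x : G) ∈ H a ⊓ (L ⊓ Subgroup.centralizer ({a} : Set G)) := ⟨h1, h2⟩
    rw [hD.inf_eq_bot a ha, Subgroup.mem_bot] at h3
    exact Subtype.ext h3
  · rw [← Subgroup.normal_mul, ← Subgroup.subgroupOf_sup (hD.le_centralizer a ha) inf_le_right,
      hD.sup_eq a ha, Subgroup.subgroupOf_self]
    rfl

theorem card_centralizer (hD : Cfsg.DadeHypothesis A L H) {a : G} (ha : a ∈ A) :
    Nat.card (H a) * Nat.card ↥(L ⊓ Subgroup.centralizer ({a} : Set G)) =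
      Nat.card (Subgroup.centralizer ({a} : Set G)) := by
  have h := (isComplement' hD ha).card_mul_card
  rwa [card_sOf (hD.le_centralizer a ha), card_sOf inf_le_right] at h

theorem conj_mem_H (hD : Cfsg.DadeHypothesis A L H) {a b x u : G} (ha : a ∈ A) (hb : b ∈ A)
    (h : x * a * x⁻¹ = b) (hu : u ∈ H a) : x * u * x⁻¹ ∈ H b := by
  have hw : x * u * x⁻¹ ∈ Subgroup.centralizer ({b} : Set G) := by
    rw [Subgroup.mem_centralizer_singleton_iff, ← h]
    have := (commute_of_mem_H hD ha hu).eq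
    calc x * u * x⁻¹ * (x * a * x⁻¹) = x * (u * a) * x⁻¹ := by group
      _ = x * (a * u) * x⁻¹ := by rw [this]
      _ = x * a * x⁻¹ * (x * u * x⁻¹) := by group
  haveI : ((H b).subgroupOf (Subgroup.centralizer ({b} : Set G))).Normal := by
    constructor
    intro n hn g
    exact hD.conj_mem_H b hb g g.2 n hn
  have hidx := (isComplement' hD hb).symm.index_eq_card
  rw [card_sOf inf_le_right] at hidx
  set w : Subgroup.centralizer ({b} : Set G) := ⟨x * u * x⁻¹, hw⟩ with hwdef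
  have h1 := Subgroup.pow_index_mem ((H b).subgroupOf (Subgroup.centralizer ({b} : Set G))) w
  have hord : orderOf w ∣ Nat.card (H a) := by
    rw [hwdef, Subgroup.orderOf_mk]
    have e : orderOf (x * u * x⁻¹) = orderOf u := by
      have := orderOf_injective (MulAut.conj x).toMonoidHom (MulAut.conj x).injective u
      simpa using this
    rw [e]
    have := orderOf_dvd_natCard (⟨u, hu⟩ : H a)
    rwa [Subgroup.orderOf_mk] at this
  have hcop : Nat.Coprime ((H b).subgroupOf (Subgroup.centralizer ({b} : Set G))).index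
      (orderOf w) := by
    rw [hidx]
    exact (Nat.Coprime.coprime_dvd_left hord (hD.coprime a ha b hb)).symm
  obtain ⟨m, hm⟩ := exists_pow_eq_self_of_coprime hcop
  have h2 := Subgroup.pow_mem _ h1 m
  rw [hm] at h2
  exact h2

theorem card_H_conj (hD : Cfsg.DadeHypothesis A L H) {a b x : G} (ha : a ∈ A) (hb : b ∈ A)
    (h : x * a * x⁻¹ = b) : Nat.card (H b) = Nat.card (H a) := by
  have h' : x⁻¹ * b * x⁻¹⁻¹ = a := by rw [← h]; group
  apply Nat.card_congr
  exact
    { toFun := fun v => ⟨x⁻¹ * v * x⁻¹⁻¹, conj_mem_H hD hb ha h' v.2⟩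
      invFun := fun u => ⟨x * u * x⁻¹, conj_mem_H hD ha hb h u.2⟩
      left_inv := fun v => Subtype.ext (by simp [mul_assoc])
      right_inv := fun u => Subtype.ext (by simp [mul_assoc]) }

theorem card_eq_mul_of_fibres {X Y : Type*} [Finite X] [Finite Y] (F : X → Y) (m : ℕ)
    (h : ∀ b, Nat.card {a // F a = b} = m) : Nat.card X = m * Nat.card Y := by
  classical
  cases nonempty_fintype Y
  rw [Nat.card_congr (Equiv.sigmaFiberEquiv F).symm, Nat.card_sigma,
    Finset.sum_congr rfl fun b _ => h b, Finset.sum_const, Finset.card_univ,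
    Nat.card_eq_fintype_card, smul_eq_mul, mul_comm]

theorem card_mul_card_eq (L C : Subgroup G) :
    Nat.card L * Nat.card C =
      Nat.card ↥(L ⊓ C) * Nat.card {y : G // ∃ l ∈ L, ∃ c ∈ C, l * c = y} := by
  rw [← Nat.card_prod]
  apply card_eq_mul_of_fibres
    (fun p : L × C => (⟨(p.1 : G) * p.2, p.1, p.1.2, p.2, p.2.2, rfl⟩ :
      {y : G // ∃ l ∈ L, ∃ c ∈ C, l * c = y}))
  rintro ⟨y, l₀, hl₀, c₀, hc₀, rfl⟩
  apply Nat.card_congr
  exact
    { toFun := fun p => ⟨l₀⁻¹ * (p.1.1 : G), L.mul_mem (L.inv_mem hl₀) p.1.1.2, by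
        have h : (p.1.1 : G) * p.1.2 = l₀ * c₀ := congrArg Subtype.val p.2
        have : l₀⁻¹ * (p.1.1 : G) = c₀ * (p.1.2 : G)⁻¹ := by
          rw [eq_mul_inv_iff_mul_eq, mul_assoc, h, inv_mul_cancel_left]
        rw [this]
        exact C.mul_mem hc₀ (C.inv_mem p.1.2.2)⟩
      invFun := fun t => ⟨(⟨l₀ * t, L.mul_mem hl₀ t.2.1⟩, ⟨(t : G)⁻¹ * c₀,
        C.mul_mem (C.inv_mem t.2.2) hc₀⟩), Subtype.ext (by simp [mul_assoc])⟩
      left_inv := fun p => by
        have h : (p.1.1 : G) * p.1.2 = l₀ * c₀ := congrArg Subtype.val p.2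
        apply Subtype.ext
        apply Prod.ext
        · apply Subtype.ext
          simp
        · apply Subtype.ext
          show (l₀⁻¹ * (p.1.1 : G))⁻¹ * c₀ = p.1.2
          rw [mul_inv_rev, inv_inv, mul_assoc]
          exact (inv_mul_eq_iff_eq_mul).mpr h.symm
      right_inv := fun t => Subtype.ext (by simp) }

theorem card_conj_mem (hD : Cfsg.DadeHypothesis A L H) {a : G} (ha : a ∈ A) :
    Nat.card {y : G // y * a * y⁻¹ ∈ A} = Nat.card L * Nat.card (H a) := by
  have h1 := card_mul_card_eq L (Subgroup.centralizer ({a} : Set G))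
  rw [← card_centralizer hD ha] at h1
  have h2 : Nat.card {y : G // ∃ l ∈ L, ∃ c ∈ Subgroup.centralizer ({a} : Set G), l * c = y} =
      Nat.card {y : G // y * a * y⁻¹ ∈ A} := by
    apply Nat.card_congr
    apply Equiv.subtypeEquivRight
    intro y
    constructor
    · rintro ⟨l, hl, c, hc, rfl⟩
      rw [Subgroup.mem_centralizer_singleton_iff] at hc
      have : l * c * a * (l * c)⁻¹ = l * a * l⁻¹ := by
        rw [mul_assoc l c a, hc]; group
      rw [this]
      exact hD.conj_mem l hl a ha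
    · intro hy
      obtain ⟨l, hl, hla⟩ := hD.fusion a ha y hy
      refine ⟨l, hl, l⁻¹ * y, ?_, by group⟩
      rw [Subgroup.mem_centralizer_singleton_iff]
      have : y * a = l * a * l⁻¹ * y := by rw [hla]; group
      calc l⁻¹ * y * a = l⁻¹ * (y * a) := by group
        _ = l⁻¹ * (l * a * l⁻¹ * y) := by rw [this]
        _ = a * (l⁻¹ * y) := by group
  rw [h2] at h1
  have hpos : 0 < Nat.card ↥(L ⊓ Subgroup.centralizer ({a} : Set G)) := Nat.card_pos
  apply Nat.eq_of_mul_eq_mul_left hpos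
  rw [← h1]; ring

/-- the support of the Dade map -/
def supp (A : Set G) (L : Subgroup G) (H : G → Subgroup G) : Set G :=
  {g | ∃ a : L, (a : G) ∈ A ∧ ∃ x : G, ∃ u ∈ H (a : G), x * g * x⁻¹ = (a : G) * u}

section count

variable {K : Type*} [Field K] [CharZero K] [Fintype G] [Fintype L]

open Classical in
/-- weighted number of ways of conjugating `g` into some `a H(a)` -/
noncomputable def W (K : Type*) [Field K] (A : Set G) (L : Subgroup G) [Fintype L]
    (H : G → Subgroup G) (g : G) : K :=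
  ∑ y : G, ∑ a : L, ∑ u : G,
    if (a : G) ∈ A ∧ u ∈ H (a : G) ∧ y * g * y⁻¹ = (a : G) * u then (Nat.card (H (a : G)) : K)⁻¹
    else 0

theorem W_of_not_mem {g : G} (hg : g ∉ supp A L H) : W K A L H g = 0 := by
  classical
  unfold W
  apply Finset.sum_eq_zero; intro y _
  apply Finset.sum_eq_zero; intro a _
  apply Finset.sum_eq_zero; intro u _
  rw [if_neg]
  rintro ⟨h1, h2, h3⟩
  exact hg ⟨a, h1, y, u, h2, h3⟩

theorem W_of_mem (hD : Cfsg.DadeHypothesis A L H) {g : G} (hg : g ∈ supp A L H) :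
    W K A L H g = (Nat.card L : K) := by
  classical
  obtain ⟨a₀, ha₀, x₀, u₀, hu₀, hg⟩ := hg
  have hinner : ∀ y : G, (∑ a : L, ∑ u : G,
      if (a : G) ∈ A ∧ u ∈ H (a : G) ∧ y * g * y⁻¹ = (a : G) * u then
        (Nat.card (H (a : G)) : K)⁻¹ else 0) =
      if (y * x₀⁻¹) * a₀ * (y * x₀⁻¹)⁻¹ ∈ A then (Nat.card (H (a₀ : G)) : K)⁻¹ else 0 := by
    intro y
    set z := y * x₀⁻¹ with hz
    have hy : y * g * y⁻¹ = z * ((a₀ : G) * u₀) * z⁻¹ := by
      rw [← hg, hz]; group
    rw [hy]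
    by_cases hb : z * a₀ * z⁻¹ ∈ A
    · rw [if_pos hb]
      rw [Finset.sum_eq_single (⟨z * a₀ * z⁻¹, hD.subset hb⟩ : L)]
      · rw [Finset.sum_eq_single (z * u₀ * z⁻¹)]
        · rw [if_pos ⟨hb, conj_mem_H hD ha₀ hb rfl hu₀, by group⟩, card_H_conj hD ha₀ hb rfl]
        · intro u _ hu
          rw [if_neg]
          rintro ⟨-, -, h3⟩
          apply hu
          have : z * ((a₀ : G) * u₀) * z⁻¹ = z * a₀ * z⁻¹ * (z * u₀ * z⁻¹) := by group
          rw [this] at h3
          exact (mul_left_cancel h3).symm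
        · intro h; exact absurd (Finset.mem_univ _) h
      · intro a _ ha
        apply Finset.sum_eq_zero; intro u _
        rw [if_neg]
        rintro ⟨h1, h2, h3⟩
        apply ha
        exact Subtype.ext (conj_eq hD ha₀ h1 hu₀ h2 h3).symm
      · intro h; exact absurd (Finset.mem_univ _) h
    · rw [if_neg hb]
      apply Finset.sum_eq_zero; intro a _
      apply Finset.sum_eq_zero; intro u _
      rw [if_neg]
      rintro ⟨h1, h2, h3⟩
      apply hb
      rw [conj_eq hD ha₀ h1 hu₀ h2 h3]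
      exact h1
  unfold W
  rw [Finset.sum_congr rfl fun y _ => hinner y]
  have hre := Fintype.sum_equiv (Equiv.mulRight x₀⁻¹)
    (fun y => if (y * x₀⁻¹) * (a₀ : G) * (y * x₀⁻¹)⁻¹ ∈ A then (Nat.card (H (a₀ : G)) : K)⁻¹ else 0)
    (fun z => if z * (a₀ : G) * z⁻¹ ∈ A then (Nat.card (H (a₀ : G)) : K)⁻¹ else 0) (fun y => rfl)
  rw [hre]
  rw [← Finset.sum_filter, Finset.sum_const, ← Fintype.card_subtype, ← Nat.card_eq_fintype_card,
    card_conj_mem hD ha₀, nsmul_eq_mul]
  have : (Nat.card (H (a₀ : G)) : K) ≠ 0 := by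
    exact_mod_cast (Nat.card_pos (α := H (a₀ : G))).ne'
  push_cast
  field_simp

open Classical in
theorem sum_mul_W {F : G → K} (hF : ∀ g h : G, F (h * g * h⁻¹) = F g) :
    ∑ g : G, F g * W K A L H g = (Nat.card G : K) * ∑ a : L, ∑ u : G,
      if (a : G) ∈ A ∧ u ∈ H (a : G) then (Nat.card (H (a : G)) : K)⁻¹ * F ((a : G) * u) else 0 := by
  classical
  have h1 : ∑ g : G, F g * W K A L H g = ∑ _y : G, ∑ a : L, ∑ u : G,
      if (a : G) ∈ A ∧ u ∈ H (a : G) then (Nat.card (H (a : G)) : K)⁻¹ * F ((a : G) * u)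
      else 0 := by
    unfold W
    simp only [Finset.mul_sum]
    rw [Finset.sum_comm]
    refine Finset.sum_congr rfl fun y _ => ?_
    rw [Finset.sum_comm]
    refine Finset.sum_congr rfl fun a _ => ?_
    rw [Finset.sum_comm]
    refine Finset.sum_congr rfl fun u _ => ?_
    rw [Finset.sum_eq_single (y⁻¹ * ((a : G) * u) * y)]
    · have e : y * (y⁻¹ * ((a : G) * u) * y) * y⁻¹ = (a : G) * u := by group
      have e2 : F (y⁻¹ * ((a : G) * u) * y) = F ((a : G) * u) := by
        have := hF ((a : G) * u) y⁻¹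
        rwa [inv_inv] at this
      rw [e, e2]
      by_cases hP : (a : G) ∈ A ∧ u ∈ H (a : G)
      · rw [if_pos ⟨hP.1, hP.2, rfl⟩, if_pos hP, mul_comm]
      · rw [if_neg (fun h => hP ⟨h.1, h.2.1⟩), if_neg hP, mul_zero]
    · intro g _ hg
      rw [if_neg, mul_zero]
      rintro ⟨-, -, h3⟩
      apply hg
      rw [← h3]; group
    · intro h; exact absurd (Finset.mem_univ _) h
  rw [h1, Finset.sum_const, Finset.card_univ, ← Nat.card_eq_fintype_card, nsmul_eq_mul]

open Classical in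
/-- **the Dade sum formula** -/
theorem sum_supp (hD : Cfsg.DadeHypothesis A L H) {F : G → K}
    (hF : ∀ g h : G, F (h * g * h⁻¹) = F g) :
    (Nat.card G : K)⁻¹ * ∑ g : G, (if g ∈ supp A L H then F g else 0) =
      (Nat.card L : K)⁻¹ * ∑ a : L, ∑ u : G,
      if (a : G) ∈ A ∧ u ∈ H (a : G) then (Nat.card (H (a : G)) : K)⁻¹ * F ((a : G) * u) else 0 := by
  have h := sum_mul_W (K := K) (A := A) (L := L) (H := H) hF
  have h1 : ∑ g : G, F g * W K A L H g =
      (Nat.card L : K) * ∑ g : G, (if g ∈ supp A L H then F g else 0) := by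
    rw [Finset.mul_sum]
    refine Finset.sum_congr rfl fun g _ => ?_
    by_cases hg : g ∈ supp A L H
    · rw [W_of_mem hD hg, if_pos hg, mul_comm]
    · rw [W_of_not_mem hg, if_neg hg, mul_zero, mul_zero]
  rw [h1] at h
  have hG : (Nat.card G : K) ≠ 0 := by exact_mod_cast (Nat.card_pos (α := G)).ne'
  have hL : (Nat.card L : K) ≠ 0 := by exact_mod_cast (Nat.card_pos (α := L)).ne'
  generalize (∑ g : G, (if g ∈ supp A L H then F g else 0)) = S at h ⊢
  generalize (∑ a : L, ∑ u : G,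
      if (a : G) ∈ A ∧ u ∈ H (a : G) then (Nat.card (H (a : G)) : K)⁻¹ * F ((a : G) * u)
      else 0) = T at h ⊢
  field_simp
  linear_combination h

end count

theorem dade_apply (hD : Cfsg.DadeHypothesis A L H) {α : L → ℂ} (hα : Cfsg.IsClassFunction L α)
    {g : G} {a : L} (ha : (a : G) ∈ A) {x u : G} (hu : u ∈ H (a : G))
    (h : x * g * x⁻¹ = (a : G) * u) : Cfsg.dadeIsometry A L H α g = α a := by
  have hex : ∃ a : L, (a : G) ∈ A ∧ ∃ x : G, ∃ u ∈ H (a : G), x * g * x⁻¹ = (a : G) * u :=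
    ⟨a, ha, x, u, hu, h⟩
  unfold Cfsg.dadeIsometry
  rw [dif_pos hex]
  obtain ⟨ha', x', u', hu', h'⟩ := Classical.choose_spec hex
  set a' := Classical.choose hex
  have h1 : (x' * x⁻¹) * ((a : G) * u) * (x' * x⁻¹)⁻¹ = (a' : G) * u' := by
    rw [← h, ← h']; group
  have h2 := conj_eq hD ha ha' hu hu' h1
  obtain ⟨l, hl, hla⟩ := hD.fusion a ha (x' * x⁻¹) (by rw [h2]; exact ha')
  have h3 : a' = (⟨l, hl⟩ : L) * a * (⟨l, hl⟩ : L)⁻¹ := by
    apply Subtype.ext
    rw [← h2, ← hla]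
    rfl
  rw [h3, hα]

theorem dade_of_not_mem {α : L → ℂ} {g : G} (hg : g ∉ supp A L H) :
    Cfsg.dadeIsometry A L H α g = 0 := by
  unfold Cfsg.dadeIsometry
  exact dif_neg hg

theorem supp_conj {g : G} (h : G) (hg : g ∈ supp A L H) : h * g * h⁻¹ ∈ supp A L H := by
  obtain ⟨a, ha, x, u, hu, hx⟩ := hg
  exact ⟨a, ha, x * h⁻¹, u, hu, by rw [← hx]; group⟩

theorem dade_isClassFunction (hD : Cfsg.DadeHypothesis A L H) {α : L → ℂ}
    (hα : Cfsg.IsClassFunction L α) : Cfsg.IsClassFunction G (Cfsg.dadeIsometry A L H α) := by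
  intro g h
  by_cases hg : g ∈ supp A L H
  · obtain ⟨a, ha, x, u, hu, hx⟩ := hg
    rw [dade_apply hD hα ha hu hx,
      dade_apply hD hα ha hu (x := x * h⁻¹) (g := h * g * h⁻¹) (by rw [← hx]; group)]
  · rw [dade_of_not_mem hg, dade_of_not_mem]
    intro hc
    apply hg
    have := supp_conj h⁻¹ hc
    simpa [mul_assoc] using this

open Classical in
theorem finsum_mem_eq_sum_ite {X M : Type*} [Fintype X] [AddCommMonoid M] (s : Set X)
    (f : X → M) : ∑ᶠ x ∈ s, f x = ∑ x, if x ∈ s then f x else 0 := by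
  rw [finsum_mem_def, finsum_eq_sum_of_fintype]
  simp [Set.indicator_apply]

section iso

variable [Fintype G] [Fintype L]

theorem dade_adjoint (hD : Cfsg.DadeHypothesis A L H) {α : L → ℂ}
    (hα : Cfsg.IsClassFunction L α) (hαA : ∀ x : L, (x : G) ∉ A → α x = 0)
    {χ : G → ℂ} {ψ : L → ℂ} (hχ : Cfsg.IsClassFunction G χ)
    (hψ : ∀ a : L, (a : G) ∈ A →
      ψ a = (Nat.card (H a) : ℂ)⁻¹ * ∑ᶠ u ∈ (H a : Set G), χ (a * u)) :
    Cfsg.classInner (Cfsg.dadeIsometry A L H α) χ = Cfsg.classInner α ψ := by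
  classical
  have hcl := dade_isClassFunction hD hα
  have h := sum_supp (K := ℂ) hD
    (F := fun g => Cfsg.dadeIsometry A L H α g * conj (χ g))
    (fun g h => by simp only [hcl g h, hχ g h])
  simp only [Cfsg.classInner]
  have h1 : ∑ g : G, Cfsg.dadeIsometry A L H α g * conj (χ g) = ∑ g : G,
      (if g ∈ supp A L H then Cfsg.dadeIsometry A L H α g * conj (χ g) else 0) := by
    refine Finset.sum_congr rfl fun g _ => ?_
    by_cases hg : g ∈ supp A L H
    · rw [if_pos hg]
    · rw [if_neg hg, dade_of_not_mem hg, zero_mul]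
  rw [h1, h]
  congr 1
  refine Finset.sum_congr rfl fun a _ => ?_
  by_cases ha : (a : G) ∈ A
  · rw [hψ a ha, finsum_mem_eq_sum_ite, map_mul, map_sum, Finset.mul_sum, Finset.mul_sum]
    refine Finset.sum_congr rfl fun u _ => ?_
    by_cases hu : u ∈ H (a : G)
    · rw [if_pos ⟨ha, hu⟩, if_pos (show u ∈ (H (a : G) : Set G) from hu),
        dade_apply hD hα ha hu (x := 1) (by simp)]
      simp only [map_inv₀, map_natCast]
      ring
    · rw [if_neg (fun h => hu h.2), if_neg (show ¬ u ∈ (H (a : G) : Set G) from hu)]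
      simp
  · rw [hαA a ha, zero_mul]
    apply Finset.sum_eq_zero
    intro u _
    rw [if_neg (fun h => ha h.1)]

theorem dade_avg (hD : Cfsg.DadeHypothesis A L H) {β : L → ℂ}
    (hβ : Cfsg.IsClassFunction L β) (a : L) (ha : (a : G) ∈ A) :
    β a = (Nat.card (H a) : ℂ)⁻¹ *
      ∑ᶠ u ∈ (H a : Set G), Cfsg.dadeIsometry A L H β (a * u) := by
  classical
  rw [finsum_mem_eq_sum_ite]
  have h1 : ∀ u : G, (if u ∈ (H (a : G) : Set G) then Cfsg.dadeIsometry A L H β (a * u) else 0) =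
      if u ∈ (H (a : G) : Set G) then β a else 0 := by
    intro u
    by_cases hu : u ∈ (H (a : G) : Set G)
    · rw [if_pos hu, if_pos hu, dade_apply hD hβ ha hu (x := 1) (by simp)]
    · rw [if_neg hu, if_neg hu]
  rw [Finset.sum_congr rfl fun u _ => h1 u, ← Finset.sum_filter, Finset.sum_const,
    ← Fintype.card_subtype, nsmul_eq_mul]
  have h2 : Fintype.card {u : G // u ∈ (H (a : G) : Set G)} = Nat.card (H (a : G)) := by
    rw [Nat.card_eq_fintype_card]; rfl
  rw [h2]
  have : (Nat.card (H (a : G)) : ℂ) ≠ 0 := by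
    exact_mod_cast (Nat.card_pos (α := H (a : G))).ne'
  field_simp

end iso

end Cfsg.Agent.Lib.Helper13.DadeIso
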