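import Mathlib
import Cfsg.Prelude.Def_OddOrderChar
import Cfsg.Agent.Lib.Helper13.DadeIso
import Cfsg.Agent.Lib.Helper25.AvgNormal
import Cfsg.Agent.Lib.Lead.Coh1

set_option autoImplicit false
set_option linter.style.haveILetI false
set_option linter.unusedSectionVars false

/-! The Dade isometry sends generalized characters to generalized characters
(Peterfalvi, (2.6)-(2.7)), dual version. -/

namespace Cfsg.Agent.Lib.Helper13.DadeGen

open Cfsg.Agent.Lib.Helper2 Cfsg.Agent.Lib.Helper13 Cfsg.Agent.Lib.Lead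
open Cfsg.Agent.Lib.Helper13.DadeIso
open scoped ComplexConjugate

universe u

/-! ### generic counting lemmas -/

theorem fibres_eq {X Y : Type*} [Finite X] [Finite Y] (Φ : X → Y) (m : ℕ)
    (hle : ∀ y, Nat.card {a // Φ a = y} ≤ m) (hcard : Nat.card X = m * Nat.card Y) :
    ∀ y, Nat.card {a // Φ a = y} = m := by
  classical
  cases nonempty_fintype Y
  have h1 : ∑ y : Y, Nat.card {a // Φ a = y} = ∑ _y : Y, m := by
    rw [← Nat.card_sigma, Nat.card_congr (Equiv.sigmaFiberEquiv Φ), hcard, Finset.sum_const,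
      Finset.card_univ, Nat.card_eq_fintype_card, smul_eq_mul, mul_comm]
  have h2 := (Finset.sum_eq_sum_iff_of_le (s := Finset.univ) (fun y _ => hle y)).mp h1
  exact fun y => h2 y (Finset.mem_univ y)

theorem sum_comp_of_fibres {X Y : Type*} [Fintype X] [Fintype Y] (Φ : X → Y) (m : ℕ)
    (h : ∀ y, Nat.card {a // Φ a = y} = m) (f : Y → ℂ) :
    ∑ a : X, f (Φ a) = (m : ℂ) * ∑ y : Y, f y := by
  classical
  rw [← Finset.sum_fiberwise (s := Finset.univ) (g := Φ), Finset.mul_sum]
  refine Finset.sum_congr rfl fun y _ => ?_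
  have h1 : ∀ a ∈ Finset.univ.filter (fun a => Φ a = y), f (Φ a) = f y := by
    intro a ha
    rw [(Finset.mem_filter.mp ha).2]
  rw [Finset.sum_congr rfl h1, Finset.sum_const, nsmul_eq_mul, ← Fintype.card_subtype,
    ← Nat.card_eq_fintype_card, h y]

/-- weighted orbit counting: integrality -/
theorem orbit_sum_int {E X : Type*} [Group E] [Finite E] [Fintype X] (act : E → X → X)
    (h1 : ∀ x, act 1 x = x) (hmul : ∀ a b x, act (a * b) x = act a (act b x)) (S : X → ℂ)
    (hS : ∀ e x, S (act e x) = S x)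
    (hint : ∀ x, ∃ n : ℤ, S x = (Nat.card {e : E // act e x = x} : ℂ) * n) :
    ∃ n : ℤ, ∑ x, S x = (Nat.card E : ℂ) * n := by
  classical
  letI : MulAction E X := { smul := act, one_smul := h1, mul_smul := hmul }
  letI : Fintype (Quotient (MulAction.orbitRel E X)) := Fintype.ofFinite _
  rw [← Finset.sum_fiberwise (s := Finset.univ)
    (g := fun x => (Quotient.mk (MulAction.orbitRel E X) x))]
  have key : ∀ ω : Quotient (MulAction.orbitRel E X), ∃ n : ℤ,
      ∑ x ∈ Finset.univ.filter (fun x => Quotient.mk (MulAction.orbitRel E X) x = ω), S x =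
        (Nat.card E : ℂ) * n := by
    intro ω
    induction ω using Quotient.inductionOn with
    | _ x0 =>
    have h1 : ∀ x ∈ Finset.univ.filter
        (fun x => Quotient.mk (MulAction.orbitRel E X) x = Quotient.mk _ x0), S x = S x0 := by
      intro x hx
      have hx' := Quotient.exact (Finset.mem_filter.mp hx).2
      obtain ⟨e, rfl⟩ : x ∈ MulAction.orbit E x0 := hx'
      exact hS e x0
    rw [Finset.sum_congr rfl h1, Finset.sum_const, nsmul_eq_mul]
    have h2 : (Finset.univ.filter
        (fun x => Quotient.mk (MulAction.orbitRel E X) x = Quotient.mk _ x0)).card =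
        Nat.card (MulAction.orbit E x0) := by
      rw [Nat.card_eq_fintype_card, Fintype.card_subtype]
      congr 1
      ext x
      simp only [Finset.mem_filter, Finset.mem_univ, true_and]
      exact Quotient.eq (r := MulAction.orbitRel E X)
    obtain ⟨n, hn⟩ := hint x0
    refine ⟨n, ?_⟩
    rw [h2, hn, ← mul_assoc]
    congr 1
    cases nonempty_fintype E
    have h3 := MulAction.card_orbit_mul_card_stabilizer_eq_card_group E x0
    have h4 : Nat.card {e : E // act e x0 = x0} = Nat.card (MulAction.stabilizer E x0) := rfl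
    rw [h4]
    simp only [← Nat.card_eq_fintype_card] at h3
    exact_mod_cast h3
  choose n hn using key
  refine ⟨∑ ω, n ω, ?_⟩
  rw [Finset.sum_congr rfl fun ω _ => hn ω, ← Finset.mul_sum]
  push_cast
  rfl

/-- the cancellation by pairing `B ↔ B △ {x}` -/
theorem sum_pairing {X : Type*} [DecidableEq X] (S : Finset (Finset X)) (x : X)
    (f : Finset X → ℂ) (hS : ∀ B ∈ S, B.Nonempty) (hx : {x} ∈ S)
    (h1 : ∀ B ∈ S, insert x B ∈ S) (h2 : ∀ B ∈ S, B ≠ {x} → B.erase x ∈ S) :
    ∑ B ∈ S, (-1 : ℂ) ^ (B.card + 1) * f (insert x B) = f {x} := by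
  rw [← Finset.add_sum_erase _ _ hx]
  have h0 : ∑ B ∈ S.erase {x}, (-1 : ℂ) ^ (B.card + 1) * f (insert x B) = 0 := by
    refine Finset.sum_involution (fun B _ => if x ∈ B then B.erase x else insert x B) ?_ ?_ ?_ ?_
    · intro B hB
      by_cases hxB : x ∈ B
      · rw [if_pos hxB, Finset.insert_erase hxB, Finset.insert_eq_self.mpr hxB]
        have : B.card = (B.erase x).card + 1 := (Finset.card_erase_add_one hxB).symm
        rw [this]
        ring
      · rw [if_neg hxB, Finset.insert_idem, Finset.card_insert_of_notMem hxB]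
        ring
    · intro B hB _ heq
      by_cases hxB : x ∈ B
      · rw [if_pos hxB] at heq
        have := Finset.notMem_erase x B
        rw [heq] at this
        exact this hxB
      · rw [if_neg hxB] at heq
        apply hxB
        rw [← heq]
        exact Finset.mem_insert_self _ _
    · intro B hB
      obtain ⟨hne, hBS⟩ := Finset.mem_erase.mp hB
      by_cases hxB : x ∈ B
      · rw [if_pos hxB]
        refine Finset.mem_erase.mpr ⟨?_, h2 B hBS hne⟩
        intro h
        have := Finset.notMem_erase x B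
        rw [h] at this
        exact this (Finset.mem_singleton_self x)
      · rw [if_neg hxB]
        refine Finset.mem_erase.mpr ⟨?_, h1 B hBS⟩
        intro h
        obtain ⟨b, hb⟩ := hS B hBS
        have : b ∈ insert x B := Finset.mem_insert_of_mem hb
        rw [h, Finset.mem_singleton] at this
        exact hxB (this ▸ hb)
    · intro B hB
      by_cases hxB : x ∈ B
      · simp only [if_pos hxB, Finset.notMem_erase, if_false, Finset.insert_erase hxB]
      · simp only [if_neg hxB, Finset.mem_insert_self, if_true, Finset.erase_insert hxB]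
  rw [h0, add_zero]
  simp

/-! ### averages over cosets -/

section avg

variable {G : Type u} [Group G] [Fintype G]

open Classical in
/-- average of `F` over the coset `K x` -/
noncomputable def avg (K : Subgroup G) (F : G → ℂ) (x : G) : ℂ :=
  (Nat.card K : ℂ)⁻¹ * ∑ v : G, if v ∈ K then F (v * x) else 0

theorem avg_eq (K : Subgroup G) [Fintype K] (F : G → ℂ) (x : G) :
    avg K F x = (Nat.card K : ℂ)⁻¹ * ∑ v : K, F ((v : G) * x) := by
  classical
  unfold avg
  congr 1
  rw [← Finset.sum_filter]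
  exact (Finset.sum_subtype (Finset.univ.filter (· ∈ K)) (by simp) (fun v => F (v * x)))

/-- Peterfalvi (2.1): averaging over `K x` is averaging over `C_K(x) x` -/
theorem avg_eq_avg_centralizer (K : Subgroup G) (x : G) (hx : ∀ v ∈ K, x * v * x⁻¹ ∈ K)
    (hcop : Nat.Coprime (Nat.card K) (orderOf x)) {F : G → ℂ}
    (hF : ∀ g h : G, F (h * g * h⁻¹) = F g) :
    avg K F x = avg (K ⊓ Subgroup.centralizer ({x} : Set G)) F x := by
  classical
  set C := K ⊓ Subgroup.centralizer ({x} : Set G) with hC
  obtain ⟨k, hk0, hk1⟩ := Nat.chineseRemainder hcop 0 1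
  have hpow : ∀ c ∈ C, (c * x) ^ k = x := by
    intro c hc
    have hcomm : Commute c x := Subgroup.mem_centralizer_singleton_iff.mp hc.2
    rw [hcomm.mul_pow]
    have e1 : c ^ k = 1 := by
      rw [← orderOf_dvd_iff_pow_eq_one]
      have d1 : orderOf c ∣ Nat.card K := by
        have := orderOf_dvd_natCard (⟨c, hc.1⟩ : K)
        rwa [Subgroup.orderOf_mk] at this
      exact d1.trans ((Nat.modEq_zero_iff_dvd).mp hk0)
    have e2 : x ^ k = x ^ 1 := by
      rw [pow_eq_pow_iff_modEq]
      exact hk1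
    rw [e1, e2, pow_one, one_mul]
  let Φ : K × C → K := fun p => ⟨(p.1 : G) * p.2 * (x * (p.1 : G)⁻¹ * x⁻¹),
    K.mul_mem (K.mul_mem p.1.2 p.2.2.1) (hx _ (K.inv_mem p.1.2))⟩
  have hΦ : ∀ p : K × C, (Φ p : G) * x = (p.1 : G) * ((p.2 : G) * x) * (p.1 : G)⁻¹ := by
    intro p
    show (p.1 : G) * p.2 * (x * (p.1 : G)⁻¹ * x⁻¹) * x = _
    group
  have hle : ∀ v : K, Nat.card {p // Φ p = v} ≤ Nat.card C := by
    intro v
    by_cases hne : Nonempty {p // Φ p = v}
    · obtain ⟨⟨p0, hp0⟩⟩ := hne
      have hkey : ∀ p : {p // Φ p = v},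
          (p.1.1 : G) * ((p.1.2 : G) * x) * (p.1.1 : G)⁻¹ =
            (p0.1 : G) * ((p0.2 : G) * x) * (p0.1 : G)⁻¹ := by
        intro p
        rw [← hΦ, ← hΦ, p.2, hp0]
      have hkey2 : ∀ p : {p // Φ p = v},
          (p.1.1 : G) * x * (p.1.1 : G)⁻¹ = (p0.1 : G) * x * (p0.1 : G)⁻¹ := by
        intro p
        have := congrArg (· ^ k) (hkey p)
        simp only [conj_pow] at this
        rwa [hpow _ p.1.2.2, hpow _ p0.2.2] at this
      apply Nat.card_le_card_of_injective (fun p : {p // Φ p = v} =>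
        (⟨(p0.1 : G)⁻¹ * p.1.1, K.mul_mem (K.inv_mem p0.1.2) p.1.1.2, by
          show (p0.1 : G)⁻¹ * p.1.1 ∈ Subgroup.centralizer ({x} : Set G)
          rw [Subgroup.mem_centralizer_singleton_iff]
          have h := hkey2 p
          have h' : (p.1.1 : G) * x = (p0.1 : G) * x * (p0.1 : G)⁻¹ * p.1.1 := by
            rw [← h]; group
          calc (p0.1 : G)⁻¹ * p.1.1 * x = (p0.1 : G)⁻¹ * ((p.1.1 : G) * x) := by group
            _ = (p0.1 : G)⁻¹ * ((p0.1 : G) * x * (p0.1 : G)⁻¹ * p.1.1) := by rw [h']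
            _ = x * ((p0.1 : G)⁻¹ * p.1.1) := by group⟩ : C))
      intro p q hpq
      have h1 : (p.1.1 : G) = q.1.1 := by
        have := congrArg (fun c : C => (c : G)) hpq
        exact mul_left_cancel this
      have h2 : (p.1.2 : G) = q.1.2 := by
        have h3 := (hkey p).trans (hkey q).symm
        rw [h1] at h3
        exact mul_right_cancel (mul_left_cancel (mul_right_cancel h3))
      apply Subtype.ext
      exact Prod.ext (Subtype.ext h1) (Subtype.ext h2)
    · rw [not_nonempty_iff] at hne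
      simp
  have hfib := fibres_eq Φ (Nat.card C) hle (by rw [Nat.card_prod, mul_comm])
  have h1 := sum_comp_of_fibres Φ _ hfib (fun v : K => F (v * x))
  have h2 : ∑ p : K × C, F ((Φ p : G) * x) = (Nat.card K : ℂ) * ∑ c : C, F ((c : G) * x) := by
    rw [Fintype.sum_prod_type]
    simp only [hΦ, hF]
    rw [Finset.sum_const, Finset.card_univ, nsmul_eq_mul, Nat.card_eq_fintype_card]
  rw [h2] at h1
  rw [avg_eq, avg_eq]
  have hK : (Nat.card K : ℂ) ≠ 0 := by exact_mod_cast (Nat.card_pos (α := K)).ne'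
  have hC0 : (Nat.card C : ℂ) ≠ 0 := by exact_mod_cast (Nat.card_pos (α := C)).ne'
  generalize (∑ c : C, F ((c : G) * x)) = S1 at h1 ⊢
  generalize (∑ v : K, F ((v : G) * x)) = S2 at h1 ⊢
  field_simp
  linear_combination -h1

/-- conjugation invariance of the average -/
theorem avg_conj (K K' : Subgroup G) (l x : G) (h : ∀ v, v ∈ K ↔ l * v * l⁻¹ ∈ K') {F : G → ℂ}
    (hF : ∀ g h : G, F (h * g * h⁻¹) = F g) : avg K' F (l * x * l⁻¹) = avg K F x := by
  classical
  have hcard : Nat.card K' = Nat.card K := by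
    apply Nat.card_congr
    exact
      { toFun := fun v => ⟨l⁻¹ * v * l, by
          rw [h]
          have : l * (l⁻¹ * (v : G) * l) * l⁻¹ = v := by group
          rw [this]; exact v.2⟩
        invFun := fun v => ⟨l * v * l⁻¹, (h v).mp v.2⟩
        left_inv := fun v => Subtype.ext (by simp [mul_assoc])
        right_inv := fun v => Subtype.ext (by simp [mul_assoc]) }
  unfold avg
  rw [hcard]
  congr 1
  symm
  apply Fintype.sum_equiv (MulAut.conj l).toEquiv
  intro v
  have e : (MulAut.conj l).toEquiv v = l * v * l⁻¹ := rfl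
  rw [e]
  by_cases hv : v ∈ K
  · rw [if_pos hv, if_pos ((h v).mp hv)]
    have : l * v * l⁻¹ * (l * x * l⁻¹) = l * (v * x) * l⁻¹ := by group
    rw [this, hF]
  · rw [if_neg hv, if_neg (fun hc => hv ((h v).mpr hc))]

end avg

/-! ### the subgroups `H(B)` -/

section dade

open scoped Classical

variable {G : Type u} [Group G] {A : Set G} {L : Subgroup G} {H : G → Subgroup G}

/-- conjugation action on finite subsets -/
noncomputable def act (l : G) (B : Finset G) : Finset G := B.image (fun b => l * b * l⁻¹)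

theorem act_one (B : Finset G) : act 1 B = B := by
  simp [act]

theorem act_mul (a b : G) (B : Finset G) : act (a * b) B = act a (act b B) := by
  unfold act
  rw [Finset.image_image]
  congr 1
  funext x
  simp [mul_assoc]

theorem conj_injective (l : G) : Function.Injective (fun b : G => l * b * l⁻¹) :=
  (MulAut.conj l).injective

theorem card_act (l : G) (B : Finset G) : (act l B).card = B.card :=
  Finset.card_image_of_injective _ (conj_injective l)

theorem conj_mem_act {l b : G} {B : Finset G} : l * b * l⁻¹ ∈ act l B ↔ b ∈ B :=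
  (conj_injective l).mem_finset_image

theorem act_nonempty {l : G} {B : Finset G} : (act l B).Nonempty ↔ B.Nonempty :=
  Finset.image_nonempty

theorem act_subset (hD : Cfsg.DadeHypothesis A L H) {l : G} (hl : l ∈ L) {B : Finset G}
    (hB : (B : Set G) ⊆ A) : ((act l B : Finset G) : Set G) ⊆ A := by
  intro b hb
  obtain ⟨c, hc, rfl⟩ := Finset.mem_image.mp (Finset.mem_coe.mp hb)
  exact hD.conj_mem l hl c (hB hc)

theorem act_subset_iff (hD : Cfsg.DadeHypothesis A L H) {l : G} (hl : l ∈ L) {B : Finset G} :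
    ((act l B : Finset G) : Set G) ⊆ A ↔ (B : Set G) ⊆ A :=
  ⟨fun h => by
    have := act_subset hD (L.inv_mem hl) h
    rwa [← act_mul, inv_mul_cancel, act_one] at this, act_subset hD hl⟩

/-- `H(B)` -/
def HB (H : G → Subgroup G) (B : Finset G) : Subgroup G := ⨅ b ∈ B, H b

theorem mem_HB {v : G} {B : Finset G} : v ∈ HB H B ↔ ∀ b ∈ B, v ∈ H b := by
  simp [HB, Subgroup.mem_iInf]

theorem HB_le {b : G} {B : Finset G} (hb : b ∈ B) : HB H B ≤ H b :=
  fun _ hv => mem_HB.mp hv b hb

theorem HB_insert (x : G) (B : Finset G) : HB H (insert x B) = H x ⊓ HB H B := by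
  ext v
  simp [mem_HB, Subgroup.mem_inf]

theorem HB_singleton (x : G) : HB H {x} = H x := by
  ext v
  simp [mem_HB]

variable [Finite G]

theorem mem_H_of_coprime (hD : Cfsg.DadeHypothesis A L H) {b c : G} (hb : b ∈ A)
    (hc : c ∈ Subgroup.centralizer ({b} : Set G))
    (hcop : Nat.Coprime (orderOf c) (Nat.card ↥(L ⊓ Subgroup.centralizer ({b} : Set G)))) :
    c ∈ H b := by
  haveI : ((H b).subgroupOf (Subgroup.centralizer ({b} : Set G))).Normal := by
    constructor
    intro n hn g
    exact hD.conj_mem_H b hb g g.2 n hn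
  have hidx := (isComplement' hD hb).symm.index_eq_card
  rw [card_sOf inf_le_right] at hidx
  set w : Subgroup.centralizer ({b} : Set G) := ⟨c, hc⟩ with hwdef
  have h1 := Subgroup.pow_index_mem ((H b).subgroupOf (Subgroup.centralizer ({b} : Set G))) w
  have hcop' : Nat.Coprime ((H b).subgroupOf (Subgroup.centralizer ({b} : Set G))).index
      (orderOf w) := by
    rw [hidx, hwdef, Subgroup.orderOf_mk]
    exact hcop.symm
  obtain ⟨m, hm⟩ := exists_pow_eq_self_of_coprime hcop'
  have h2 := Subgroup.pow_mem _ h1 m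
  rw [hm] at h2
  exact h2

theorem HB_inf_centralizer (hD : Cfsg.DadeHypothesis A L H) {B : Finset G} (hB : B.Nonempty)
    (hBA : (B : Set G) ⊆ A) {x : G} (hx : x ∈ A) :
    HB H B ⊓ Subgroup.centralizer ({x} : Set G) = HB H (insert x B) := by
  rw [HB_insert]
  ext v
  simp only [Subgroup.mem_inf]
  constructor
  · rintro ⟨h1, h2⟩
    obtain ⟨b, hb⟩ := hB
    refine ⟨mem_H_of_coprime hD hx h2 ?_, h1⟩
    have d1 : orderOf v ∣ Nat.card (H b) := by
      have := orderOf_dvd_natCard (⟨v, HB_le hb h1⟩ : H b)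
      rwa [Subgroup.orderOf_mk] at this
    exact Nat.Coprime.coprime_dvd_left d1 (hD.coprime b (hBA hb) x hx)
  · rintro ⟨h1, h2⟩
    exact ⟨h2, hD.le_centralizer x hx h1⟩

theorem HB_conj (hD : Cfsg.DadeHypothesis A L H) {B : Finset G} (hBA : (B : Set G) ⊆ A) {l : G}
    (hl : l ∈ L) (v : G) : v ∈ HB H B ↔ l * v * l⁻¹ ∈ HB H (act l B) := by
  rw [mem_HB, mem_HB]
  constructor
  · intro h b hb
    obtain ⟨c, hc, rfl⟩ := Finset.mem_image.mp hb
    exact conj_mem_H hD (hBA hc) (hD.conj_mem l hl c (hBA hc)) rfl (h c hc)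
  · intro h b hb
    have h1 := h (l * b * l⁻¹) (conj_mem_act.mpr hb)
    have h2 := conj_mem_H hD (x := l⁻¹) (hD.conj_mem l hl b (hBA hb)) (hBA hb) (by group) h1
    simpa [mul_assoc] using h2

theorem HB_coprime (hD : Cfsg.DadeHypothesis A L H) {B : Finset G} (hB : B.Nonempty)
    (hBA : (B : Set G) ⊆ A) {x : G} (hx : x ∈ A) :
    Nat.Coprime (Nat.card (HB H B)) (orderOf x) := by
  obtain ⟨b, hb⟩ := hB
  have d1 : Nat.card (HB H B) ∣ Nat.card (H b) := Subgroup.card_dvd_of_le (HB_le hb)
  have d2 : orderOf x ∣ Nat.card ↥(L ⊓ Subgroup.centralizer ({x} : Set G)) := by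
    have := orderOf_dvd_natCard (⟨x, mem_CL hD hx⟩ : ↥(L ⊓ Subgroup.centralizer ({x} : Set G)))
    rwa [Subgroup.orderOf_mk] at this
  exact Nat.Coprime.coprime_dvd_left d1 (Nat.Coprime.coprime_dvd_right d2
    (hD.coprime b (hBA hb) x hx))

end dade

section main

open scoped Classical

variable {G : Type u} [Group G] [Fintype G] {A : Set G} {L : Subgroup G} {H : G → Subgroup G}

/-- the alternating sum formula -/
theorem psi_eq (hD : Cfsg.DadeHypothesis A L H) {χ : G → ℂ}
    (hχ : ∀ g h : G, χ (h * g * h⁻¹) = χ g) {x : G} (hx : x ∈ A) :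
    avg (H x) χ x = ∑ B : Finset G, if B.Nonempty ∧ (B : Set G) ⊆ A ∧ act x B = B then
      (-1 : ℂ) ^ (B.card + 1) * avg (HB H B) χ x else 0 := by
  rw [← Finset.sum_filter]
  set S := Finset.univ.filter
    (fun B : Finset G => B.Nonempty ∧ (B : Set G) ⊆ A ∧ act x B = B) with hS
  have hmem : ∀ B, B ∈ S ↔ B.Nonempty ∧ (B : Set G) ⊆ A ∧ act x B = B := by
    intro B
    simp [hS]
  have hxx : x * x * x⁻¹ = x := by group
  have h1 : ∀ B ∈ S, (-1 : ℂ) ^ (B.card + 1) * avg (HB H B) χ x =
      (-1 : ℂ) ^ (B.card + 1) * (fun B' => avg (HB H B') χ x) (insert x B) := by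
    intro B hB
    obtain ⟨hne, hBA, hact⟩ := (hmem B).mp hB
    congr 1
    rw [avg_eq_avg_centralizer (HB H B) x ?_ (HB_coprime hD hne hBA hx) hχ,
      HB_inf_centralizer hD hne hBA hx]
    intro v hv
    have := (HB_conj hD hBA (hD.subset hx) v).mp hv
    rwa [hact] at this
  rw [Finset.sum_congr rfl h1, sum_pairing S x (fun B' => avg (HB H B') χ x)]
  · simp only [HB_singleton]
  · intro B hB
    exact ((hmem B).mp hB).1
  · rw [hmem]
    refine ⟨Finset.singleton_nonempty x, by simpa using hx, ?_⟩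
    simp [act]
  · intro B hB
    obtain ⟨hne, hBA, hact⟩ := (hmem B).mp hB
    rw [hmem]
    refine ⟨Finset.insert_nonempty x B, ?_, ?_⟩
    · intro b hb
      rcases Finset.mem_insert.mp (Finset.mem_coe.mp hb) with rfl | hb
      · exact hx
      · exact hBA hb
    · have : act x (insert x B) = insert (x * x * x⁻¹) (act x B) := Finset.image_insert _ _ _
      rw [this, hxx, hact]
  · intro B hB hne'
    obtain ⟨hne, hBA, hact⟩ := (hmem B).mp hB
    rw [hmem]
    refine ⟨?_, ?_, ?_⟩
    · rw [Finset.nonempty_iff_ne_empty]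
      intro h
      rcases (Finset.erase_eq_empty_iff B x).mp h with h | h
      · exact (Finset.nonempty_iff_ne_empty.mp hne) h
      · exact hne' h
    · intro b hb
      exact hBA (Finset.mem_of_mem_erase (Finset.mem_coe.mp hb))
    · have : act x (B.erase x) = (act x B).erase (x * x * x⁻¹) :=
        Finset.image_erase (conj_injective x) _ _
      rw [this, hxx, hact]

theorem act_injective (l : G) : Function.Injective (act l) :=
  Finset.image_injective (conj_injective l)

variable [Fintype L]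

/-- the contribution of `B` -/
noncomputable def SB (A : Set G) (L : Subgroup G) [Fintype L] (H : G → Subgroup G) (α : L → ℂ)
    (χ : G → ℂ) (B : Finset G) : ℂ :=
  if B.Nonempty ∧ (B : Set G) ⊆ A then
    (-1 : ℂ) ^ (B.card + 1) *
      ∑ x : L, if act (x : G) B = B then α x * conj (avg (HB H B) χ x) else 0
  else 0

theorem classInner_eq_sum_SB (hD : Cfsg.DadeHypothesis A L H) {α : L → ℂ}
    (hαA : ∀ x : L, (x : G) ∉ A → α x = 0) {χ : G → ℂ}
    (hχ : ∀ g h : G, χ (h * g * h⁻¹) = χ g) :
    Cfsg.classInner α (fun a : L => avg (H a) χ a) =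
      (Nat.card L : ℂ)⁻¹ * ∑ B : Finset G, SB A L H α χ B := by
  simp only [Cfsg.classInner]
  congr 1
  have h1 : ∀ a : L, α a * conj (avg (H a) χ a) = ∑ B : Finset G,
      if B.Nonempty ∧ (B : Set G) ⊆ A then (-1 : ℂ) ^ (B.card + 1) *
        (if act (a : G) B = B then α a * conj (avg (HB H B) χ a) else 0) else 0 := by
    intro a
    by_cases ha : (a : G) ∈ A
    · rw [psi_eq hD hχ ha, map_sum, Finset.mul_sum]
      refine Finset.sum_congr rfl fun B _ => ?_
      by_cases h1 : B.Nonempty ∧ (B : Set G) ⊆ A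
      · rw [if_pos h1]
        by_cases h2 : act (a : G) B = B
        · rw [if_pos ⟨h1.1, h1.2, h2⟩, if_pos h2]
          simp only [map_mul, map_pow, map_neg, map_one]
          ring
        · rw [if_neg (fun h => h2 h.2.2), if_neg h2]
          simp
      · rw [if_neg h1, if_neg (fun h => h1 ⟨h.1, h.2.1⟩)]
        simp
    · rw [hαA a ha]
      simp
  rw [Finset.sum_congr rfl fun a _ => h1 a, Finset.sum_comm]
  refine Finset.sum_congr rfl fun B _ => ?_
  unfold SB
  by_cases h1 : B.Nonempty ∧ (B : Set G) ⊆ A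
  · simp only [if_pos h1]
    rw [Finset.mul_sum]
  · simp only [if_neg h1]
    simp

theorem SB_act (hD : Cfsg.DadeHypothesis A L H) {α : L → ℂ} (hα : Cfsg.IsClassFunction L α)
    {χ : G → ℂ} (hχ : ∀ g h : G, χ (h * g * h⁻¹) = χ g) (l : L) (B : Finset G) :
    SB A L H α χ (act (l : G) B) = SB A L H α χ B := by
  unfold SB
  by_cases h1 : B.Nonempty ∧ (B : Set G) ⊆ A
  · have h1' : (act (l : G) B).Nonempty ∧ ((act (l : G) B : Finset G) : Set G) ⊆ A :=
      ⟨act_nonempty.mpr h1.1, act_subset hD l.2 h1.2⟩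
    rw [if_pos h1, if_pos h1', card_act]
    congr 1
    symm
    apply Fintype.sum_equiv (MulAut.conj l).toEquiv
    intro x
    have e : ((MulAut.conj l).toEquiv x : L) = l * x * l⁻¹ := rfl
    rw [e]
    have e1 : ((l * x * l⁻¹ : L) : G) = (l : G) * x * (l : G)⁻¹ := rfl
    have e2 : act ((l * x * l⁻¹ : L) : G) (act (l : G) B) = act (l : G) B ↔
        act (x : G) B = B := by
      rw [e1, ← act_mul]
      have : (l : G) * x * (l : G)⁻¹ * l = l * x := by group
      rw [this, act_mul]
      exact (act_injective (l : G)).eq_iff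
    by_cases h2 : act (x : G) B = B
    · rw [if_pos h2, if_pos (e2.mpr h2), hα, e1,
        avg_conj (HB H B) (HB H (act (l : G) B)) l x (HB_conj hD h1.2 l.2) hχ]
    · rw [if_neg h2, if_neg (fun h => h2 (e2.mp h))]
  · have h1' : ¬ ((act (l : G) B).Nonempty ∧ ((act (l : G) B : Finset G) : Set G) ⊆ A) :=
      fun h => h1 ⟨act_nonempty.mp h.1, (act_subset_iff hD l.2).mp h.2⟩
    rw [if_neg h1, if_neg h1']

/-- the stabilizer `N_L(B)` -/
def NL (L : Subgroup G) (B : Finset G) : Subgroup L where
  carrier := {l | act (l : G) B = B}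
  one_mem' := act_one B
  mul_mem' := by
    intro a b ha hb
    show act ((a : G) * b) B = B
    rw [act_mul, show act (b : G) B = B from hb, show act (a : G) B = B from ha]
  inv_mem' := by
    intro a ha
    show act ((a : G)⁻¹) B = B
    have h : act (a : G) B = B := ha
    conv_lhs => rw [← h]
    rw [← act_mul, inv_mul_cancel, act_one]

theorem avg_isCharacter (hD : Cfsg.DadeHypothesis A L H) {χ : G → ℂ} (hχ : Cfsg.IsCharacter G χ)
    {B : Finset G} (hBA : (B : Set G) ⊆ A) :
    Cfsg.IsCharacter (NL L B) (fun x => avg (HB H B) χ (x : L)) := by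
  let j : NL L B →* Subgroup.normalizer ((HB H B : Subgroup G) : Set G) :=
    { toFun := fun x => ⟨((x : L) : G), by
        rw [Subgroup.mem_normalizer_iff]
        intro v
        have h := HB_conj hD hBA (x : L).2 v
        rwa [show act ((x : L) : G) B = B from x.2] at h⟩
      map_one' := rfl
      map_mul' := fun _ _ => rfl }
  have h1 := Cfsg.Agent.Lib.Helper25.avgN_isCharacter
    ((HB H B).subgroupOf (Subgroup.normalizer ((HB H B : Subgroup G) : Set G)))
    (IsCharacter.restrict (Subgroup.normalizer ((HB H B : Subgroup G) : Set G)) hχ)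
  have h2 := IsCharacter.comp_hom j h1
  convert h2 using 1
  funext x
  rw [avg_eq, Cfsg.Agent.Lib.Helper25.avgN_apply, card_sOf Subgroup.le_normalizer]
  congr 1
  symm
  apply Fintype.sum_equiv (Subgroup.subgroupOfEquivOfLe Subgroup.le_normalizer).toEquiv
  intro n
  rfl

theorem SB_int (hD : Cfsg.DadeHypothesis A L H) {α : L → ℂ}
    (hα : Cfsg.IsGeneralizedCharacter L α) {χ : G → ℂ} (hχ : Cfsg.IsCharacter G χ)
    (B : Finset G) :
    ∃ n : ℤ, SB A L H α χ B = (Nat.card {e : L // act (e : G) B = B} : ℂ) * n := by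
  unfold SB
  by_cases h1 : B.Nonempty ∧ (B : Set G) ⊆ A
  · rw [if_pos h1]
    obtain ⟨m, hm⟩ := Cfsg.Agent.Lib.Lead.Coh.genChar_inner_int
      (Cfsg.Agent.Lib.Helper23.IndTools.genChar_restrict (NL L B) hα)
      (Cfsg.Agent.Lib.Helper23.IndTools.genChar_of_char (avg_isCharacter hD hχ h1.2))
    refine ⟨(-1) ^ (B.card + 1) * m, ?_⟩
    simp only [Cfsg.classInner] at hm
    have h2 : ∑ x : L, (if act (x : G) B = B then α x * conj (avg (HB H B) χ x) else 0) =
        ∑ x : NL L B, α x * conj (avg (HB H B) χ (x : L)) := by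
      rw [← Finset.sum_filter]
      exact Finset.sum_subtype (Finset.univ.filter (fun x : L => act (x : G) B = B))
        (fun x => by simp [NL]) (fun x : L => α x * conj (avg (HB H B) χ x))
    have h3 : Nat.card {e : L // act (e : G) B = B} = Nat.card (NL L B) := rfl
    rw [h2, h3]
    have h4 : (Nat.card (NL L B) : ℂ) ≠ 0 := by
      exact_mod_cast (Nat.card_pos (α := NL L B)).ne'
    rw [inv_mul_eq_iff_eq_mul₀ h4] at hm
    rw [hm]
    push_cast
    ring
  · exact ⟨0, by rw [if_neg h1]; simp⟩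

/-- integrality of the inner products of the Dade image -/
theorem dade_inner_int (hD : Cfsg.DadeHypothesis A L H) {α : L → ℂ}
    (hα : Cfsg.IsGeneralizedCharacter L α) (hαA : ∀ x : L, (x : G) ∉ A → α x = 0)
    {χ : G → ℂ} (hχ : Cfsg.IsCharacter G χ) :
    ∃ n : ℤ, Cfsg.classInner (Cfsg.dadeIsometry A L H α) χ = n := by
  have hcl := IsCharacter.isClassFunction hχ
  have hαcl := Cfsg.Agent.Lib.Lead.Coh.genChar_isClassFunction hα
  have h1 := dade_adjoint hD hαcl hαA (χ := χ) (ψ := fun a : L => avg (H a) χ a) hcl (by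
    intro a ha
    show avg (H a) χ a = _
    unfold avg
    rw [finsum_mem_eq_sum_ite]
    congr 1
    refine Finset.sum_congr rfl fun u _ => ?_
    by_cases hu : u ∈ H (a : G)
    · rw [if_pos hu, if_pos (show u ∈ (H (a : G) : Set G) from hu),
        (commute_of_mem_H hD ha hu).eq]
    · rw [if_neg hu, if_neg (show ¬ u ∈ (H (a : G) : Set G) from hu)])
  rw [h1, classInner_eq_sum_SB hD hαA hcl]
  obtain ⟨n, hn⟩ := orbit_sum_int (E := L) (X := Finset G) (fun l B => act (l : G) B)
    (fun B => act_one B) (fun a b B => act_mul (a : G) b B) (SB A L H α χ)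
    (fun l B => SB_act hD hαcl hcl l B) (fun B => SB_int hD hα hχ B)
  refine ⟨n, ?_⟩
  rw [hn]
  have h4 : (Nat.card L : ℂ) ≠ 0 := by exact_mod_cast (Nat.card_pos (α := L)).ne'
  field_simp

/-- a class function with integral inner products is a generalized character -/
theorem genChar_of_inner_int {θ : G → ℂ} (hθ : Cfsg.IsClassFunction G θ)
    (h : ∀ χ : G → ℂ, Cfsg.IsIrrCharacter G χ → ∃ n : ℤ, Cfsg.classInner θ χ = n) :
    Cfsg.IsGeneralizedCharacter G θ := by
  haveI := finite_irr (G := G)
  letI : Fintype (Cfsg.IrrCharacter G) := Fintype.ofFinite _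
  rw [classFunction_eq_sum hθ]
  apply Cfsg.Agent.Lib.Helper23.IndTools.genChar_sum
  intro χ _
  obtain ⟨n, hn⟩ := h χ χ.2
  rw [hn]
  exact Cfsg.Agent.Lib.Helper23.IndTools.genChar_zsmul n
    (Cfsg.Agent.Lib.Helper23.IndTools.genChar_of_char (IsIrrCharacter.isCharacter χ.2))

/-- **Peterfalvi (2.7)**: the Dade isometry maps generalized characters to generalized
characters -/
theorem dade_genChar (hD : Cfsg.DadeHypothesis A L H) {α : L → ℂ}
    (hα : Cfsg.IsGeneralizedCharacter L α) (hαA : ∀ x : L, (x : G) ∉ A → α x = 0) :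
    Cfsg.IsGeneralizedCharacter G (Cfsg.dadeIsometry A L H α) :=
  genChar_of_inner_int
    (dade_isClassFunction hD (Cfsg.Agent.Lib.Lead.Coh.genChar_isClassFunction hα))
    fun _ hχ => dade_inner_int hD hα hαA (IsIrrCharacter.isCharacter hχ)

end main

end Cfsg.Agent.Lib.Helper13.DadeGen
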