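import Mathlib
import Cfsg.Agent.Lib.Helper13.DetExt2
import Cfsg.Agent.Lib.Helper24.CharInt
import Cfsg.Agent.S0865

set_option autoImplicit false
set_option linter.unusedSectionVars false

namespace Cfsg.Agent.Lib.Helper13

open Cfsg.Agent.Lib.Helper2 Cfsg.Agent.Lib.Lead
open scoped ComplexConjugate

/-- An invariant irreducible character of a normal Hall subgroup with solvable quotient extends. -/
theorem exists_extension_of_coprime_solvable {G : Type*} [Group G] [Finite G] (N : Subgroup G)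
    [hN : N.Normal] (hsolv : Group.IsSolvable (G ⧸ N)) {ϑ : N → ℂ} (hϑ : Cfsg.IsIrrCharacter N ϑ)
    (hinv : ∀ g : G, conjFun N g ϑ = ϑ) (hcop : Nat.Coprime (Nat.card N) N.index) :
    ∃ χ : G → ℂ, Cfsg.IsIrrCharacter G χ ∧ ∀ n : N, χ n = ϑ n := by
  classical
  cases nonempty_fintype G
  have hϑc := IsIrrCharacter.isCharacter hϑ
  have hd : ϑ 1 = (Cfsg.charDegree ϑ : ℕ) := (Cfsg.Agent.Lib.Helper24.charDegree_cast hϑc).symm
  have hdvd := Cfsg.Agent.Lib.Helper24.degree_dvd_card hϑ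
  have hcop1 : Nat.Coprime N.index (Cfsg.charDegree ϑ) :=
    (Nat.Coprime.coprime_dvd_left hdvd hcop).symm
  obtain ⟨δ, hδ⟩ := exists_hom_detChar hϑc
  have hlin : Cfsg.IsCharacter N (fun n => (δ n : ℂ)) ∧ (fun n => (δ n : ℂ)) 1 = 1 :=
    ⟨IsIrrCharacter.isCharacter (isIrrCharacter_of_hom δ), by simp⟩
  have hδinv : ∀ (g : G) (n : N), (fun n => (δ n : ℂ)) ⟨g * n * g⁻¹, hN.conj_mem (n : G) n.2 g⟩ =
      (fun n => (δ n : ℂ)) n := by
    intro g n
    have h0 := hinv g⁻¹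
    rw [conjFun_eq_comp] at h0
    have h1 := detChar_comp_hom (MulAut.conjNormal g⁻¹⁻¹ : N ≃* N).toMonoidHom hϑc
    have h2 : (ϑ ∘ (MulAut.conjNormal g⁻¹⁻¹ : N ≃* N)) =
      fun h : N => ϑ ((MulAut.conjNormal g⁻¹⁻¹ : N ≃* N).toMonoidHom h) := rfl
    rw [← h2, h0, hδ] at h1
    have h3 := congrFun h1 n
    simp only at h3 ⊢
    rw [h3]
    congr 2
    apply Subtype.ext
    simp
  have hord : orderOf (fun n => (δ n : ℂ)) ∣ Nat.card N := by
    apply orderOf_dvd_of_pow_eq_one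
    funext n
    rw [Pi.pow_apply, ← Units.val_pow_eq_pow_val, ← map_pow, pow_card_eq_one']
    simp
  have hcop2 : Nat.Coprime N.index (orderOf (fun n => (δ n : ℂ))) :=
    (Nat.Coprime.coprime_dvd_left hord hcop).symm
  obtain ⟨μ, ⟨hμ, hμ1, hμN, -⟩, -⟩ := Cfsg.Agent.S0865.result N _ hlin hδinv hcop2
  obtain ⟨m, rfl⟩ := exists_hom_of_degree_one hμ hμ1
  exact exists_extension_of_det_aux _ G N rfl hsolv ϑ hϑ hinv _ hd hcop1 m
    (fun n => by rw [hδ]; exact hμN n)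

end Cfsg.Agent.Lib.Helper13
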