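import Mathlib
import Cfsg.Agent.Lib.Helper24.Constituent
import Cfsg.Agent.Lib.Helper24.Central
import Cfsg.Agent.Lib.Helper24.PrinSmall
import Cfsg.Agent.Lib.Helper13.CharTools

set_option autoImplicit false
set_option linter.unusedSectionVars false
set_option linter.style.haveILetI false

/-! A degree bound of Feit–Thompson for abelian subgroups with a centralizer condition. -/

namespace Cfsg.Agent.Lib.Helper13.FTBound

open Cfsg Cfsg.Agent.Lib.Helper2 Cfsg.Agent.Lib.Helper6 Cfsg.Agent.Lib.Helper24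
open scoped ComplexConjugate Classical

attribute [local instance] irrFintype

/-- An irreducible character with nonzero sum over a normal subgroup has it in its kernel. -/
theorem ker_of_sum_ne_zero {N : Type*} [Group N] [Fintype N] (K : Subgroup N) [hK : K.Normal]
    {ψ : N → ℂ} (hψ : IsIrrCharacter N ψ) (h : ∑ k : K, ψ k ≠ 0) : ∀ k ∈ K, ψ k = ψ 1 := by
  obtain ⟨n, ρ, hρ, rfl⟩ := hψ
  haveI := hρ
  obtain ⟨f, hf⟩ : ∃ f : N → ℂ, f = fun x => if x ∈ K then 1 else 0 := ⟨_, rfl⟩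
  have hcl : IsClassFunction N f := by
    intro g x
    rw [hf]
    have : x * g * x⁻¹ ∈ K ↔ g ∈ K := hK.mem_comm_iff.trans (by simp)
    simp only [this]
  have h1 := classOp_eq_smul ρ hcl
  have hsum : ∑ g, f g * ρ.character g = ∑ k : K, ρ.character k := by
    rw [hf]
    simp only [ite_mul, one_mul, zero_mul]
    rw [← Finset.sum_filter]
    exact (Finset.sum_subtype (Finset.univ.filter (fun g : N => g ∈ K)) (by simp)
      (fun g => ρ.character g))
  rw [hsum] at h1
  obtain ⟨t, ht⟩ : ∃ t : ℂ, t = (∑ k : K, ρ.character k) / (Module.finrank ℂ (Fin n → ℂ) : ℂ) :=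
    ⟨_, rfl⟩
  rw [← ht] at h1
  have hpos : (Module.finrank ℂ (Fin n → ℂ) : ℂ) ≠ 0 := by
    exact_mod_cast (finrank_pos_of_isIrreducible ρ).ne'
  have ht0 : t ≠ 0 := by
    rw [ht]
    exact div_ne_zero h hpos
  intro k hk
  have h2 : ρ k * classOp ρ f = classOp ρ f := by
    unfold classOp
    rw [Finset.mul_sum]
    refine Fintype.sum_equiv (Equiv.mulLeft k) _ _ fun g => ?_
    have h3 : f (k * g) = f g := by
      rw [hf]
      have : k * g ∈ K ↔ g ∈ K := K.mul_mem_cancel_left hk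
      simp only [this]
    show ρ k * (f g • ρ g) = f (k * g) • ρ (k * g)
    rw [h3, map_mul, mul_smul_comm]
  rw [h1] at h2
  have h4 : ρ k = LinearMap.id := by
    have h5 : t • ρ k = t • LinearMap.id := by
      rw [← h2, mul_smul_comm]
      rfl
    exact smul_right_injective _ ht0 h5
  show LinearMap.trace ℂ _ (ρ k) = LinearMap.trace ℂ _ (ρ 1)
  rw [h4, map_one]
  rfl

section main

variable {G : Type*} [Group G] [Fintype G] (H : Subgroup G)

/-- elementwise form of "the centralizer of `g` meets `a H a⁻¹`". -/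
def Meets (g a : G) : Prop := ∃ k ∈ H, k ≠ 1 ∧ (a * k * a⁻¹) * g = g * (a * k * a⁻¹)

theorem meets_iff (g a : G) : Meets H g a ↔
    Subgroup.centralizer ({g} : Set G) ⊓ H.map (MulAut.conj a).toMonoidHom ≠ ⊥ := by
  rw [Ne, Subgroup.eq_bot_iff_forall]
  push Not
  constructor
  · rintro ⟨k, hk, hk1, hc⟩
    refine ⟨a * k * a⁻¹, ⟨?_, ⟨k, hk, rfl⟩⟩, ?_⟩
    · show a * k * a⁻¹ ∈ Subgroup.centralizer ({g} : Set G)
      rw [Subgroup.mem_centralizer_iff]
      intro y hy
      rw [Set.mem_singleton_iff.mp hy]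
      exact hc.symm
    · intro h
      apply hk1
      have : k = a⁻¹ * (a * k * a⁻¹) * a := by group
      rw [this, h]
      group
  · rintro ⟨x, ⟨hx1, ⟨k, hk, rfl⟩⟩, hx2⟩
    refine ⟨k, hk, ?_, ?_⟩
    · rintro rfl
      apply hx2
      simp
    · have hx3 : a * k * a⁻¹ ∈ Subgroup.centralizer ({g} : Set G) := hx1
      rw [Subgroup.mem_centralizer_iff] at hx3
      exact (hx3 g rfl).symm

theorem mem_normalizer_of_map_eq {a b : G}
    (h : H.map (MulAut.conj a).toMonoidHom = H.map (MulAut.conj b).toMonoidHom) :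
    a⁻¹ * b ∈ Subgroup.normalizer (H : Set G) := by
  rw [Subgroup.mem_normalizer_iff]
  intro x
  constructor
  · intro hx
    have h1 : b * x * b⁻¹ ∈ H.map (MulAut.conj a).toMonoidHom := h ▸ ⟨x, hx, rfl⟩
    obtain ⟨y, hy, hyx⟩ := h1
    have h2 : a * y * a⁻¹ = b * x * b⁻¹ := hyx
    have : a⁻¹ * b * x * (a⁻¹ * b)⁻¹ = a⁻¹ * (b * x * b⁻¹) * a := by group
    rw [this, ← h2]
    have : a⁻¹ * (a * y * a⁻¹) * a = y := by group
    rw [this]
    exact hy
  · intro hx
    have h1 : a * (a⁻¹ * b * x * (a⁻¹ * b)⁻¹) * a⁻¹ ∈ H.map (MulAut.conj b).toMonoidHom :=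
      h ▸ ⟨_, hx, rfl⟩
    obtain ⟨y, hy, hyx⟩ := h1
    have h2 : b * y * b⁻¹ = a * (a⁻¹ * b * x * (a⁻¹ * b)⁻¹) * a⁻¹ := hyx
    have h3 : a * (a⁻¹ * b * x * (a⁻¹ * b)⁻¹) * a⁻¹ = b * x * b⁻¹ := by group
    rw [h3] at h2
    have h4 : y = x := by
      have := congrArg (fun t => b⁻¹ * t * b) h2
      simpa [mul_assoc] using this
    rw [← h4]
    exact hy

theorem sum_norm_sq {χ : G → ℂ} (hχ : IsIrrCharacter G χ) :
    ∑ g : G, ‖χ g‖ ^ 2 = (Nat.card G : ℝ) := by
  have h := sum_mul_conj_self hχ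
  have h2 : ((∑ g : G, ‖χ g‖ ^ 2 : ℝ) : ℂ) = ((Nat.card G : ℝ) : ℂ) := by
    push_cast
    rw [← h]
    refine Finset.sum_congr rfl fun g _ => ?_
    rw [Complex.mul_conj, Complex.normSq_eq_norm_sq]
    push_cast
    rfl
  exact_mod_cast h2

theorem sum_center_norm_sq {χ : G → ℂ} (hχ : IsIrrCharacter G χ) :
    ∑ g ∈ Finset.univ.filter (fun g : G => g ∈ Subgroup.center G), ‖χ g‖ ^ 2 =
      (Nat.card (Subgroup.center G) : ℝ) * ‖χ 1‖ ^ 2 := by
  have h5 : ∀ g ∈ Finset.univ.filter (fun g : G => g ∈ Subgroup.center G),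
      ‖χ g‖ ^ 2 = ‖χ 1‖ ^ 2 := by
    intro g hg
    rw [norm_central hχ (Finset.mem_filter.mp hg).2]
  rw [Finset.sum_congr rfl h5, Finset.sum_const, nsmul_eq_mul]
  congr 2
  rw [Nat.card_eq_fintype_card, Fintype.card_subtype]

theorem meets_conj (x a : G) : Meets H (a * x * a⁻¹) 1 ↔ Meets H x a⁻¹ := by
  constructor
  · rintro ⟨k, hk, hk1, hc⟩
    refine ⟨k, hk, hk1, ?_⟩
    have h1 : k * (a * x * a⁻¹) = a * x * a⁻¹ * k := by simpa using hc
    calc a⁻¹ * k * a⁻¹⁻¹ * x = a⁻¹ * (k * (a * x * a⁻¹)) * a := by group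
      _ = a⁻¹ * (a * x * a⁻¹ * k) * a := by rw [h1]
      _ = x * (a⁻¹ * k * a⁻¹⁻¹) := by group
  · rintro ⟨k, hk, hk1, hc⟩
    refine ⟨k, hk, hk1, ?_⟩
    calc 1 * k * 1⁻¹ * (a * x * a⁻¹) = a * (a⁻¹ * k * a⁻¹⁻¹ * x) * a⁻¹ := by group
      _ = a * (x * (a⁻¹ * k * a⁻¹⁻¹)) * a⁻¹ := by rw [hc]
      _ = a * x * a⁻¹ * (1 * k * 1⁻¹) := by group

theorem factA (hone : ∀ g : G, g ∉ Subgroup.center G → ∀ a b : G, Meets H g a → Meets H g b →
      a⁻¹ * b ∈ Subgroup.normalizer (H : Set G)) {χ : G → ℂ} (hχ : IsIrrCharacter G χ) :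
    (Nat.card G : ℝ) *
      ∑ g ∈ Finset.univ.filter (fun g : G => g ∉ Subgroup.center G ∧ Meets H g 1), ‖χ g‖ ^ 2 ≤
    (Nat.card (Subgroup.normalizer (H : Set G)) : ℝ) *
      ((Nat.card G : ℝ) - (Nat.card (Subgroup.center G) : ℝ) * ‖χ 1‖ ^ 2) := by
  have hcl := irr_isClassFunction hχ
  obtain ⟨P, hP⟩ : ∃ P : G → Prop, P = fun g => g ∉ Subgroup.center G ∧ Meets H g 1 := ⟨_, rfl⟩
  have h1 : ∀ a : G, ∑ g ∈ Finset.univ.filter (fun g : G => P g), ‖χ g‖ ^ 2 =
      ∑ x : G, if P (a * x * a⁻¹) then ‖χ x‖ ^ 2 else 0 := by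
    intro a
    rw [Finset.sum_filter]
    refine (Fintype.sum_equiv (MulAut.conj a).toEquiv _ _ fun x => ?_).symm
    show _ = if P (a * x * a⁻¹) then ‖χ (a * x * a⁻¹)‖ ^ 2 else 0
    rw [hcl x a]
  have h2 : (Nat.card G : ℝ) * ∑ g ∈ Finset.univ.filter (fun g : G => P g), ‖χ g‖ ^ 2 =
      ∑ x : G, ((Finset.univ.filter (fun a : G => P (a * x * a⁻¹))).card : ℝ) * ‖χ x‖ ^ 2 := by
    have : (Nat.card G : ℝ) * ∑ g ∈ Finset.univ.filter (fun g : G => P g), ‖χ g‖ ^ 2 =
        ∑ _a : G, ∑ g ∈ Finset.univ.filter (fun g : G => P g), ‖χ g‖ ^ 2 := by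
      rw [Finset.sum_const, Finset.card_univ, nsmul_eq_mul, Nat.card_eq_fintype_card]
    rw [this, Finset.sum_congr rfl (fun a _ => h1 a), Finset.sum_comm]
    refine Finset.sum_congr rfl fun x _ => ?_
    rw [← Finset.sum_filter, Finset.sum_const, nsmul_eq_mul]
  have h3 : ∀ x : G, ((Finset.univ.filter (fun a : G => P (a * x * a⁻¹))).card : ℝ) ≤
      if x ∈ Subgroup.center G then 0 else (Nat.card (Subgroup.normalizer (H : Set G)) : ℝ) := by
    intro x
    by_cases hx : x ∈ Subgroup.center G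
    · rw [if_pos hx]
      have : Finset.univ.filter (fun a : G => P (a * x * a⁻¹)) = ∅ := by
        rw [Finset.filter_eq_empty_iff]
        intro a _ hPa
        rw [hP] at hPa
        apply hPa.1
        have : a * x * a⁻¹ = x := by
          rw [Subgroup.mem_center_iff.mp hx a, mul_assoc, mul_inv_cancel, mul_one]
        rw [this]
        exact hx
      rw [this]
      simp
    · rw [if_neg hx]
      by_cases hemp : (Finset.univ.filter (fun a : G => P (a * x * a⁻¹))) = ∅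
      · rw [hemp]
        simp
      · obtain ⟨b, hb⟩ := Finset.nonempty_iff_ne_empty.mpr hemp
        have hb' : Meets H x b⁻¹ := by
          have := (Finset.mem_filter.mp hb).2
          rw [hP] at this
          exact (meets_conj H x b).mp this.2
        have hle : (Finset.univ.filter (fun a : G => P (a * x * a⁻¹))).card ≤
            (Finset.univ.filter (fun n : G => n ∈ Subgroup.normalizer (H : Set G))).card := by
          apply Finset.card_le_card_of_injOn (fun a => a * b⁻¹)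
          · intro a ha
            have ha' : Meets H x a⁻¹ := by
              have := (Finset.mem_filter.mp ha).2
              rw [hP] at this
              exact (meets_conj H x a).mp this.2
            have := hone x hx a⁻¹ b⁻¹ ha' hb'
            rw [inv_inv] at this
            simpa using this
          · intro a _ a' _ h
            exact mul_right_cancel h
        have hc : (Finset.univ.filter (fun n : G => n ∈ Subgroup.normalizer (H : Set G))).card =
            Nat.card (Subgroup.normalizer (H : Set G)) := by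
          rw [Nat.card_eq_fintype_card, Fintype.card_subtype]
        rw [hc] at hle
        exact_mod_cast hle
  have hfil : Finset.univ.filter (fun g : G => g ∉ Subgroup.center G ∧ Meets H g 1) =
      Finset.univ.filter (fun g : G => P g) := by
    ext g
    simp only [Finset.mem_filter, Finset.mem_univ, true_and, hP]
  rw [hfil, h2]
  calc ∑ x : G, ((Finset.univ.filter (fun a : G => P (a * x * a⁻¹))).card : ℝ) * ‖χ x‖ ^ 2
      ≤ ∑ x : G, (if x ∈ Subgroup.center G then 0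
          else (Nat.card (Subgroup.normalizer (H : Set G)) : ℝ)) * ‖χ x‖ ^ 2 :=
        Finset.sum_le_sum fun x _ => mul_le_mul_of_nonneg_right (h3 x) (by positivity)
    _ = (Nat.card (Subgroup.normalizer (H : Set G)) : ℝ) *
          ((Nat.card G : ℝ) - (Nat.card (Subgroup.center G) : ℝ) * ‖χ 1‖ ^ 2) := by
        rw [← sum_norm_sq hχ, ← sum_center_norm_sq hχ, Finset.sum_filter, ← Finset.sum_sub_distrib,
          Finset.mul_sum]
        refine Finset.sum_congr rfl fun x _ => ?_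
        by_cases hx : x ∈ Subgroup.center G
        · simp [hx]
        · simp [hx]

/-- the average of `χ` over the coset `g H`. -/
noncomputable def mu (χ : G → ℂ) (g : G) : ℂ := (Nat.card H : ℂ)⁻¹ * ∑ h : H, χ (g * h)

theorem mu_mul_right (χ : G → ℂ) (g : G) (h : H) : mu H χ (g * h) = mu H χ g := by
  unfold mu
  congr 1
  refine Fintype.sum_equiv (Equiv.mulLeft h) _ _ fun k => ?_
  show χ (g * h * k) = χ (g * ((h * k : H) : G))
  rw [Subgroup.coe_mul, mul_assoc]

theorem mu_eq_of_not_meets {χ : G → ℂ} (hcl : IsClassFunction G χ) {g : G}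
    (hg : g ∈ Subgroup.normalizer (H : Set G)) (hm : ¬ Meets H g 1) : mu H χ g = χ g := by
  have hmem : ∀ k : H, g⁻¹ * (k : G)⁻¹ * g * k ∈ H := by
    intro k
    have h1 := (Subgroup.mem_normalizer_iff.mp (inv_mem hg) (k : G)⁻¹).mp (inv_mem k.2)
    rw [inv_inv] at h1
    exact H.mul_mem h1 k.2
  have hinj : Function.Injective (fun k : H => (⟨_, hmem k⟩ : H)) := by
    intro k l hkl
    have h1 : g⁻¹ * (k : G)⁻¹ * g * k = g⁻¹ * (l : G)⁻¹ * g * l := congrArg Subtype.val hkl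
    by_contra hne
    apply hm
    refine ⟨l * (k : G)⁻¹, H.mul_mem l.2 (inv_mem k.2), ?_, ?_⟩
    · intro h
      apply hne
      apply Subtype.ext
      exact (mul_inv_eq_one.mp h).symm
    · have h2 : (k : G)⁻¹ * g * k = (l : G)⁻¹ * g * l := by
        have := congrArg (fun t => g * t) h1
        simpa [mul_assoc] using this
      calc 1 * ((l : G) * (k : G)⁻¹) * 1⁻¹ * g = l * ((k : G)⁻¹ * g * k) * (k : G)⁻¹ := by group
        _ = l * ((l : G)⁻¹ * g * l) * (k : G)⁻¹ := by rw [h2]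
        _ = g * (1 * ((l : G) * (k : G)⁻¹) * 1⁻¹) := by group
  have hsurj := Finite.injective_iff_surjective.mp hinj
  have hconst : ∀ h : H, χ (g * h) = χ g := by
    intro h
    obtain ⟨k, hk⟩ := hsurj h
    have h1 : g⁻¹ * (k : G)⁻¹ * g * k = h := congrArg Subtype.val hk
    have h2 : g * h = (k : G)⁻¹ * g * (k : G)⁻¹⁻¹ := by
      rw [← h1]
      group
    rw [h2]
    exact hcl g _
  unfold mu
  rw [Finset.sum_congr rfl (fun h _ => hconst h), Finset.sum_const, Finset.card_univ, nsmul_eq_mul,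
    ← Nat.card_eq_fintype_card, ← mul_assoc, inv_mul_cancel₀ (card_subgroup_ne_zero H), one_mul]

theorem norm_mu_central {χ : G → ℂ} (hχ : IsIrrCharacter G χ) {z : G}
    (hz : z ∈ Subgroup.center G) (h : H) : ‖mu H χ (z * h)‖ = ‖mu H χ 1‖ := by
  rw [mu_mul_right]
  have h1 : mu H χ z = χ z / χ 1 * mu H χ 1 := by
    unfold mu
    have h2 : ∀ k : H, χ (z * k) = χ z / χ 1 * χ (1 * (k : G)) := by
      intro k
      rw [central_mul hχ hz (k : G), one_mul]
      ring
    rw [Finset.sum_congr rfl (fun k _ => h2 k), ← Finset.mul_sum]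
    ring
  rw [h1, norm_mul, norm_div, norm_central hχ hz,
    div_self (norm_ne_zero_iff.mpr (irr_one_ne_zero hχ)), one_mul]

/-- the inclusion of `H` in its normalizer -/
def incl : H →* Subgroup.normalizer (H : Set G) := Subgroup.inclusion Subgroup.le_normalizer

theorem sum_mu_conj (χ : G → ℂ) :
    ∑ n : Subgroup.normalizer (H : Set G), mu H χ n * conj (χ n - mu H χ n) = 0 := by
  have h1 : ∑ n : Subgroup.normalizer (H : Set G), mu H χ n * conj (mu H χ n) =
      ∑ n : Subgroup.normalizer (H : Set G), mu H χ n * conj (χ n) := by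
    have h2 : ∀ h : H, ∑ n : Subgroup.normalizer (H : Set G), mu H χ n * conj (χ (n * h)) =
        ∑ n : Subgroup.normalizer (H : Set G), mu H χ n * conj (χ n) := by
      intro h
      refine Fintype.sum_equiv (Equiv.mulRight (incl H h)) _ _ fun n => ?_
      show _ = mu H χ ((n : G) * h) * conj (χ ((n : G) * h))
      rw [mu_mul_right]
    have h3 : ∀ n : Subgroup.normalizer (H : Set G), mu H χ n * conj (mu H χ n) =
        (Nat.card H : ℂ)⁻¹ * ∑ h : H, mu H χ n * conj (χ (n * h)) := by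
      intro n
      have h4 : conj (mu H χ n) = (Nat.card H : ℂ)⁻¹ * ∑ h : H, conj (χ (n * h)) := by
        unfold mu
        rw [map_mul, map_inv₀, map_natCast, map_sum]
      rw [h4, Finset.mul_sum, Finset.mul_sum, Finset.mul_sum]
      refine Finset.sum_congr rfl fun h _ => ?_
      ring
    rw [Finset.sum_congr rfl (fun n _ => h3 n), ← Finset.mul_sum, Finset.sum_comm,
      Finset.sum_congr rfl (fun h _ => h2 h), Finset.sum_const, Finset.card_univ, nsmul_eq_mul,
      ← Nat.card_eq_fintype_card, ← mul_assoc, inv_mul_cancel₀ (card_subgroup_ne_zero H), one_mul]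
  simp only [map_sub, mul_sub, Finset.sum_sub_distrib]
  rw [h1, sub_self]

theorem norm_sub_smul_sq (a b : ℂ) (t : ℝ) :
    ‖a - t * b‖ ^ 2 = ‖a‖ ^ 2 - 2 * t * (a * conj b).re + t ^ 2 * ‖b‖ ^ 2 := by
  rw [← Complex.normSq_eq_norm_sq, ← Complex.normSq_eq_norm_sq, ← Complex.normSq_eq_norm_sq]
  simp only [Complex.normSq_apply, Complex.sub_re, Complex.sub_im, Complex.mul_re, Complex.mul_im,
    Complex.ofReal_re, Complex.ofReal_im, Complex.conj_re, Complex.conj_im]
  ring

theorem sum_nu_ge {χ : G → ℂ} (hχ : IsCharacter G χ) (hker : ∃ h ∈ H, χ h ≠ χ 1) :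
    (Nat.card (Subgroup.normalizer (H : Set G)) : ℝ) ≤
      ∑ n : Subgroup.normalizer (H : Set G), ‖χ n - mu H χ n‖ ^ 2 := by
  have hX : IsCharacter (Subgroup.normalizer (H : Set G))
      (fun n : Subgroup.normalizer (H : Set G) => χ n) := IsCharacter.restrict _ hχ
  obtain ⟨m, hm⟩ := IsCharacter.exists_eq_sum hX
  haveI hKn : (H.subgroupOf (Subgroup.normalizer (H : Set G))).Normal :=
    Subgroup.normal_in_normalizer
  have hconv : ∀ ψ : Subgroup.normalizer (H : Set G) → ℂ,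
      ∑ k : H.subgroupOf (Subgroup.normalizer (H : Set G)), ψ k = ∑ h : H, ψ (incl H h) :=
    fun ψ => Fintype.sum_equiv (Subgroup.subgroupOfEquivOfLe Subgroup.le_normalizer).toEquiv _ _
      (fun k => by congr 1)
  obtain ⟨ψ₀, hm0, hs0⟩ : ∃ ψ₀ : IrrCharacter (Subgroup.normalizer (H : Set G)), m ψ₀ ≠ 0 ∧
      ∑ h : H, (ψ₀ : Subgroup.normalizer (H : Set G) → ℂ) (incl H h) = 0 := by
    by_contra hcon
    push Not at hcon
    obtain ⟨h, hh, hne⟩ := hker
    apply hne
    have e1 := congrFun hm ⟨h, Subgroup.le_normalizer hh⟩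
    have e2 := congrFun hm 1
    simp only [Finset.sum_apply, Pi.smul_apply, smul_eq_mul] at e1 e2
    have e3 : χ h = ∑ ψ : IrrCharacter (Subgroup.normalizer (H : Set G)),
        (m ψ : ℂ) * (ψ : Subgroup.normalizer (H : Set G) → ℂ) ⟨h, Subgroup.le_normalizer hh⟩ := e1
    have e4 : χ 1 = ∑ ψ : IrrCharacter (Subgroup.normalizer (H : Set G)),
        (m ψ : ℂ) * (ψ : Subgroup.normalizer (H : Set G) → ℂ) 1 := e2
    rw [e3, e4]
    refine Finset.sum_congr rfl fun ψ _ => ?_
    by_cases h0 : m ψ = 0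
    · simp [h0]
    · rw [ker_of_sum_ne_zero (H.subgroupOf (Subgroup.normalizer (H : Set G))) ψ.2
        (by rw [hconv]; exact hcon ψ h0) ⟨h, Subgroup.le_normalizer hh⟩
        (Subgroup.mem_subgroupOf.mpr hh)]
  have hNne : (Nat.card (Subgroup.normalizer (H : Set G)) : ℂ) ≠ 0 := card_subgroup_ne_zero _
  have T1 : ∑ n : Subgroup.normalizer (H : Set G),
      χ n * conj ((ψ₀ : Subgroup.normalizer (H : Set G) → ℂ) n) =
      (m ψ₀ : ℂ) * (Nat.card (Subgroup.normalizer (H : Set G)) : ℂ) := by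
    have h1 : classInner (fun n : Subgroup.normalizer (H : Set G) => χ n) ψ₀ = m ψ₀ := by
      conv_lhs => rw [hm]
      exact classInner_sum_irr_left _ ψ₀
    rw [classInner] at h1
    rw [← h1]
    field_simp
  have T2 : ∑ n : Subgroup.normalizer (H : Set G),
      mu H χ n * conj ((ψ₀ : Subgroup.normalizer (H : Set G) → ℂ) n) = 0 := by
    have a1 : ∀ h : H, ∑ n : Subgroup.normalizer (H : Set G),
        χ (n * h) * conj ((ψ₀ : Subgroup.normalizer (H : Set G) → ℂ) n) =
        ∑ n : Subgroup.normalizer (H : Set G),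
          χ n * conj ((ψ₀ : Subgroup.normalizer (H : Set G) → ℂ) (n * incl H h⁻¹)) := by
      intro h
      refine Fintype.sum_equiv (Equiv.mulRight (incl H h)) _ _ fun n => ?_
      show χ (n * h) * conj ((ψ₀ : Subgroup.normalizer (H : Set G) → ℂ) n) =
        χ ((n * incl H h : Subgroup.normalizer (H : Set G)) : G) *
          conj ((ψ₀ : Subgroup.normalizer (H : Set G) → ℂ) (n * incl H h * incl H h⁻¹))
      rw [map_inv, mul_inv_cancel_right]
      rfl
    have a2 : ∀ n : Subgroup.normalizer (H : Set G),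
        ∑ h : H, (ψ₀ : Subgroup.normalizer (H : Set G) → ℂ) (n * incl H h⁻¹) = 0 := by
      intro n
      rw [← sum_mul_eq_zero_of_sum_eq_zero (incl H) (IsIrrCharacter.isCharacter ψ₀.2) hs0 n]
      exact Fintype.sum_equiv (Equiv.inv H) _ _ fun h => rfl
    have a3 : ∀ n : Subgroup.normalizer (H : Set G),
        mu H χ n * conj ((ψ₀ : Subgroup.normalizer (H : Set G) → ℂ) n) =
        (Nat.card H : ℂ)⁻¹ * ∑ h : H,
          χ (n * h) * conj ((ψ₀ : Subgroup.normalizer (H : Set G) → ℂ) n) := by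
      intro n
      unfold mu
      rw [mul_assoc, Finset.sum_mul]
    rw [Finset.sum_congr rfl (fun n _ => a3 n), ← Finset.mul_sum, Finset.sum_comm,
      Finset.sum_congr rfl (fun h _ => a1 h), Finset.sum_comm]
    have a4 : ∀ n : Subgroup.normalizer (H : Set G), ∑ h : H,
        χ n * conj ((ψ₀ : Subgroup.normalizer (H : Set G) → ℂ) (n * incl H h⁻¹)) = 0 := by
      intro n
      rw [← Finset.mul_sum, ← map_sum, a2 n, map_zero, mul_zero]
    rw [Finset.sum_congr rfl (fun n _ => a4 n)]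
    simp
  have T3 := sum_norm_sq ψ₀.2
  have T4 : (0 : ℝ) ≤ ∑ n : Subgroup.normalizer (H : Set G),
      ‖(χ n - mu H χ n) - ((m ψ₀ : ℝ) : ℂ) * (ψ₀ : Subgroup.normalizer (H : Set G) → ℂ) n‖ ^ 2 :=
    Finset.sum_nonneg fun n _ => by positivity
  simp only [norm_sub_smul_sq] at T4
  rw [Finset.sum_add_distrib, Finset.sum_sub_distrib, ← Finset.mul_sum, ← Finset.mul_sum, T3,
    ← Complex.re_sum] at T4
  have T5 : ∑ n : Subgroup.normalizer (H : Set G),
      (χ n - mu H χ n) * conj ((ψ₀ : Subgroup.normalizer (H : Set G) → ℂ) n) =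
      (m ψ₀ : ℂ) * (Nat.card (Subgroup.normalizer (H : Set G)) : ℂ) := by
    simp only [sub_mul, Finset.sum_sub_distrib]
    rw [T1, T2, sub_zero]
  rw [T5] at T4
  have T6 : ((m ψ₀ : ℂ) * (Nat.card (Subgroup.normalizer (H : Set G)) : ℂ)).re =
      (m ψ₀ : ℝ) * (Nat.card (Subgroup.normalizer (H : Set G)) : ℝ) := by
    rw [← Nat.cast_mul, Complex.natCast_re]
    push_cast
    ring
  rw [T6] at T4
  have hm1 : (1 : ℝ) ≤ (m ψ₀ : ℝ) := by exact_mod_cast Nat.pos_of_ne_zero hm0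
  have hNpos : (0 : ℝ) ≤ (Nat.card (Subgroup.normalizer (H : Set G)) : ℝ) := by positivity
  nlinarith [mul_nonneg hNpos (sub_nonneg.mpr hm1), mul_nonneg (mul_nonneg hNpos (sub_nonneg.mpr hm1)) (by linarith : (0:ℝ) ≤ (m ψ₀ : ℝ) + 1)]

theorem sum_conv (N : Subgroup G) (P : G → Prop) (hP : ∀ g, P g → g ∈ N) (F : G → ℝ) :
    ∑ n : N, (if P n then F n else 0) = ∑ g ∈ Finset.univ.filter (fun g => P g), F g := by
  rw [Finset.sum_filter,
    ← Finset.sum_subtype (Finset.univ.filter (fun g : G => g ∈ N)) (by simp)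
      (fun g => if P g then F g else 0), Finset.sum_filter]
  refine Finset.sum_congr rfl fun g _ => ?_
  by_cases h : P g
  · simp [h, hP g h]
  · simp [h]

theorem norm_add_sq' (a b : ℂ) : ‖a + b‖ ^ 2 = ‖a‖ ^ 2 + ‖b‖ ^ 2 + 2 * (a * conj b).re := by
  rw [← Complex.normSq_eq_norm_sq, ← Complex.normSq_eq_norm_sq, ← Complex.normSq_eq_norm_sq]
  simp only [Complex.normSq_apply, Complex.add_re, Complex.add_im, Complex.mul_re,
    Complex.conj_re, Complex.conj_im]
  ring

theorem factB (hZ : H ⊓ Subgroup.center G = ⊥)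
    (hDN : ∀ g : G, g ∉ Subgroup.center G → Meets H g 1 → g ∈ Subgroup.normalizer (H : Set G))
    {χ : G → ℂ} (hχ : IsIrrCharacter G χ) (hker : ∃ h ∈ H, χ h ≠ χ 1) :
    (Nat.card (Subgroup.center G) : ℝ) * (Nat.card H : ℝ) * ‖mu H χ 1‖ ^ 2 +
      (Nat.card (Subgroup.normalizer (H : Set G)) : ℝ) ≤
    ∑ g ∈ Finset.univ.filter (fun g : G => g ∉ Subgroup.center G ∧ Meets H g 1), ‖χ g‖ ^ 2 +
      (Nat.card (Subgroup.center G) : ℝ) * ‖χ 1‖ ^ 2 := by
  have hcl := irr_isClassFunction hχ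
  obtain ⟨P, hP⟩ : ∃ P : G → Prop, P = fun g => g ∈ Subgroup.center G ∨ Meets H g 1 := ⟨_, rfl⟩
  have hPN : ∀ g, P g → g ∈ Subgroup.normalizer (H : Set G) := by
    intro g hg
    rw [hP] at hg
    by_cases hz : g ∈ Subgroup.center G
    · rw [Subgroup.mem_normalizer_iff]
      intro x
      have : g * x * g⁻¹ = x := by
        rw [← Subgroup.mem_center_iff.mp hz x, mul_assoc, mul_inv_cancel, mul_one]
      rw [this]
    · exact hDN g hz (hg.resolve_left hz)
  have E1 : ∑ g ∈ Finset.univ.filter (fun g : G => g ∉ Subgroup.center G ∧ Meets H g 1),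
      ‖χ g‖ ^ 2 + (Nat.card (Subgroup.center G) : ℝ) * ‖χ 1‖ ^ 2 =
      ∑ g ∈ Finset.univ.filter (fun g : G => P g), ‖χ g‖ ^ 2 := by
    rw [← sum_center_norm_sq hχ, Finset.sum_filter, Finset.sum_filter, Finset.sum_filter,
      ← Finset.sum_add_distrib]
    refine Finset.sum_congr rfl fun g _ => ?_
    rw [hP]
    by_cases hz : g ∈ Subgroup.center G
    · simp [hz]
    · by_cases hm : Meets H g 1
      · simp [hz, hm]
      · simp [hz, hm]
  rw [E1, ← sum_conv (Subgroup.normalizer (H : Set G)) P hPN]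
  have E3 : ∀ n : Subgroup.normalizer (H : Set G), (if P n then ‖χ n‖ ^ 2 else 0) =
      (if P n then ‖mu H χ n‖ ^ 2 else 0) + ‖χ n - mu H χ n‖ ^ 2 +
        2 * (mu H χ n * conj (χ n - mu H χ n)).re := by
    intro n
    by_cases hn : P n
    · rw [if_pos hn, if_pos hn, ← norm_add_sq']
      congr 2
      ring
    · rw [if_neg hn, if_neg hn]
      have hm : ¬ Meets H (n : G) 1 := by
        intro h
        apply hn
        rw [hP]
        exact Or.inr h
      rw [mu_eq_of_not_meets H hcl n.2 hm]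
      simp
  rw [Finset.sum_congr rfl (fun n _ => E3 n), Finset.sum_add_distrib, Finset.sum_add_distrib,
    ← Finset.mul_sum, ← Complex.re_sum, sum_mu_conj, Complex.zero_re, mul_zero, add_zero,
    sum_conv (Subgroup.normalizer (H : Set G)) P hPN (fun g => ‖mu H χ g‖ ^ 2)]
  refine add_le_add ?_ (sum_nu_ge H (IsIrrCharacter.isCharacter hχ) hker)
  have hinj : ∀ p ∈ (Finset.univ : Finset (Subgroup.center G × H)),
      ∀ q ∈ (Finset.univ : Finset (Subgroup.center G × H)),
      (p.1 : G) * p.2 = (q.1 : G) * q.2 → p = q := by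
    rintro ⟨z, h⟩ _ ⟨z', h'⟩ _ heq
    have heq' : (z : G) * h = (z' : G) * h' := heq
    have h1 : (z' : G)⁻¹ * z = h' * (h : G)⁻¹ := by
      rw [eq_mul_inv_iff_mul_eq, mul_assoc, heq', inv_mul_cancel_left]
    have h2 : (h' : G) * (h : G)⁻¹ ∈ H ⊓ Subgroup.center G :=
      ⟨H.mul_mem h'.2 (inv_mem h.2), h1 ▸ (Subgroup.center G).mul_mem (inv_mem z'.2) z.2⟩
    rw [hZ, Subgroup.mem_bot] at h2
    have h3 : (h' : G) = h := mul_inv_eq_one.mp h2
    have h4 : (z : G) = z' := by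
      rw [h2] at h1
      exact (inv_mul_eq_one.mp h1).symm
    exact Prod.ext (Subtype.ext h4) (Subtype.ext h3.symm)
  have hsub : (Finset.univ : Finset (Subgroup.center G × H)).image
      (fun p => (p.1 : G) * p.2) ⊆ Finset.univ.filter (fun g : G => P g) := by
    intro x hx
    obtain ⟨⟨z, h⟩, _, rfl⟩ := Finset.mem_image.mp hx
    rw [Finset.mem_filter]
    refine ⟨Finset.mem_univ _, ?_⟩
    rw [hP]
    by_cases h1 : (h : G) = 1
    · left
      show (z : G) * h ∈ Subgroup.center G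
      rw [h1, mul_one]
      exact z.2
    · right
      refine ⟨h, h.2, h1, ?_⟩
      show 1 * (h : G) * 1⁻¹ * ((z : G) * h) = (z : G) * h * (1 * (h : G) * 1⁻¹)
      rw [one_mul, inv_one, mul_one, ← mul_assoc, Subgroup.mem_center_iff.mp z.2 h]
  calc (Nat.card (Subgroup.center G) : ℝ) * (Nat.card H : ℝ) * ‖mu H χ 1‖ ^ 2
      = ∑ p : Subgroup.center G × H, ‖mu H χ ((p.1 : G) * p.2)‖ ^ 2 := by
        rw [Finset.sum_congr rfl (fun p _ => by rw [norm_mu_central H hχ p.1.2 p.2]),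
          Finset.sum_const, Finset.card_univ, nsmul_eq_mul, Fintype.card_prod,
          Nat.card_eq_fintype_card, Nat.card_eq_fintype_card]
        push_cast
        ring
    _ = ∑ g ∈ (Finset.univ : Finset (Subgroup.center G × H)).image
          (fun p => (p.1 : G) * p.2), ‖mu H χ g‖ ^ 2 :=
        (Finset.sum_image (f := fun g => ‖mu H χ g‖ ^ 2) hinj).symm
    _ ≤ _ := Finset.sum_le_sum_of_subset_of_nonneg hsub (fun _ _ _ => by positivity)

theorem claim1 (hZ : H ⊓ Subgroup.center G = ⊥)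
    (hone : ∀ g : G, g ∉ Subgroup.center G → ∀ a b : G, Meets H g a → Meets H g b →
      a⁻¹ * b ∈ Subgroup.normalizer (H : Set G))
    {χ : G → ℂ} (hχ : IsIrrCharacter G χ) (hker : ∃ h ∈ H, χ h ≠ χ 1) :
    (Nat.card H : ℝ) * ‖mu H χ 1‖ ^ 2 < ‖χ 1‖ ^ 2 := by
  have hDN : ∀ g : G, g ∉ Subgroup.center G → Meets H g 1 →
      g ∈ Subgroup.normalizer (H : Set G) := by
    intro g hg hm
    have h1 : Meets H g g := by
      obtain ⟨k, hk, hk1, hc⟩ := hm
      refine ⟨k, hk, hk1, ?_⟩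
      have hc' : k * g = g * k := by simpa using hc
      calc g * k * g⁻¹ * g = g * k := by group
        _ = g * (k * g * g⁻¹) := by group
        _ = g * (g * k * g⁻¹) := by rw [hc']
    have := hone g hg 1 g hm h1
    simpa using this
  have hA := factA H hone hχ
  have hB := factB H hZ hDN hχ hker
  obtain ⟨A, hAdef⟩ : ∃ A : ℝ, A = ∑ g ∈ Finset.univ.filter
    (fun g : G => g ∉ Subgroup.center G ∧ Meets H g 1), ‖χ g‖ ^ 2 := ⟨_, rfl⟩
  rw [← hAdef] at hA hB
  have hg : (0 : ℝ) < (Nat.card G : ℝ) := by exact_mod_cast Nat.card_pos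
  have hn : (0 : ℝ) < (Nat.card (Subgroup.normalizer (H : Set G)) : ℝ) := by
    exact_mod_cast Nat.card_pos
  have hz : (0 : ℝ) < (Nat.card (Subgroup.center G) : ℝ) := by exact_mod_cast Nat.card_pos
  have hd : (0 : ℝ) < ‖χ 1‖ ^ 2 := by
    have := norm_pos_iff.mpr (irr_one_ne_zero hχ)
    positivity
  by_contra hcon
  push Not at hcon
  have h1 : (Nat.card G : ℝ) * ((Nat.card (Subgroup.center G) : ℝ) * (Nat.card H : ℝ) *
      ‖mu H χ 1‖ ^ 2 + (Nat.card (Subgroup.normalizer (H : Set G)) : ℝ)) ≤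
      (Nat.card G : ℝ) * (A + (Nat.card (Subgroup.center G) : ℝ) * ‖χ 1‖ ^ 2) :=
    mul_le_mul_of_nonneg_left hB hg.le
  have h2 : (Nat.card G : ℝ) * (Nat.card (Subgroup.center G) : ℝ) * ‖χ 1‖ ^ 2 ≤
      (Nat.card G : ℝ) * (Nat.card (Subgroup.center G) : ℝ) *
        ((Nat.card H : ℝ) * ‖mu H χ 1‖ ^ 2) :=
    mul_le_mul_of_nonneg_left hcon (by positivity)
  have h3 : (0 : ℝ) < (Nat.card (Subgroup.normalizer (H : Set G)) : ℝ) *
      ((Nat.card (Subgroup.center G) : ℝ) * ‖χ 1‖ ^ 2) := by positivity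
  nlinarith

/-- for abelian `H`, the norm of the restriction is at least the degree. -/
theorem degree_le_norm_restrict (hab : ∀ a ∈ H, ∀ b ∈ H, a * b = b * a) {χ : G → ℂ}
    (hχ : IsCharacter G χ) :
    ∃ r : ℕ, mu H (χ * fun g => conj (χ g)) 1 = r ∧ charDegree χ ≤ r := by
  have hX : IsCharacter H (fun h : H => χ h) := IsCharacter.restrict _ hχ
  obtain ⟨a, ha⟩ := IsCharacter.exists_eq_sum hX
  have hlin : ∀ lam : IrrCharacter H, (lam : H → ℂ) 1 = 1 := fun lam =>
    irr_one_eq_one_of_comm (fun x y => Subtype.ext (hab x x.2 y y.2)) lam.2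
  have h1 : classInner (fun h : H => χ h) (fun h : H => χ h) =
      ((∑ lam : IrrCharacter H, a lam * a lam : ℕ) : ℂ) := by
    conv_lhs => rw [ha]
    rw [classInner_sum_irr]
    push_cast
    refine Finset.sum_congr rfl fun lam _ => ?_
    rw [Complex.conj_natCast]
  have h2 : (charDegree χ : ℂ) = ((∑ lam : IrrCharacter H, a lam : ℕ) : ℂ) := by
    rw [charDegree_cast hχ]
    have := congrFun ha 1
    simp only [Finset.sum_apply, Pi.smul_apply, smul_eq_mul, hlin, mul_one] at this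
    push_cast
    exact this
  refine ⟨∑ lam : IrrCharacter H, a lam * a lam, ?_, ?_⟩
  · rw [← h1]
    unfold mu classInner
    congr 1
    refine Finset.sum_congr rfl fun h _ => ?_
    rw [one_mul]
    rfl
  · have h3 : charDegree χ = ∑ lam : IrrCharacter H, a lam := by exact_mod_cast h2
    rw [h3]
    exact Finset.sum_le_sum fun lam _ => Nat.le_mul_self _

theorem mu_sum {ι : Type*} (s : Finset ι) (c : ι → ℂ) (f : ι → G → ℂ) (g : G) :
    mu H (∑ i ∈ s, c i • f i) g = ∑ i ∈ s, c i * mu H (f i) g := by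
  unfold mu
  simp only [Finset.sum_apply, Pi.smul_apply, smul_eq_mul]
  rw [Finset.sum_comm, Finset.mul_sum]
  refine Finset.sum_congr rfl fun i _ => ?_
  rw [← Finset.mul_sum]
  ring

theorem eq_one_of_const {ψ : G → ℂ} (hψ : IsIrrCharacter G ψ) (h : ∀ g, ψ g = ψ 1) :
    ψ = fun _ => 1 := by
  by_contra hne
  have h1 := classInner_irr hψ (isIrrCharacter_one (G := G))
  rw [if_neg hne, classInner] at h1
  simp only [h, map_one, mul_one, Finset.sum_const, Finset.card_univ, nsmul_eq_mul] at h1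
  rw [← Nat.card_eq_fintype_card, ← mul_assoc, inv_mul_cancel₀ card_ne_zero_complex, one_mul] at h1
  exact irr_one_ne_zero hψ h1

theorem claim2 (hab : ∀ a ∈ H, ∀ b ∈ H, a * b = b * a) (hZ : H ⊓ Subgroup.center G = ⊥)
    (hone : ∀ g : G, g ∉ Subgroup.center G → ∀ a b : G, Meets H g a → Meets H g b →
      a⁻¹ * b ∈ Subgroup.normalizer (H : Set G))
    {χ : G → ℂ} (hχ : IsIrrCharacter G χ) (h1 : χ 1 ≠ 1)
    (hnorm : ∀ M : Subgroup G, M.Normal → H ≤ M → M = ⊤) :
    (Nat.card H : ℝ) < (1 + (charDegree χ : ℝ)) ^ 2 := by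
  have hχc := IsIrrCharacter.isCharacter hχ
  have hΘ : IsCharacter G (χ * fun g => conj (χ g)) := IsCharacter.mul hχc (IsCharacter.conj hχc)
  obtain ⟨n, hn⟩ := IsCharacter.exists_eq_sum hΘ
  obtain ⟨e, he⟩ : ∃ e : IrrCharacter G, e = ⟨fun _ => 1, isIrrCharacter_one⟩ := ⟨_, rfl⟩
  have he1 : ∀ g, (e : G → ℂ) g = 1 := fun g => by rw [he]
  have hne : n e = 1 := by
    have a1 : classInner (χ * fun g => conj (χ g)) e = n e := by
      conv_lhs => rw [hn]
      exact classInner_sum_irr_left _ e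
    have a2 : classInner (χ * fun g => conj (χ g)) e = 1 := by
      rw [classInner]
      simp only [he1, map_one, mul_one, Pi.mul_apply]
      rw [sum_mul_conj_self hχ, inv_mul_cancel₀ card_ne_zero_complex]
    rw [a2] at a1
    exact_mod_cast a1.symm
  -- degrees
  have hdeg : charDegree χ ^ 2 = ∑ ψ : IrrCharacter G, n ψ * charDegree (ψ : G → ℂ) := by
    rw [← degree_eq_sum n hn]
    have : ((charDegree χ ^ 2 : ℕ) : ℂ) = (charDegree (χ * fun g => conj (χ g)) : ℂ) := by
      rw [charDegree_cast hΘ]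
      push_cast
      rw [charDegree_cast hχc, Pi.mul_apply, IsCharacter.conj_apply_one hχc]
      ring
    exact_mod_cast this
  obtain ⟨r, hr, hdr⟩ := degree_le_norm_restrict H hab hχc
  have hmu : (r : ℂ) = ∑ ψ : IrrCharacter G, (n ψ : ℂ) * mu H (ψ : G → ℂ) 1 := by
    rw [← hr]
    conv_lhs => rw [hn]
    exact mu_sum H _ _ _ 1
  have hmu' : (r : ℝ) = ∑ ψ : IrrCharacter G, (n ψ : ℝ) * (mu H (ψ : G → ℂ) 1).re := by
    have := congrArg Complex.re hmu
    rw [Complex.natCast_re, Complex.re_sum] at this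
    rw [this]
    refine Finset.sum_congr rfl fun ψ _ => ?_
    rw [← Complex.ofReal_natCast, Complex.re_ofReal_mul]
  obtain ⟨s, hs⟩ : ∃ s : ℝ, s = Real.sqrt (Nat.card H) := ⟨_, rfl⟩
  have hs0 : 0 ≤ s := hs ▸ Real.sqrt_nonneg _
  have hs2 : s ^ 2 = (Nat.card H : ℝ) := by
    rw [hs]
    exact Real.sq_sqrt (by positivity)
  have hlt : ∀ ψ : IrrCharacter G, ψ ≠ e →
      s * (mu H (ψ : G → ℂ) 1).re < (charDegree (ψ : G → ℂ) : ℝ) := by
    intro ψ hψ
    have hψc := IsIrrCharacter.isCharacter ψ.2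
    have hker : ∃ h ∈ H, (ψ : G → ℂ) h ≠ (ψ : G → ℂ) 1 := by
      by_contra hcon
      push Not at hcon
      apply hψ
      have htop := hnorm (kerOf hψc) (kerOf_normal hψc) (fun h hh => (mem_kerOf hψc h).mpr
        (hcon h hh))
      apply Subtype.ext
      rw [he]
      apply eq_one_of_const ψ.2
      intro g
      exact (mem_kerOf hψc g).mp (htop ▸ Subgroup.mem_top g)
    have hc1 := claim1 H hZ hone ψ.2 hker
    have hnorm1 : ‖(ψ : G → ℂ) 1‖ = (charDegree (ψ : G → ℂ) : ℝ) := by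
      rw [← charDegree_cast hψc]
      simp
    rw [hnorm1, ← hs2, ← mul_pow] at hc1
    have h2 := lt_of_pow_lt_pow_left₀ 2 (by positivity) hc1
    calc s * (mu H (ψ : G → ℂ) 1).re ≤ s * ‖mu H (ψ : G → ℂ) 1‖ :=
          mul_le_mul_of_nonneg_left (Complex.re_le_norm _) hs0
      _ < _ := h2
  have hmue : mu H (e : G → ℂ) 1 = 1 := by
    unfold mu
    simp only [he1, Finset.sum_const, Finset.card_univ, nsmul_eq_mul, mul_one]
    rw [← Nat.card_eq_fintype_card, inv_mul_cancel₀ (card_subgroup_ne_zero H)]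
  have hdege : charDegree (e : G → ℂ) = 1 := by
    have : (charDegree (e : G → ℂ) : ℂ) = 1 := by
      rw [charDegree_cast (IsIrrCharacter.isCharacter e.2), he1]
    exact_mod_cast this
  have hd2 : 2 ≤ charDegree χ := by
    have hpos := charDegree_pos hχ
    have hne1 : charDegree χ ≠ 1 := by
      intro h
      apply h1
      rw [← charDegree_cast hχc, h]
      simp
    omega
  -- split off the principal character
  have hdeg' : ((charDegree χ : ℝ)) ^ 2 = 1 + ∑ ψ ∈ Finset.univ.erase e,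
      (n ψ : ℝ) * (charDegree (ψ : G → ℂ) : ℝ) := by
    have : ((charDegree χ ^ 2 : ℕ) : ℝ) =
        ((∑ ψ : IrrCharacter G, n ψ * charDegree (ψ : G → ℂ) : ℕ) : ℝ) := by rw [hdeg]
    push_cast at this
    rw [this, ← Finset.add_sum_erase _ _ (Finset.mem_univ e), hne, hdege]
    simp
  have hr' : (r : ℝ) = 1 + ∑ ψ ∈ Finset.univ.erase e,
      (n ψ : ℝ) * (mu H (ψ : G → ℂ) 1).re := by
    rw [hmu', ← Finset.add_sum_erase _ _ (Finset.mem_univ e), hne, hmue]
    simp
  have hex : ∃ ψ ∈ Finset.univ.erase e, n ψ ≠ 0 := by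
    by_contra hcon
    push Not at hcon
    have : ∑ ψ ∈ Finset.univ.erase e, (n ψ : ℝ) * (charDegree (ψ : G → ℂ) : ℝ) = 0 :=
      Finset.sum_eq_zero fun ψ hψ => by rw [hcon ψ hψ]; simp
    rw [this, add_zero] at hdeg'
    have h2 : (2 : ℝ) ≤ (charDegree χ : ℝ) := by exact_mod_cast hd2
    nlinarith
  have hsum : s * ∑ ψ ∈ Finset.univ.erase e, (n ψ : ℝ) * (mu H (ψ : G → ℂ) 1).re <
      ∑ ψ ∈ Finset.univ.erase e, (n ψ : ℝ) * (charDegree (ψ : G → ℂ) : ℝ) := by
    rw [Finset.mul_sum]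
    apply Finset.sum_lt_sum
    · intro ψ hψ
      have := hlt ψ (Finset.ne_of_mem_erase hψ)
      have hn0 : (0 : ℝ) ≤ (n ψ : ℝ) := by positivity
      nlinarith
    · obtain ⟨ψ, hψ, hn0⟩ := hex
      refine ⟨ψ, hψ, ?_⟩
      have := hlt ψ (Finset.ne_of_mem_erase hψ)
      have hn0 : (0 : ℝ) < (n ψ : ℝ) := by exact_mod_cast Nat.pos_of_ne_zero hn0
      nlinarith
  have hdr' : (charDegree χ : ℝ) ≤ (r : ℝ) := by exact_mod_cast hdr
  have h2 : (2 : ℝ) ≤ (charDegree χ : ℝ) := by exact_mod_cast hd2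
  have h3 : s * ((charDegree χ : ℝ) - 1) < ((charDegree χ : ℝ) - 1) * ((charDegree χ : ℝ) + 1) := by
    calc s * ((charDegree χ : ℝ) - 1) ≤ s * ((r : ℝ) - 1) :=
          mul_le_mul_of_nonneg_left (by linarith) hs0
      _ = s * ∑ ψ ∈ Finset.univ.erase e, (n ψ : ℝ) * (mu H (ψ : G → ℂ) 1).re := by
          rw [hr']; ring
      _ < ∑ ψ ∈ Finset.univ.erase e, (n ψ : ℝ) * (charDegree (ψ : G → ℂ) : ℝ) := hsum
      _ = ((charDegree χ : ℝ) - 1) * ((charDegree χ : ℝ) + 1) := by
          have : ∑ ψ ∈ Finset.univ.erase e, (n ψ : ℝ) * (charDegree (ψ : G → ℂ) : ℝ) =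
            (charDegree χ : ℝ) ^ 2 - 1 := by rw [hdeg']; ring
          rw [this]; ring
  have h4 : s < (charDegree χ : ℝ) + 1 := by
    by_contra hcon
    push Not at hcon
    nlinarith
  rw [← hs2]
  nlinarith

end main

end Cfsg.Agent.Lib.Helper13.FTBound
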