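import Mathlib
import Cfsg.Agent.Lib.Helper13.FTBound
import Cfsg.Agent.Lib.Helper13.CentralExt2
import Cfsg.Agent.Lib.Helper13.UniqueP
import Cfsg.Agent.Lib.Lead.GlaubQ
import Cfsg.Agent.Lib.Lead.GlaubL
import Cfsg.Agent.S0175

set_option autoImplicit false
set_option linter.unusedSectionVars false
set_option linter.style.haveILetI false

/-! The Feit–Thompson reduction for faithful representations of small degree. -/

namespace Cfsg.Agent.Lib.Helper13.FTRed

open Cfsg Cfsg.Agent.Lib.Helper2 Cfsg.Agent.Lib.Helper6 Cfsg.Agent.Lib.Helper24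
  Cfsg.Agent.Lib.Lead.Glaub
open scoped ComplexConjugate Classical commutatorElement

attribute [local instance] irrFintype

theorem card_filter_dvd (p M : ℕ) (hp : 0 < p) :
    ((Finset.range (p * M)).filter (fun i => p ∣ i)).card = M := by
  have : (Finset.range (p * M)).filter (fun i => p ∣ i) = (Finset.range M).image (fun a => p * a) := by
    ext i
    simp only [Finset.mem_filter, Finset.mem_range, Finset.mem_image]
    constructor
    · rintro ⟨h1, a, rfl⟩
      exact ⟨a, lt_of_mul_lt_mul_left h1 (Nat.zero_le p), rfl⟩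
    · rintro ⟨a, ha, rfl⟩
      exact ⟨Nat.mul_lt_mul_of_pos_left ha hp, dvd_mul_right p a⟩
  rw [this, Finset.card_image_of_injective _ (fun a b h => Nat.eq_of_mul_eq_mul_left hp h),
    Finset.card_range]

theorem sum_two_values (p M : ℕ) (hp : 0 < p) (F : ℕ → ℂ) (u v : ℂ)
    (h1 : ∀ i, p ∣ i → F i = u) (h2 : ∀ i, ¬ p ∣ i → F i = v) :
    ∑ i ∈ Finset.range (p * M), F i = (M : ℂ) * (u + ((p : ℂ) - 1) * v) := by
  rw [← Finset.sum_filter_add_sum_filter_not (Finset.range (p * M)) (fun i => p ∣ i)]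
  rw [Finset.sum_congr rfl (fun i hi => h1 i (Finset.mem_filter.mp hi).2),
    Finset.sum_congr rfl (fun i hi => h2 i (Finset.mem_filter.mp hi).2),
    Finset.sum_const, Finset.sum_const, card_filter_dvd p M hp]
  have h3 := Finset.card_filter_add_card_filter_not (s := Finset.range (p * M)) (fun i => p ∣ i)
  rw [card_filter_dvd p M hp, Finset.card_range] at h3
  have h4 : (((Finset.range (p * M)).filter (fun i => ¬ p ∣ i)).card : ℂ) = (p : ℂ) * M - M := by
    have : ((M + ((Finset.range (p * M)).filter (fun i => ¬ p ∣ i)).card : ℕ) : ℂ) = ((p * M : ℕ) : ℂ) := by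
      rw [h3]
    push_cast at this
    linear_combination this
  rw [nsmul_eq_mul, nsmul_eq_mul, h4]
  ring

section ito

variable {Γ : Type*} [Group Γ] [Fintype Γ] (K : Subgroup Γ) [hK : K.Normal]

theorem ito_step (p : ℕ) [hp : Fact p.Prime] (x : Γ) (k : ℕ) (hxo : orderOf x = p ^ (k + 1))
    (hcop : (Nat.card K).Coprime p)
    (htop : K ⊔ Subgroup.zpowers x = ⊤) (hcent : x ^ p ∈ Subgroup.center Γ)
    {χh : Γ → ℂ} (hχh : IsIrrCharacter Γ χh) (hχ : IsIrrCharacter K (fun g : K => χh g))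
    (hdet : (detOrder χh).Coprime (Nat.card (Subgroup.zpowers x)))
    (hdeg : charDegree χh + 1 < p) : χh x = χh 1 := by
  have hp0 : 0 < p := hp.out.pos
  set S := Subgroup.zpowers x with hS
  have hScard : Nat.card S = p ^ (k + 1) := by rw [hS, Nat.card_zpowers, hxo]
  have hnorm : ∀ s ∈ S, ∀ g ∈ K, s * g * s⁻¹ ∈ K := fun s _ g hg => hK.conj_mem g hg s
  have hcop' : (Nat.card K).Coprime (Nat.card S) := by
    rw [hScard]; exact Nat.Coprime.pow_right _ hcop
  have hcyc : IsCyclic S := by rw [hS]; infer_instance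
  obtain ⟨β, ε, hε, h⟩ := exists_sign_all K S (K ⊓ Subgroup.centralizer (S : Set Γ)) hnorm hcop'
    htop hcyc rfl hχh hχ hdet
  have hχc := IsIrrCharacter.isCharacter hχh
  have hβc := IsIrrCharacter.isCharacter β.2
  set f := charDegree χh with hf
  set b := charDegree (β : ↥(K ⊓ Subgroup.centralizer (S : Set Γ)) → ℂ) with hb
  have hf1 : χh 1 = f := (charDegree_cast hχc).symm
  have hb1 : (β : ↥(K ⊓ Subgroup.centralizer (S : Set Γ)) → ℂ) 1 = b := (charDegree_cast hβc).symm
  have hbpos : 0 < b := charDegree_pos β.2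
  have hfpos : 0 < f := charDegree_pos hχh
  have hε0 : (ε : ℂ) ≠ 0 := by rcases hε with rfl | rfl <;> simp
  -- generators
  have hgen : ∀ i : ℕ, ¬ p ∣ i → χh (x ^ i) = (ε : ℂ) * b := by
    intro i hi
    have h1 : Subgroup.zpowers (x ^ i) = S := by
      have hc : Nat.Coprime (orderOf x) i := by
        rw [hxo]
        exact Nat.Coprime.pow_left _ ((Nat.Prime.coprime_iff_not_dvd hp.out).mpr hi)
      apply Subgroup.eq_of_le_of_card_ge
      · rw [Subgroup.zpowers_le]
        exact Subgroup.pow_mem _ (Subgroup.mem_zpowers x) i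
      · rw [Nat.card_zpowers, Nat.card_zpowers, hc.orderOf_pow]
    have := h 1 (x ^ i) h1
    rwa [Subgroup.coe_one, one_mul, hb1] at this
  have hnon : ∀ i : ℕ, p ∣ i → χh (x ^ i) = f := by
    rintro i ⟨j, rfl⟩
    have hz : x ^ (p * j) ∈ Subgroup.center Γ := by
      rw [pow_mul]; exact Subgroup.pow_mem _ hcent j
    have h1 := central_mul hχh hz x
    rw [← pow_succ, hgen (p * j + 1) (by
      intro hd
      have := (Nat.dvd_add_right (dvd_mul_right p j)).mp hd
      exact hp.out.one_lt.ne' (Nat.dvd_one.mp this))] at h1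
    have h2 := hgen 1 (fun hd => hp.out.one_lt.ne' (Nat.dvd_one.mp hd))
    rw [pow_one] at h2
    rw [h2, hf1] at h1
    have hb0 : (b : ℂ) ≠ 0 := by exact_mod_cast hbpos.ne'
    have hf0 : (f : ℂ) ≠ 0 := by exact_mod_cast hfpos.ne'
    field_simp at h1
    exact h1.symm
  -- the multiplicity of the trivial character
  obtain ⟨m0, hm0⟩ := IsCharacter.classInner_nat (IsCharacter.comp_hom S.subtype hχc)
    (IsIrrCharacter.isCharacter (isIrrCharacter_one (G := S)))
  have hsum : ∑ t : S, χh t = ∑ i ∈ Finset.range (p * p ^ k), χh (x ^ i) := by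
    rw [← pow_succ', ← hxo, Finset.sum_range]
    exact ((finEquivZPowers (isOfFinOrder_of_finite x)).sum_comp (fun t : S => χh t)).symm
  rw [sum_two_values p (p ^ k) hp0 _ f ((ε : ℂ) * b) hnon hgen] at hsum
  have hm1 : (m0 : ℂ) * p = f + ((p : ℂ) - 1) * ((ε : ℂ) * b) := by
    rw [classInner] at hm0
    simp only [map_one, mul_one] at hm0
    have h5 : ∑ t : S, χh (S.subtype t) = ∑ t : S, χh t := rfl
    rw [h5, hsum, hScard] at hm0
    have hpk : ((p ^ k : ℕ) : ℂ) ≠ 0 := by exact_mod_cast (pow_pos hp0 k).ne'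
    have hpc : (p : ℂ) ≠ 0 := by exact_mod_cast hp0.ne'
    rw [← hm0]
    push_cast
    push_cast at hpk
    field_simp
    ring
  have hle : b ≤ f := by
    have hx : x ∈ S := Subgroup.mem_zpowers x
    have hS' := comm_of_cyclic S hcyc
    have h2 := hgen 1 (fun hd => hp.out.one_lt.ne' (Nat.dvd_one.mp hd))
    have hcon := constituent K S (K ⊓ Subgroup.centralizer (S : Set Γ)) hnorm hcop' htop hS' rfl hx
      hχh β.2 hε0 (fun c => h c x rfl)
    have h3 := degree_le_of_constituent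
      (IsCharacter.comp_hom (K ⊓ Subgroup.centralizer (S : Set Γ)).subtype hχc) β hcon
    have h4 : charDegree (fun c => χh ((K ⊓ Subgroup.centralizer (S : Set Γ)).subtype c)) = f := by
      have : (charDegree (fun c => χh ((K ⊓ Subgroup.centralizer (S : Set Γ)).subtype c)) : ℂ)
          = (f : ℂ) := by
        rw [charDegree_cast (IsCharacter.comp_hom _ hχc), map_one, hf1]
      exact_mod_cast this
    rw [h4] at h3
    exact h3
  have h2 := hgen 1 (fun hd => hp.out.one_lt.ne' (Nat.dvd_one.mp hd))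
  rw [pow_one] at h2
  rw [h2, hf1]
  rcases hε with rfl | rfl
  · have h6 : (m0 : ℤ) * p = f + ((p : ℤ) - 1) * b := by
      have : ((m0 : ℤ) * p : ℂ) = ((f + ((p : ℤ) - 1) * b : ℤ) : ℂ) := by
        push_cast
        rw [hm1]
        push_cast
        ring
      exact_mod_cast this
    have h7 : (p : ℤ) ∣ (f : ℤ) - b := ⟨(m0 : ℤ) - b, by linear_combination (-1 : ℤ) * h6⟩
    have h8 : (f : ℤ) - b = 0 := by
      apply Int.eq_zero_of_abs_lt_dvd h7
      rw [abs_of_nonneg (by omega)]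
      omega
    have h9 : f = b := by omega
    rw [h9]
    simp
  · exfalso
    have h6 : (m0 : ℤ) * p = f - ((p : ℤ) - 1) * b := by
      have : ((m0 : ℤ) * p : ℂ) = ((f - ((p : ℤ) - 1) * b : ℤ) : ℂ) := by
        push_cast
        rw [hm1]
        push_cast
        ring
      exact_mod_cast this
    have h7 : (0 : ℤ) ≤ (m0 : ℤ) * p := by positivity
    have h8 : ((p : ℤ) - 1) * 1 ≤ ((p : ℤ) - 1) * b := by
      apply mul_le_mul_of_nonneg_left
      · exact_mod_cast hbpos
      · have : (1 : ℤ) ≤ p := by exact_mod_cast hp0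
        omega
    have h9 : (f : ℤ) + 1 < p := by exact_mod_cast hdeg
    linarith

end ito


section pel

variable {G : Type*} [Group G]

def IsPEl (p : ℕ) (x : G) : Prop := ∃ k : ℕ, x ^ p ^ k = 1

def PClosed (p : ℕ) (L : Subgroup G) : Prop :=
  ∀ x ∈ L, ∀ y ∈ L, IsPEl p x → IsPEl p y → IsPEl p (x * y)

theorem isPEl_coe {p : ℕ} {L : Subgroup G} (x : L) : IsPEl p (x : G) ↔ IsPEl p x := by
  constructor
  · rintro ⟨k, hk⟩
    exact ⟨k, Subtype.ext (by simpa using hk)⟩
  · rintro ⟨k, hk⟩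
    exact ⟨k, by simpa using congrArg Subtype.val hk⟩

theorem IsPEl.conj {p : ℕ} {x : G} (h : IsPEl p x) (g : G) : IsPEl p (g * x * g⁻¹) := by
  obtain ⟨k, hk⟩ := h
  exact ⟨k, by rw [conj_pow, hk]; simp⟩

theorem IsPEl.inv {p : ℕ} {x : G} (h : IsPEl p x) : IsPEl p x⁻¹ := by
  obtain ⟨k, hk⟩ := h
  exact ⟨k, by rw [inv_pow, hk, inv_one]⟩

/-- the subgroup of `p`-elements of a `p`-closed subgroup -/
def pSub (p : ℕ) (L : Subgroup G) (hL : PClosed p L) : Subgroup G where
  carrier := {x | x ∈ L ∧ IsPEl p x}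
  mul_mem' := fun ha hb => ⟨L.mul_mem ha.1 hb.1, hL _ ha.1 _ hb.1 ha.2 hb.2⟩
  one_mem' := ⟨L.one_mem, 0, by simp⟩
  inv_mem' := fun ha => ⟨L.inv_mem ha.1, ha.2.inv⟩

theorem mem_pSub {p : ℕ} {L : Subgroup G} {hL : PClosed p L} {x : G} :
    x ∈ pSub p L hL ↔ x ∈ L ∧ IsPEl p x := Iff.rfl

theorem isPGroup_pSub {p : ℕ} {L : Subgroup G} (hL : PClosed p L) : IsPGroup p (pSub p L hL) :=
  fun x => (isPEl_coe x).mp x.2.2

theorem isPEl_of_mem_sylow {p : ℕ} (P : Sylow p G) {y : G} (hy : y ∈ (P : Subgroup G)) :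
    IsPEl p y := (isPEl_coe (⟨y, hy⟩ : (P : Subgroup G))).mpr (P.2 ⟨y, hy⟩)

theorem mem_sylow_of_closed {p : ℕ} (P : Sylow p G) (L : Subgroup G) (hL : PClosed p L)
    (hPL : (P : Subgroup G) ≤ L) {w : G} (hw : w ∈ L) (hwp : IsPEl p w) :
    w ∈ (P : Subgroup G) := by
  have h1 : (P : Subgroup G) ≤ pSub p L hL := fun y hy => ⟨hPL hy, isPEl_of_mem_sylow P hy⟩
  have h2 := P.is_maximal' (isPGroup_pSub hL) h1
  have h3 : w ∈ pSub p L hL := ⟨hw, hwp⟩
  rw [h2] at h3
  exact h3

theorem normal_of_closed {p : ℕ} (P : Sylow p G) (h : PClosed p (⊤ : Subgroup G)) :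
    (P : Subgroup G).Normal :=
  ⟨fun _ hy g => mem_sylow_of_closed P ⊤ h le_top (Subgroup.mem_top _)
    ((isPEl_of_mem_sylow P hy).conj g)⟩

theorem mem_of_normal [Finite G] {p : ℕ} [hp : Fact p.Prime] (P : Sylow p G)
    (hP : (P : Subgroup G).Normal) {x : G} (hx : IsPEl p x) : x ∈ (P : Subgroup G) := by
  obtain ⟨k, hk⟩ := hx
  have hz : IsPGroup p (Subgroup.zpowers x) := by
    obtain ⟨j, -, hj⟩ := (Nat.dvd_prime_pow hp.out).mp (orderOf_dvd_of_pow_eq_one hk)
    exact IsPGroup.of_card (n := j) (by rw [Nat.card_zpowers, hj])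
  obtain ⟨Q, hQ⟩ := hz.exists_le_sylow
  haveI := Sylow.unique_of_normal P hP
  have : Q = P := Subsingleton.elim _ _
  exact this ▸ hQ (Subgroup.mem_zpowers x)

theorem closed_of_normal [Finite G] {p : ℕ} [hp : Fact p.Prime] (P : Sylow p G)
    (hP : (P : Subgroup G).Normal) : PClosed p (⊤ : Subgroup G) :=
  fun _ _ _ _ hx hy => isPEl_of_mem_sylow P
    ((P : Subgroup G).mul_mem (mem_of_normal P hP hx) (mem_of_normal P hP hy))

theorem le_sylow_of_normal [Finite G] {p : ℕ} [hp : Fact p.Prime] (U : Subgroup G)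
    (hU : IsPGroup p U) (hUn : U.Normal) (P : Sylow p G) : U ≤ (P : Subgroup G) := by
  obtain ⟨Q, hQ⟩ := hU.exists_le_sylow
  obtain ⟨g, hg⟩ := MulAction.exists_smul_eq G Q P
  intro y hy
  have h1 : g⁻¹ * y * g ∈ U := by simpa using hUn.conj_mem y hy g⁻¹
  rw [← hg, Sylow.coe_subgroup_smul, Subgroup.mem_pointwise_smul_iff_inv_smul_mem]
  have h2 : (MulAut.conj g)⁻¹ • y = g⁻¹ * y * g := by
    rw [MulAut.smul_def, MulAut.conj_inv_apply]
  rw [h2]
  exact hQ h1

end pel

section chars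

variable {G : Type*} [Group G] [Fintype G]

theorem const_of_constituents {χ : G → ℂ} (hχ : IsCharacter G χ) (g : G)
    (h : ∀ ψ : IrrCharacter G, classInner χ ψ ≠ 0 → (ψ : G → ℂ) g = (ψ : G → ℂ) 1) :
    χ g = χ 1 := by
  obtain ⟨m, hm⟩ := IsCharacter.exists_eq_sum hχ
  have h1 : ∀ ψ : IrrCharacter G, classInner χ ψ = m ψ := fun ψ => by
    conv_lhs => rw [hm]
    exact classInner_sum_irr_left _ ψ
  rw [hm]
  simp only [Finset.sum_apply, Pi.smul_apply, smul_eq_mul]
  refine Finset.sum_congr rfl fun ψ _ => ?_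
  by_cases h0 : m ψ = 0
  · rw [h0]; simp
  · rw [h ψ (by rw [h1]; exact_mod_cast h0)]

theorem charDegree_res {χ : G → ℂ} (hχ : IsCharacter G χ) (U : Subgroup G) :
    charDegree (fun u : U => χ (U.subtype u)) = charDegree χ := by
  have : (charDegree (fun u : U => χ (U.subtype u)) : ℂ) = (charDegree χ : ℂ) := by
    rw [charDegree_cast (IsCharacter.comp_hom U.subtype hχ), charDegree_cast hχ, map_one]
  exact_mod_cast this

theorem pgroup_abelian (n p : ℕ) [hp : Fact p.Prime] (hnp : n + 1 < p)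
    {χ : G → ℂ} (hχ : IsCharacter G χ) (hfaith : ∀ g, χ g = χ 1 → g = 1)
    (hdeg : charDegree χ = n) (U : Subgroup G) (hU : IsPGroup p U) :
    ∀ a ∈ U, ∀ b ∈ U, a * b = b * a := by
  intro a ha b hb
  have hχU := IsCharacter.comp_hom U.subtype hχ
  have hdU := charDegree_res hχ U
  have key : (fun u : U => χ (U.subtype u)) ⁅(⟨a, ha⟩ : U), ⟨b, hb⟩⁆ =
      (fun u : U => χ (U.subtype u)) 1 := by
    apply const_of_constituents hχU
    intro ψ hψ
    have h1 := degree_le_of_constituent hχU ψ hψ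
    have h2 := degree_dvd_card ψ.2
    obtain ⟨j, hj⟩ := IsPGroup.iff_card.mp hU
    rw [hj] at h2
    obtain ⟨i, -, hi⟩ := (Nat.dvd_prime_pow hp.out).mp h2
    have h3 : charDegree (ψ : U → ℂ) = 1 := by
      rcases Nat.eq_zero_or_pos i with rfl | hpos
      · simpa using hi
      · exfalso
        have : p ≤ charDegree (ψ : U → ℂ) := by
          rw [hi]; exact Nat.le_self_pow hpos.ne' p
        omega
    apply UniqueP.ker_of_degree_one (IsIrrCharacter.isCharacter ψ.2)
    · rw [← charDegree_cast (IsIrrCharacter.isCharacter ψ.2), h3]; simp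
    · exact Subgroup.commutator_mem_commutator (Subgroup.mem_top _) (Subgroup.mem_top _)
  have h4 : χ ⁅a, b⁆ = χ 1 := key
  exact commutatorElement_eq_one_iff_mul_comm.mp (hfaith _ h4)

theorem ito_apply (n p : ℕ) [hp : Fact p.Prime] (hnp : n + 1 < p)
    {χ : G → ℂ} (hχ : IsCharacter G χ) (hfaith : ∀ g, χ g = χ 1 → g = 1)
    (hdeg : charDegree χ = n) (K : Subgroup G) [hK : K.Normal] (hcop : (Nat.card K).Coprime p)
    (hidx : ∃ j, K.index = p ^ j) (x : G) (hx : IsPEl p x)
    (htop : K ⊔ Subgroup.zpowers x = ⊤) (hcent : x ^ p ∈ Subgroup.center G) :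
    ∀ c ∈ K, x * c = c * x := by
  intro c hc
  by_cases hx1 : x = 1
  · rw [hx1]; simp
  obtain ⟨k', hk'⟩ := hx
  obtain ⟨i, -, hi⟩ := (Nat.dvd_prime_pow hp.out).mp (orderOf_dvd_of_pow_eq_one hk')
  obtain ⟨k, rfl⟩ : ∃ k, i = k + 1 := by
    rcases i with _ | k
    · exfalso
      apply hx1
      rw [pow_zero] at hi
      exact orderOf_eq_one_iff.mp hi
    · exact ⟨k, rfl⟩
  set S := Subgroup.zpowers x with hS
  have hScard : Nat.card S = p ^ (k + 1) := by rw [hS, Nat.card_zpowers, hi]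
  have hnorm : ∀ s ∈ S, ∀ g ∈ K, s * g * s⁻¹ ∈ K := fun s _ g hg => hK.conj_mem g hg s
  have hcop' : (Nat.card K).Coprime (Nat.card S) := by
    rw [hScard]; exact Nat.Coprime.pow_right _ hcop
  have hcyc : IsCyclic S := by rw [hS]; infer_instance
  have hmemK : ⁅c, x⁆ ∈ K := by
    rw [commutatorElement_def, mul_assoc, mul_assoc]
    apply K.mul_mem hc
    rw [← mul_assoc]
    exact hK.conj_mem _ (K.inv_mem hc) x
  have key : χ ⁅c, x⁆ = χ 1 := by
    apply const_of_constituents hχ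
    intro ψ hψ
    have hψc := IsIrrCharacter.isCharacter ψ.2
    have hle := degree_le_of_constituent hχ ψ hψ
    have hresc := IsCharacter.comp_hom K.subtype hψc
    obtain ⟨θ, hθ⟩ := exists_constituent hresc (by
      rw [map_one]; exact irr_one_ne_zero ψ.2)
    have hθc := IsIrrCharacter.isCharacter θ.2
    obtain ⟨e, he1, he2⟩ := ratio_dvd_index K ψ.2 θ.2 hθ
    obtain ⟨j, hj⟩ := hidx
    rw [hj] at he2
    obtain ⟨i', -, hi'⟩ := (Nat.dvd_prime_pow hp.out).mp he2
    have he3 : charDegree (ψ : G → ℂ) = e * charDegree (θ : K → ℂ) := by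
      have : (charDegree (ψ : G → ℂ) : ℂ) = ((e * charDegree (θ : K → ℂ) : ℕ) : ℂ) := by
        push_cast
        rw [charDegree_cast hψc, charDegree_cast hθc, he1]
      exact_mod_cast this
    have hθpos := charDegree_pos θ.2
    have he4 : e = 1 := by
      rcases Nat.eq_zero_or_pos i' with rfl | hpos
      · simpa using hi'
      · exfalso
        have h1 : p ≤ e := by
          rw [hi']; exact Nat.le_self_pow hpos.ne' p
        have h2 : e ≤ e * charDegree (θ : K → ℂ) := Nat.le_mul_of_pos_right _ hθpos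
        omega
    rw [he4, one_mul] at he3
    have hres := res_eq_of_degree_eq K ψ θ hθ he3
    have hres' : ∀ y : K, (θ : K → ℂ) y = (ψ : G → ℂ) y := fun y => (congrFun hres y).symm
    have hinv : Inv (conjOn K S hnorm) (θ : K → ℂ) := by
      intro s g
      rw [hres', hres', conjOn_apply]
      exact irr_isClassFunction ψ.2 g s
    obtain ⟨χh, hext, hdet⟩ := exists_canonical K S (K ⊓ Subgroup.centralizer (S : Set G)) hnorm
      hcop' htop hcyc rfl θ hinv
    have hχhc := IsIrrCharacter.isCharacter χh.2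
    have hirr : IsIrrCharacter K (fun g : K => (χh : G → ℂ) g) := by
      have : (fun g : K => (χh : G → ℂ) g) = θ := funext hext
      rw [this]; exact θ.2
    have hdh : charDegree (χh : G → ℂ) = charDegree (θ : K → ℂ) := by
      have : (charDegree (χh : G → ℂ) : ℂ) = (charDegree (θ : K → ℂ) : ℂ) := by
        rw [charDegree_cast hχhc, charDegree_cast hθc]
        exact hext 1
      exact_mod_cast this
    have hstep := ito_step K p x k hi hcop htop hcent χh.2 hirr hdet (by omega)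
    have hxk : x ∈ kerOf hχhc := (mem_kerOf hχhc x).mpr hstep
    have hkn := kerOf_normal hχhc
    have hck : ⁅c, x⁆ ∈ kerOf hχhc := by
      rw [commutatorElement_def]
      exact (kerOf hχhc).mul_mem (hkn.conj_mem x hxk c) ((kerOf hχhc).inv_mem hxk)
    have h5 := (mem_kerOf hχhc _).mp hck
    have h6 := hext ⟨⁅c, x⁆, hmemK⟩
    have h7 := hext 1
    have h8 := hres' ⟨⁅c, x⁆, hmemK⟩
    have h9 := hres' 1
    simp only [Subgroup.coe_one] at h6 h7 h8 h9
    rw [← h8, ← h9, ← h6, ← h7]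
    exact h5
  exact (commutatorElement_eq_one_iff_mul_comm.mp (hfaith _ key)).symm

end chars


section step

variable {G : Type*} [Group G] [Fintype G]

theorem hT_lemma (p : ℕ) (P : Sylow p G)
    (hab : ∀ a ∈ (P : Subgroup G), ∀ b ∈ (P : Subgroup G), a * b = b * a)
    (hsub : ∀ L : Subgroup G, L ≠ ⊤ → PClosed p L) :
    ∀ d ∈ (P : Subgroup G), d ∉ Subgroup.center G → ∀ w, IsPEl p w → w * d = d * w →
      w ∈ (P : Subgroup G) := by
  intro d hd hdz w hw hwd
  have hL : Subgroup.centralizer ({d} : Set G) ≠ ⊤ := by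
    intro h
    apply hdz
    rw [Subgroup.mem_center_iff]
    intro g
    have hg : g ∈ Subgroup.centralizer ({d} : Set G) := h ▸ Subgroup.mem_top g
    rw [Subgroup.mem_centralizer_iff] at hg
    exact (hg d rfl).symm
  apply mem_sylow_of_closed P _ (hsub _ hL)
  · intro y hy
    rw [Subgroup.mem_centralizer_iff]
    intro h hh
    rw [Set.mem_singleton_iff.mp hh]
    exact hab d hd y hy
  · rw [Subgroup.mem_centralizer_iff]
    intro h hh
    rw [Set.mem_singleton_iff.mp hh]
    exact hwd.symm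
  · exact hw

theorem mem_normalizer_of (p : ℕ) (P : Sylow p G)
    (hab : ∀ a ∈ (P : Subgroup G), ∀ b ∈ (P : Subgroup G), a * b = b * a)
    (hT : ∀ d ∈ (P : Subgroup G), d ∉ Subgroup.center G → ∀ w, IsPEl p w → w * d = d * w →
      w ∈ (P : Subgroup G)) (c k' : G) (hk : k' ∈ (P : Subgroup G))
    (hkz : k' ∉ Subgroup.center G) (hc : c * k' * c⁻¹ ∈ (P : Subgroup G)) :
    c ∈ Subgroup.normalizer ((P : Subgroup G) : Set G) := by
  have hdz : c * k' * c⁻¹ ∉ Subgroup.center G := by
    intro h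
    apply hkz
    have := (inferInstance : (Subgroup.center G).Normal).conj_mem _ h c⁻¹
    simpa [mul_assoc] using this
  have h1 : ∀ y ∈ (P : Subgroup G), c * y * c⁻¹ ∈ (P : Subgroup G) := by
    intro y hy
    apply hT _ hc hdz _ ((isPEl_of_mem_sylow P hy).conj c)
    have := hab y hy k' hk
    calc c * y * c⁻¹ * (c * k' * c⁻¹) = c * (y * k') * c⁻¹ := by group
      _ = c * (k' * y) * c⁻¹ := by rw [this]
      _ = _ := by group
  have h2 : ∀ y ∈ (P : Subgroup G), c⁻¹ * y * c ∈ (P : Subgroup G) := by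
    intro y hy
    have hpe : IsPEl p (c⁻¹ * y * c) := by simpa using (isPEl_of_mem_sylow P hy).conj c⁻¹
    apply hT _ hk hkz _ hpe
    have := hab y hy _ hc
    calc c⁻¹ * y * c * k' = c⁻¹ * (y * (c * k' * c⁻¹)) * c := by group
      _ = c⁻¹ * ((c * k' * c⁻¹) * y) * c := by rw [this]
      _ = _ := by group
  rw [Subgroup.mem_normalizer_iff]
  intro h
  constructor
  · exact h1 h
  · intro hh
    have := h2 _ hh
    simpa [mul_assoc] using this

theorem caseA (n p : ℕ) [hp : Fact p.Prime] (hnp : n + 1 < p)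
    {χ : G → ℂ} (hχ : IsCharacter G χ) (hfaith : ∀ g, χ g = χ 1 → g = 1)
    (hdeg : charDegree χ = n)
    (hyp : (n + 1) ^ 2 ≤ p ∨ ∀ K : Subgroup G, ¬ p ^ 2 ∣ Nat.card K → PClosed p K)
    (hsub : ∀ L : Subgroup G, L ≠ ⊤ → PClosed p L) (P : Sylow p G)
    (hPn : ¬ (P : Subgroup G).Normal) (hZ : (P : Subgroup G) ⊓ Subgroup.center G = ⊥) : False := by
  have hab := pgroup_abelian n p hnp hχ hfaith hdeg P P.2
  have hT := hT_lemma p P hab hsub
  have hnz : ∀ k ∈ (P : Subgroup G), k ≠ 1 → k ∉ Subgroup.center G := fun k hk h1 hz =>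
    h1 (Subgroup.mem_bot.mp (hZ ▸ (⟨hk, hz⟩ : k ∈ (P : Subgroup G) ⊓ Subgroup.center G)))
  have hone : ∀ g : G, g ∉ Subgroup.center G → ∀ a b : G, FTBound.Meets (P : Subgroup G) g a →
      FTBound.Meets (P : Subgroup G) g b →
      a⁻¹ * b ∈ Subgroup.normalizer ((P : Subgroup G) : Set G) := by
    rintro g hg a b ⟨k, hk, hk1, hkc⟩ ⟨k', hk', hk'1, hkc'⟩
    have hL : Subgroup.centralizer ({g} : Set G) ≠ ⊤ := by
      intro h
      apply hg
      rw [Subgroup.mem_center_iff]
      intro y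
      have hy : y ∈ Subgroup.centralizer ({g} : Set G) := h ▸ Subgroup.mem_top y
      rw [Subgroup.mem_centralizer_iff] at hy
      exact (hy g rfl).symm
    have hLc := hsub _ hL
    have hu : a * k * a⁻¹ ∈ pSub p _ hLc := by
      refine ⟨?_, (isPEl_of_mem_sylow P hk).conj a⟩
      rw [Subgroup.mem_centralizer_iff]
      intro h hh
      rw [Set.mem_singleton_iff.mp hh]
      exact hkc.symm
    have hv : b * k' * b⁻¹ ∈ pSub p _ hLc := by
      refine ⟨?_, (isPEl_of_mem_sylow P hk').conj b⟩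
      rw [Subgroup.mem_centralizer_iff]
      intro h hh
      rw [Set.mem_singleton_iff.mp hh]
      exact hkc'.symm
    have huv := pgroup_abelian n p hnp hχ hfaith hdeg _ (isPGroup_pSub hLc) _ hv _ hu
    have hw : a⁻¹ * (b * k' * b⁻¹) * a ∈ (P : Subgroup G) := by
      apply hT k hk (hnz k hk hk1)
      · simpa using ((isPEl_of_mem_sylow P hk').conj b).conj a⁻¹
      · calc a⁻¹ * (b * k' * b⁻¹) * a * k = a⁻¹ * ((b * k' * b⁻¹) * (a * k * a⁻¹)) * a := by group
          _ = a⁻¹ * ((a * k * a⁻¹) * (b * k' * b⁻¹)) * a := by rw [huv]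
          _ = _ := by group
    apply mem_normalizer_of p P hab hT _ k' hk' (hnz k' hk' hk'1)
    have : a⁻¹ * b * k' * (a⁻¹ * b)⁻¹ = a⁻¹ * (b * k' * b⁻¹) * a := by group
    rw [this]
    exact hw
  have hnorm : ∀ M : Subgroup G, M.Normal → (P : Subgroup G) ≤ M → M = ⊤ := by
    intro M hMn hPM
    by_contra hM
    exact hPn ⟨fun y hy g => mem_sylow_of_closed P M (hsub M hM) hPM (hMn.conj_mem y (hPM hy) g)
      ((isPEl_of_mem_sylow P hy).conj g)⟩
  obtain ⟨ψ, hψ, hψ1⟩ : ∃ ψ : IrrCharacter G, classInner χ ψ ≠ 0 ∧ (ψ : G → ℂ) 1 ≠ 1 := by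
    by_contra hall
    push Not at hall
    apply hPn
    have hcomm : ∀ a b : G, a * b = b * a := by
      intro a b
      apply commutatorElement_eq_one_iff_mul_comm.mp
      apply hfaith
      apply const_of_constituents hχ
      intro ψ hψ
      exact UniqueP.ker_of_degree_one (IsIrrCharacter.isCharacter ψ.2) (hall ψ hψ) _
        (Subgroup.commutator_mem_commutator (Subgroup.mem_top _) (Subgroup.mem_top _))
    exact ⟨fun y hy g => by rw [hcomm g y, mul_inv_cancel_right]; exact hy⟩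
  have hbound := FTBound.claim2 (P : Subgroup G) hab hZ hone ψ.2 hψ1 hnorm
  have hle := degree_le_of_constituent hχ ψ hψ
  have hb2 : Nat.card (P : Subgroup G) < (n + 1) ^ 2 := by
    have h1 : Nat.card (P : Subgroup G) < (1 + charDegree (ψ : G → ℂ)) ^ 2 := by exact_mod_cast hbound
    calc Nat.card (P : Subgroup G) < (1 + charDegree (ψ : G → ℂ)) ^ 2 := h1
      _ ≤ (n + 1) ^ 2 := Nat.pow_le_pow_left (by omega) 2
  obtain ⟨a, ha⟩ := IsPGroup.iff_card.mp P.2
  have ha0 : a ≠ 0 := by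
    rintro rfl
    apply hPn
    rw [pow_zero] at ha
    rw [Subgroup.card_eq_one.mp ha]
    infer_instance
  have hpa : p ≤ p ^ a := Nat.le_self_pow ha0 p
  rcases hyp with h | h
  · omega
  · apply hPn
    apply normal_of_closed P
    apply h ⊤
    rw [Subgroup.card_top]
    intro hd
    have h1 := (Nat.Prime.pow_dvd_iff_le_factorization hp.out Nat.card_pos.ne').mp hd
    have h2 := P.card_eq_multiplicity
    have h3 : p ^ 2 ≤ Nat.card (P : Subgroup G) := by
      rw [h2]
      exact Nat.pow_le_pow_right hp.out.pos h1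
    have h4 : (n + 1) ^ 2 < p ^ 2 := Nat.pow_lt_pow_left hnp (by norm_num)
    omega


theorem caseB (n p : ℕ) [hp : Fact p.Prime] (hnp : n + 1 < p)
    {χ : G → ℂ} (hχ : IsCharacter G χ) (hfaith : ∀ g, χ g = χ 1 → g = 1)
    (hdeg : charDegree χ = n)
    (hsub : ∀ L : Subgroup G, L ≠ ⊤ → PClosed p L) (P : Sylow p G)
    (hPn : ¬ (P : Subgroup G).Normal) (z : G) (hzP : z ∈ (P : Subgroup G))
    (hzZ : z ∈ Subgroup.center G) (hz1 : z ≠ 1) : False := by
  have hab := pgroup_abelian n p hnp hχ hfaith hdeg P P.2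
  have hT := hT_lemma p P hab hsub
  letI : CommGroup (P : Subgroup G) :=
    { (inferInstance : Group (P : Subgroup G)) with
      mul_comm := fun a b => Subtype.ext (hab a a.2 b b.2) }
  obtain ⟨V, hV⟩ : ∃ V : G →* (P : Subgroup G), ∀ y ∈ Subgroup.center G,
      ((V y : (P : Subgroup G)) : G) = y ^ (P : Subgroup G).index := by
    refine ⟨MonoidHom.transfer (MonoidHom.id (P : Subgroup G)), ?_⟩
    intro y hy
    have key : ∀ (k : ℕ) (g₀ : G), g₀⁻¹ * y ^ k * g₀ ∈ (P : Subgroup G) →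
        g₀⁻¹ * y ^ k * g₀ = y ^ k := by
      intro k g₀ _
      have h1 : y ^ k ∈ Subgroup.center G := Subgroup.pow_mem _ hy k
      rw [mul_assoc, ← Subgroup.mem_center_iff.mp h1 g₀, inv_mul_cancel_left]
    rw [MonoidHom.transfer_eq_pow _ y key]
    rfl
  have hcopidx : Nat.Coprime p (P : Subgroup G).index :=
    (Nat.Prime.coprime_iff_not_dvd hp.out).mpr P.not_dvd_index
  have hpow : ∀ y : G, IsPEl p y → y ^ (P : Subgroup G).index = 1 → y = 1 := by
    rintro y ⟨k, hk⟩ h
    have h1 := orderOf_dvd_of_pow_eq_one hk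
    have h2 := orderOf_dvd_of_pow_eq_one h
    have h3 : orderOf y ∣ 1 := by
      have := Nat.dvd_gcd h1 h2
      rwa [Nat.Coprime.pow_left k hcopidx] at this
    exact orderOf_eq_one_iff.mp (Nat.dvd_one.mp h3)
  obtain ⟨K, hKdef⟩ : ∃ K : Subgroup G, K = V.ker := ⟨_, rfl⟩
  haveI hKn : K.Normal := hKdef ▸ MonoidHom.normal_ker V
  have hKmem : ∀ y, y ∈ K → V y = 1 := fun y hy => by
    rw [hKdef] at hy
    exact hy
  have hKtop : K ≠ ⊤ := by
    intro h
    have h2 : V z = 1 := hKmem z (h ▸ Subgroup.mem_top z)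
    have h3 := hV z hzZ
    rw [h2, Subgroup.coe_one] at h3
    exact hz1 (hpow z (isPEl_of_mem_sylow P hzP) h3.symm)
  have hKc := hsub K hKtop
  have hUn : (pSub p K hKc).Normal := ⟨fun y hy g => ⟨hKn.conj_mem y hy.1 g, hy.2.conj g⟩⟩
  have hUP := le_sylow_of_normal _ (isPGroup_pSub hKc) hUn P
  have hKp : ∀ y ∈ K, IsPEl p y → y = 1 := by
    intro y hy hyp'
    have hyU : y ∈ pSub p K hKc := ⟨hy, hyp'⟩
    have hyZ : y ∈ Subgroup.center G := by
      by_contra hyz
      apply hPn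
      refine ⟨fun t ht g => ?_⟩
      apply hT y (hUP hyU) hyz _ ((isPEl_of_mem_sylow P ht).conj g)
      have h1 : g⁻¹ * y * g ∈ (P : Subgroup G) := hUP (by simpa using hUn.conj_mem y hyU g⁻¹)
      have h2 := hab t ht _ h1
      calc g * t * g⁻¹ * y = g * (t * (g⁻¹ * y * g)) * g⁻¹ := by group
        _ = g * ((g⁻¹ * y * g) * t) * g⁻¹ := by rw [h2]
        _ = _ := by group
    have h2 : V y = 1 := hKmem y hy
    have h3 := hV y hyZ
    rw [h2, Subgroup.coe_one] at h3
    exact hpow y hyp' h3.symm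
  have hcop : (Nat.card K).Coprime p := by
    rw [Nat.coprime_comm, Nat.Prime.coprime_iff_not_dvd hp.out]
    intro hd
    obtain ⟨y, hy⟩ := exists_prime_orderOf_dvd_card' p hd
    have h1 : (y : G) = 1 := hKp y y.2 ⟨1, by
      rw [pow_one, ← Subgroup.coe_pow, ← hy, pow_orderOf_eq_one]; rfl⟩
    have h2 : y = 1 := Subtype.ext h1
    rw [h2, orderOf_one] at hy
    exact hp.out.one_lt.ne hy
  have hidx : ∃ j, K.index = p ^ j := by
    rw [hKdef, Subgroup.index_ker]
    have h1 : Nat.card V.range ∣ Nat.card (P : Subgroup G) := Subgroup.card_subgroup_dvd_card _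
    obtain ⟨a, ha⟩ := IsPGroup.iff_card.mp P.2
    rw [ha] at h1
    obtain ⟨j, -, hj⟩ := (Nat.dvd_prime_pow hp.out).mp h1
    exact ⟨j, hj⟩
  have hcentK : ∀ k : ℕ, ∀ x ∈ (P : Subgroup G), x ^ p ^ k = 1 → ∀ c ∈ K, x * c = c * x := by
    intro k
    induction k with
    | zero =>
      intro x _ hx c _
      rw [pow_zero, pow_one] at hx
      rw [hx]; simp
    | succ k ih =>
      intro x hx hxk c hc
      have hxp : ∀ c ∈ K, x ^ p * c = c * x ^ p :=
        ih (x ^ p) (Subgroup.pow_mem _ hx p) (by rw [← pow_mul, ← pow_succ']; exact hxk)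
      by_cases hL : K ⊔ Subgroup.zpowers x = ⊤
      · have hcent : x ^ p ∈ Subgroup.center G := by
          have h1 : K ⊔ Subgroup.zpowers x ≤ Subgroup.centralizer ({x ^ p} : Set G) := by
            apply sup_le
            · intro c hc
              rw [Subgroup.mem_centralizer_iff]
              intro h hh
              rw [Set.mem_singleton_iff.mp hh]
              exact hxp c hc
            · rw [Subgroup.zpowers_le, Subgroup.mem_centralizer_iff]
              intro h hh
              rw [Set.mem_singleton_iff.mp hh, ← pow_succ, ← pow_succ']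
          rw [hL] at h1
          rw [Subgroup.mem_center_iff]
          intro g
          have hg := h1 (Subgroup.mem_top g)
          rw [Subgroup.mem_centralizer_iff] at hg
          exact (hg _ rfl).symm
        exact ito_apply n p hnp hχ hfaith hdeg K hcop hidx x ⟨k + 1, hxk⟩ hL hcent c hc
      · have hLc := hsub _ hL
        have hxL : x ∈ K ⊔ Subgroup.zpowers x :=
          (le_sup_right : _ ≤ K ⊔ Subgroup.zpowers x) (Subgroup.mem_zpowers x)
        have hcL : c ∈ K ⊔ Subgroup.zpowers x := (le_sup_left : K ≤ _) hc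
        have hxe : IsPEl p x := ⟨k + 1, hxk⟩
        have h1 := hLc (c * x * c⁻¹) (mul_mem (mul_mem hcL hxL) (inv_mem hcL)) x⁻¹ (inv_mem hxL)
          (hxe.conj c) hxe.inv
        have h2 : c * x * c⁻¹ * x⁻¹ ∈ K := by
          have : c * x * c⁻¹ * x⁻¹ = c * (x * c⁻¹ * x⁻¹) := by group
          rw [this]
          exact K.mul_mem hc (hKn.conj_mem _ (K.inv_mem hc) x)
        have h3 := hKp _ h2 h1
        have h4 : c * x = x * c := by
          have := congrArg (fun t => t * x * c) h3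
          simpa [mul_assoc] using this
        exact h4.symm
  apply hPn
  have hsup : K ⊔ (P : Subgroup G) = ⊤ := by
    apply Subgroup.index_eq_one.mp
    obtain ⟨j, hj⟩ := hidx
    have h1 : (K ⊔ (P : Subgroup G)).index ∣ p ^ j := hj ▸ Subgroup.index_dvd_of_le le_sup_left
    have h2 : (K ⊔ (P : Subgroup G)).index ∣ (P : Subgroup G).index :=
      Subgroup.index_dvd_of_le le_sup_right
    obtain ⟨i, -, hi⟩ := (Nat.dvd_prime_pow hp.out).mp h1
    rcases Nat.eq_zero_or_pos i with rfl | hpos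
    · simpa using hi
    · exfalso
      apply P.not_dvd_index
      refine dvd_trans ?_ h2
      rw [hi]
      exact dvd_pow_self p hpos.ne'
  rw [← Subgroup.normalizer_eq_top_iff, eq_top_iff, ← hsup]
  apply sup_le _ Subgroup.le_normalizer
  intro c hc
  rw [Subgroup.mem_normalizer_iff]
  intro y
  have hconj : ∀ y ∈ (P : Subgroup G), c * y * c⁻¹ = y := by
    intro y hy
    obtain ⟨k, hk⟩ := isPEl_of_mem_sylow P hy
    rw [← hcentK k y hy hk c hc, mul_inv_cancel_right]
  constructor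
  · intro hy
    rw [hconj y hy]; exact hy
  · intro hy
    have h1 := hconj _ hy
    have h2 : c * y * c⁻¹ = y := by
      have := congrArg (fun t => c⁻¹ * t * c) h1
      simpa [mul_assoc] using this
    rw [h2] at hy
    exact hy

theorem step (n p : ℕ) [hp : Fact p.Prime] (hnp : n + 1 < p)
    {χ : G → ℂ} (hχ : IsCharacter G χ) (hfaith : ∀ g, χ g = χ 1 → g = 1)
    (hdeg : charDegree χ = n)
    (hyp : (n + 1) ^ 2 ≤ p ∨ ∀ K : Subgroup G, ¬ p ^ 2 ∣ Nat.card K → PClosed p K)
    (hsub : ∀ L : Subgroup G, L ≠ ⊤ → PClosed p L) : PClosed p (⊤ : Subgroup G) := by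
  obtain ⟨P⟩ : Nonempty (Sylow p G) := inferInstance
  by_contra hnot
  have hPn : ¬ (P : Subgroup G).Normal := fun h => hnot (closed_of_normal P h)
  by_cases hZ : (P : Subgroup G) ⊓ Subgroup.center G = ⊥
  · exact caseA n p hnp hχ hfaith hdeg hyp hsub P hPn hZ
  · rw [Subgroup.eq_bot_iff_forall] at hZ
    push Not at hZ
    obtain ⟨z, hz, hz1⟩ := hZ
    exact caseB n p hnp hχ hfaith hdeg hsub P hPn z hz.1 hz.2 hz1

end step

universe u

theorem main_aux (n p : ℕ) [hp : Fact p.Prime] (hnp : n + 1 < p) :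
    ∀ (N : ℕ) (G : Type u) [Group G] [Fintype G], Nat.card G ≤ N → ∀ χ : G → ℂ,
    IsCharacter G χ → (∀ g, χ g = χ 1 → g = 1) → charDegree χ = n →
    ((n + 1) ^ 2 ≤ p ∨ ∀ K : Subgroup G, ¬ p ^ 2 ∣ Nat.card K → PClosed p K) →
    PClosed p (⊤ : Subgroup G) := by
  intro N
  induction N with
  | zero =>
    intro G _ _ hN
    have := Nat.card_pos (α := G)
    omega
  | succ N ih =>
    intro G _ _ hN χ hχ hfaith hdeg hyp
    apply step n p hnp hχ hfaith hdeg hyp
    intro L hL x hx y hy hxp hyp'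
    have hcard : Nat.card L ≤ N := by
      by_contra hcon
      apply hL
      apply Subgroup.eq_top_of_card_eq
      have := Subgroup.card_le_card_group L
      omega
    have h := ih L hcard (fun l => χ (L.subtype l)) (IsCharacter.comp_hom L.subtype hχ)
      (fun g hg => Subtype.ext (hfaith _ hg)) ((charDegree_res hχ L).trans hdeg) (by
        rcases hyp with h | h
        · exact Or.inl h
        · refine Or.inr fun K hK a ha b hb hap hbp => ?_
          have hc : Nat.card (K.map L.subtype) = Nat.card K :=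
            Subgroup.card_map_of_injective L.subtype_injective
          have := h (K.map L.subtype) (by rw [hc]; exact hK) a ⟨a, ha, rfl⟩ b ⟨b, hb, rfl⟩
            ((isPEl_coe a).mpr hap) ((isPEl_coe b).mpr hbp)
          exact (isPEl_coe (a * b)).mp this)
    have h2 := h ⟨x, hx⟩ (Subgroup.mem_top _) ⟨y, hy⟩ (Subgroup.mem_top _)
      ((isPEl_coe (⟨x, hx⟩ : L)).mp hxp) ((isPEl_coe (⟨y, hy⟩ : L)).mp hyp')
    exact (isPEl_coe ((⟨x, hx⟩ : L) * ⟨y, hy⟩)).mpr h2

theorem main {G : Type u} [Group G] [Finite G] (n : ℕ) (ρ : Representation ℂ G (Fin n → ℂ))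
    (hρ : Function.Injective ρ) (p : ℕ) [hp : Fact p.Prime]
    (h : (n + 1) ^ 2 ≤ p ∨ (n + 1 < p ∧ ∀ K : Subgroup G, ¬ p ^ 2 ∣ Nat.card K →
      ∀ Q : Sylow p K, (Q : Subgroup K).Normal)) (P : Sylow p G) : (P : Subgroup G).Normal := by
  cases nonempty_fintype G
  have hnp : n + 1 < p := by
    rcases h with h | h
    · rcases Nat.eq_zero_or_pos n with rfl | hn
      · exact hp.out.one_lt
      · nlinarith
    · exact h.1
  have hχ : IsCharacter G ρ.character := ⟨n, ρ, rfl⟩
  apply normal_of_closed P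
  apply main_aux n p hnp (Nat.card G) G le_rfl ρ.character hχ
  · intro g hg
    apply hρ
    rw [rep_eq_one_of_char_eq ρ g hg, map_one]
  · have : (charDegree ρ.character : ℂ) = (n : ℂ) := by
      rw [charDegree_cast hχ, Representation.char_one]
      simp
    exact_mod_cast this
  · rcases h with h | h
    · exact Or.inl h
    · refine Or.inr fun K hK a ha b hb hap hbp => ?_
      obtain ⟨Q⟩ : Nonempty (Sylow p K) := inferInstance
      have h1 := closed_of_normal Q (h.2 K hK Q) ⟨a, ha⟩ (Subgroup.mem_top _) ⟨b, hb⟩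
        (Subgroup.mem_top _) ((isPEl_coe (⟨a, ha⟩ : K)).mp hap) ((isPEl_coe (⟨b, hb⟩ : K)).mp hbp)
      exact (isPEl_coe ((⟨a, ha⟩ : K) * ⟨b, hb⟩)).mpr h1

end Cfsg.Agent.Lib.Helper13.FTRed
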