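import Mathlib
import Cfsg.Agent.Lib.Helper13.FTRed
import Cfsg.Agent.Lib.Helper29.PSolvable
import Cfsg.Agent.Lib.Helper1.CoprimeSylow

set_option autoImplicit false
set_option linter.unusedSectionVars false
set_option linter.style.haveILetI false

/-! Ito's theorem on `p`-solvable linear groups of degree at most `p - 1`. -/

namespace Cfsg.Agent.Lib.Helper13.FTRed

open Cfsg Cfsg.Agent.Lib.Helper2 Cfsg.Agent.Lib.Helper6 Cfsg.Agent.Lib.Helper24
  Cfsg.Agent.Lib.Lead.Glaub Cfsg.Agent.Lib.Helper29 Cfsg.Agent.Lib.Helper1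
open scoped ComplexConjugate Classical commutatorElement

attribute [local instance] irrFintype

theorem psol_top {G : Type*} [Group G] [Nontrivial G] {p : ℕ} (h : IsPSolvable p G) :
    ∃ M : Subgroup G, M.Normal ∧ M ≠ ⊤ ∧ PP p M.index := by
  obtain ⟨n, H, h0, hn, hmono, hnorm, hstep⟩ := h
  have key : ∀ k : ℕ, ∀ hk : k < n + 1, H ⟨k, hk⟩ ≠ ⊤ ∨
      ∃ M : Subgroup G, M.Normal ∧ M ≠ ⊤ ∧ PP p M.index := by
    intro k
    induction k with
    | zero =>
      intro hk
      left
      have : (⟨0, hk⟩ : Fin (n + 1)) = 0 := rfl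
      rw [this, h0]
      exact bot_ne_top
    | succ k ih =>
      intro hk
      rcases ih (by omega) with h1 | h1
      · by_cases htop : H ⟨k + 1, hk⟩ = ⊤
        · right
          refine ⟨H ⟨k, by omega⟩, hnorm _, h1, ?_⟩
          have := hstep ⟨k, by omega⟩
          have e1 : (⟨k, by omega⟩ : Fin n).castSucc = (⟨k, by omega⟩ : Fin (n + 1)) := rfl
          have e2 : (⟨k, by omega⟩ : Fin n).succ = (⟨k + 1, hk⟩ : Fin (n + 1)) := rfl
          rw [e1, e2, htop, Subgroup.relIndex_top_right] at this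
          exact this
        · exact Or.inl htop
      · exact Or.inr h1
  rcases key n (by omega) with h1 | h1
  · have : (⟨n, by omega⟩ : Fin (n + 1)) = Fin.last n := rfl
    rw [this] at h1
    exact absurd hn h1
  · exact h1

section

variable {G : Type*} [Group G] [Fintype G]

theorem pgroup_abelian' (n p : ℕ) [hp : Fact p.Prime] (hnp : n < p)
    {χ : G → ℂ} (hχ : IsCharacter G χ) (hfaith : ∀ g, χ g = χ 1 → g = 1)
    (hdeg : charDegree χ = n) (U : Subgroup G) (hU : IsPGroup p U) :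
    ∀ a ∈ U, ∀ b ∈ U, a * b = b * a := by
  intro a ha b hb
  have hχU := IsCharacter.comp_hom U.subtype hχ
  have hdU := charDegree_res hχ U
  have key : (fun u : U => χ (U.subtype u)) ⁅(⟨a, ha⟩ : U), ⟨b, hb⟩⁆ =
      (fun u : U => χ (U.subtype u)) 1 := by
    apply const_of_constituents hχU
    intro ψ hψ
    have h1 := degree_le_of_constituent hχU ψ hψ
    have h2 := degree_dvd_card ψ.2
    obtain ⟨j, hj⟩ := IsPGroup.iff_card.mp hU
    rw [hj] at h2
    obtain ⟨i, -, hi⟩ := (Nat.dvd_prime_pow hp.out).mp h2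
    have h3 : charDegree (ψ : U → ℂ) = 1 := by
      rcases Nat.eq_zero_or_pos i with rfl | hpos
      · simpa using hi
      · exfalso
        have : p ≤ charDegree (ψ : U → ℂ) := by
          rw [hi]; exact Nat.le_self_pow hpos.ne' p
        omega
    apply UniqueP.ker_of_degree_one (IsIrrCharacter.isCharacter ψ.2)
    · rw [← charDegree_cast (IsIrrCharacter.isCharacter ψ.2), h3]; simp
    · exact Subgroup.commutator_mem_commutator (Subgroup.mem_top _) (Subgroup.mem_top _)
  have h4 : χ ⁅a, b⁆ = χ 1 := key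
  exact commutatorElement_eq_one_iff_mul_comm.mp (hfaith _ h4)

theorem exists_K (p : ℕ) [hp : Fact p.Prime] (P : Sylow p G)
    (hab : ∀ a ∈ (P : Subgroup G), ∀ b ∈ (P : Subgroup G), a * b = b * a)
    (hsub : ∀ L : Subgroup G, L ≠ ⊤ → PClosed p L)
    (hPn : ¬ (P : Subgroup G).Normal) (hsol : IsPSolvable p G) :
    ∃ K : Subgroup G, K.Normal ∧ (∀ y ∈ K, IsPEl p y → y = 1) ∧ ∃ j, K.index = p ^ j := by
  have hT := hT_lemma p P hab hsub
  have hcentral : ∀ U : Subgroup G, U.Normal → IsPGroup p U →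
      U ≤ (P : Subgroup G) ⊓ Subgroup.center G := by
    intro U hUn hU y hyU
    have hUP := le_sylow_of_normal U hU hUn P
    refine ⟨hUP hyU, ?_⟩
    by_contra hyz
    apply hPn
    refine ⟨fun t ht g => ?_⟩
    apply hT y (hUP hyU) hyz _ ((isPEl_of_mem_sylow P ht).conj g)
    have h1 : g⁻¹ * y * g ∈ (P : Subgroup G) := hUP (by simpa using hUn.conj_mem y hyU g⁻¹)
    have h2 := hab t ht _ h1
    calc g * t * g⁻¹ * y = g * (t * (g⁻¹ * y * g)) * g⁻¹ := by group
      _ = g * ((g⁻¹ * y * g) * t) * g⁻¹ := by rw [h2]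
      _ = _ := by group
  by_cases hZ : ∃ z ∈ (P : Subgroup G), z ∈ Subgroup.center G ∧ z ≠ 1
  · obtain ⟨z, hzP, hzZ, hz1⟩ := hZ
    letI : CommGroup (P : Subgroup G) :=
      { (inferInstance : Group (P : Subgroup G)) with
        mul_comm := fun a b => Subtype.ext (hab a a.2 b b.2) }
    obtain ⟨V, hV⟩ : ∃ V : G →* (P : Subgroup G), ∀ y ∈ Subgroup.center G,
        ((V y : (P : Subgroup G)) : G) = y ^ (P : Subgroup G).index := by
      refine ⟨MonoidHom.transfer (MonoidHom.id (P : Subgroup G)), ?_⟩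
      intro y hy
      have key : ∀ (k : ℕ) (g₀ : G), g₀⁻¹ * y ^ k * g₀ ∈ (P : Subgroup G) →
          g₀⁻¹ * y ^ k * g₀ = y ^ k := by
        intro k g₀ _
        have h1 : y ^ k ∈ Subgroup.center G := Subgroup.pow_mem _ hy k
        rw [mul_assoc, ← Subgroup.mem_center_iff.mp h1 g₀, inv_mul_cancel_left]
      rw [MonoidHom.transfer_eq_pow _ y key]
      rfl
    have hcopidx : Nat.Coprime p (P : Subgroup G).index :=
      (Nat.Prime.coprime_iff_not_dvd hp.out).mpr P.not_dvd_index
    have hpow : ∀ y : G, IsPEl p y → y ^ (P : Subgroup G).index = 1 → y = 1 := by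
      rintro y ⟨k, hk⟩ h
      have h1 := orderOf_dvd_of_pow_eq_one hk
      have h2 := orderOf_dvd_of_pow_eq_one h
      have h3 : orderOf y ∣ 1 := by
        have := Nat.dvd_gcd h1 h2
        rwa [Nat.Coprime.pow_left k hcopidx] at this
      exact orderOf_eq_one_iff.mp (Nat.dvd_one.mp h3)
    obtain ⟨K, hKdef⟩ : ∃ K : Subgroup G, K = V.ker := ⟨_, rfl⟩
    haveI hKn : K.Normal := hKdef ▸ MonoidHom.normal_ker V
    have hKmem : ∀ y, y ∈ K → V y = 1 := fun y hy => by
      rw [hKdef] at hy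
      exact hy
    have hKtop : K ≠ ⊤ := by
      intro h
      have h2 : V z = 1 := hKmem z (h ▸ Subgroup.mem_top z)
      have h3 := hV z hzZ
      rw [h2, Subgroup.coe_one] at h3
      exact hz1 (hpow z (isPEl_of_mem_sylow P hzP) h3.symm)
    have hKc := hsub K hKtop
    have hUn : (pSub p K hKc).Normal := ⟨fun y hy g => ⟨hKn.conj_mem y hy.1 g, hy.2.conj g⟩⟩
    refine ⟨K, hKn, ?_, ?_⟩
    · intro y hy hyp'
      have hyU : y ∈ pSub p K hKc := ⟨hy, hyp'⟩
      have hyZ := (hcentral _ hUn (isPGroup_pSub hKc) hyU).2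
      have h2 : V y = 1 := hKmem y hy
      have h3 := hV y hyZ
      rw [h2, Subgroup.coe_one] at h3
      exact hpow y hyp' h3.symm
    · rw [hKdef, Subgroup.index_ker]
      have h1 : Nat.card V.range ∣ Nat.card (P : Subgroup G) := Subgroup.card_subgroup_dvd_card _
      obtain ⟨a, ha⟩ := IsPGroup.iff_card.mp P.2
      rw [ha] at h1
      obtain ⟨j, -, hj⟩ := (Nat.dvd_prime_pow hp.out).mp h1
      exact ⟨j, hj⟩
  · push Not at hZ
    haveI : Nontrivial G := by
      by_contra hnt
      rw [not_nontrivial_iff_subsingleton] at hnt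
      apply hPn
      exact ⟨fun y hy g => by rw [Subsingleton.elim (g * y * g⁻¹) y]; exact hy⟩
    obtain ⟨M, hMn, hMtop, hPP⟩ := psol_top hsol
    have hMc := hsub M hMtop
    rcases hPP with ⟨m, hm⟩ | hcop
    · have hUn : (pSub p M hMc).Normal := ⟨fun y hy g => ⟨hMn.conj_mem y hy.1 g, hy.2.conj g⟩⟩
      refine ⟨M, hMn, ?_, m, hm⟩
      intro y hy hyp'
      have h1 := hcentral _ hUn (isPGroup_pSub hMc) (⟨hy, hyp'⟩ : y ∈ pSub p M hMc)
      by_contra hy1
      exact hy1 (hZ y h1.1 h1.2)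
    · exfalso
      have hPM : (P : Subgroup G) ≤ M := by
        rw [← Subgroup.relIndex_eq_one]
        have h1 : M.relIndex (P : Subgroup G) ∣ M.index := Subgroup.relIndex_dvd_index_of_normal _ _
        have h2 : M.relIndex (P : Subgroup G) ∣ Nat.card (P : Subgroup G) :=
          Subgroup.relIndex_dvd_card _ _
        obtain ⟨a, ha⟩ := IsPGroup.iff_card.mp P.2
        rw [ha] at h2
        exact Nat.eq_one_of_dvd_coprimes (Nat.Coprime.pow_right a hcop) h1 h2
      exact hPn ⟨fun y hy g => mem_sylow_of_closed P M hMc hPM (hMn.conj_mem y (hPM hy) g)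
        ((isPEl_of_mem_sylow P hy).conj g)⟩

theorem qgroup_or_central (p : ℕ) [hp : Fact p.Prime] (K : Subgroup G) [hK : K.Normal]
    (hKp : ∀ y ∈ K, IsPEl p y → y = 1) (hcop : (Nat.card K).Coprime p) (x : G) (hx : IsPEl p x)
    (hsub : ∀ L : Subgroup G, L ≠ ⊤ → PClosed p L) :
    (∀ c ∈ K, x * c = c * x) ∨ ∃ q m : ℕ, q.Prime ∧ Nat.card K = q ^ m := by
  by_contra hcon
  push Not at hcon
  obtain ⟨⟨c0, hc0, hne⟩, hq⟩ := hcon
  obtain ⟨A, hA⟩ : ∃ A : Subgroup G, A = Subgroup.zpowers x := ⟨_, rfl⟩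
  have hxA : x ∈ A := hA ▸ Subgroup.mem_zpowers x
  obtain ⟨i, hi⟩ : ∃ i, Nat.card A = p ^ i := by
    obtain ⟨k, hk⟩ := hx
    obtain ⟨i, -, hi⟩ := (Nat.dvd_prime_pow hp.out).mp (orderOf_dvd_of_pow_eq_one hk)
    exact ⟨i, by rw [hA, Nat.card_zpowers, hi]⟩
  have hAK : A ≤ Subgroup.normalizer (K : Set G) := by
    rw [Subgroup.normalizer_eq_top_iff.mpr hK]; exact le_top
  have hcopA : (Nat.card A).Coprime (Nat.card K) := by
    rw [hi]; exact (Nat.Coprime.pow_right i hcop).symm
  have hAsolv : Group.IsSolvable A := by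
    rw [hA]
    letI := IsCyclic.commGroup (α := Subgroup.zpowers x)
    infer_instance
  have hall : ∀ q : ℕ, q.Prime → ∃ Q : Subgroup G, Q ≤ K ∧ (∀ c ∈ Q, x * c = c * x) ∧
      Nat.card Q = q ^ (Nat.card K).factorization q := by
    intro q hqp
    haveI : Fact q.Prime := ⟨hqp⟩
    obtain ⟨Q, hQ⟩ := coprime_exists_invariant_sylow A K hAK hcopA (Or.inl hAsolv) q
    have hQK : sylImg Q ≤ K := sylImg_le Q
    have hQcard : Nat.card (sylImg Q) = q ^ (Nat.card K).factorization q := by
      rw [← Q.card_eq_multiplicity]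
      exact Subgroup.card_map_of_injective K.subtype_injective
    by_cases hL : sylImg Q ⊔ A = ⊤
    · exfalso
      haveI : (sylImg Q).Normal := by
        rw [← Subgroup.normalizer_eq_top_iff, eq_top_iff, ← hL]
        exact sup_le Subgroup.le_normalizer hQ
      have h1 : (sylImg Q).index ∣ Nat.card A := by
        have := Subgroup.relIndex_sup_left A (sylImg Q)
        rw [hL, Subgroup.relIndex_top_right] at this
        rw [this]
        exact Subgroup.relIndex_dvd_card _ _
      have h2 : (sylImg Q).relIndex K ∣ Nat.card A :=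
        (Subgroup.relIndex_dvd_index_of_le hQK).trans h1
      have h3 : (sylImg Q).relIndex K ∣ Nat.card K := Subgroup.relIndex_dvd_card _ _
      have h4 : (sylImg Q).relIndex K = 1 := Nat.eq_one_of_dvd_coprimes hcopA h2 h3
      have h5 : K ≤ sylImg Q := Subgroup.relIndex_eq_one.mp h4
      have h6 : K = sylImg Q := le_antisymm h5 hQK
      apply hq q _ hqp
      rw [← hQcard, ← h6]
    · refine ⟨sylImg Q, hQK, ?_, hQcard⟩
      intro c hc
      have hLc := hsub _ hL
      have hxL : x ∈ sylImg Q ⊔ A := (le_sup_right : A ≤ sylImg Q ⊔ A) hxA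
      have hcL : c ∈ sylImg Q ⊔ A := (le_sup_left : sylImg Q ≤ _) hc
      have h1 := hLc (c * x * c⁻¹) (mul_mem (mul_mem hcL hxL) (inv_mem hcL)) x⁻¹ (inv_mem hxL)
        (hx.conj c) hx.inv
      have h2 : c * x * c⁻¹ * x⁻¹ ∈ K := by
        have : c * x * c⁻¹ * x⁻¹ = c * (x * c⁻¹ * x⁻¹) := by group
        rw [this]
        exact K.mul_mem (hQK hc) (hK.conj_mem _ (K.inv_mem (hQK hc)) x)
      have h3 := hKp _ h2 h1
      have h4 : c * x = x * c := by
        have := congrArg (fun t => t * x * c) h3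
        simpa [mul_assoc] using this
      exact h4.symm
  -- the centralizer of x in K is all of K
  have hC : K ≤ K ⊓ Subgroup.centralizer ({x} : Set G) := by
    rw [← Subgroup.relIndex_eq_one]
    by_contra h1
    obtain ⟨q, hqp, hqd⟩ := Nat.exists_prime_and_dvd h1
    obtain ⟨Q, hQK, hQc, hQcard⟩ := hall q hqp
    have hQC : Q ≤ K ⊓ Subgroup.centralizer ({x} : Set G) := by
      intro c hc
      refine ⟨hQK hc, ?_⟩
      show c ∈ Subgroup.centralizer ({x} : Set G)
      rw [Subgroup.mem_centralizer_iff]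
      intro h hh
      rw [Set.mem_singleton_iff.mp hh]
      exact hQc c hc
    have h2 : Nat.card Q ∣ Nat.card ↥(K ⊓ Subgroup.centralizer ({x} : Set G)) :=
      Subgroup.card_dvd_of_le hQC
    have h3 : Nat.card ↥(K ⊓ Subgroup.centralizer ({x} : Set G)) *
        (K ⊓ Subgroup.centralizer ({x} : Set G)).relIndex K = Nat.card K := by
      have := Subgroup.card_mul_index ((K ⊓ Subgroup.centralizer ({x} : Set G)).subgroupOf K)
      rwa [Nat.card_congr (Subgroup.subgroupOfEquivOfLe inf_le_left).toEquiv] at this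
    have h4 : q ^ ((Nat.card K).factorization q + 1) ∣ Nat.card K := by
      rw [hQcard] at h2
      rw [pow_succ]
      calc q ^ (Nat.card K).factorization q * q ∣ Nat.card ↥(K ⊓ Subgroup.centralizer ({x} : Set G)) *
          (K ⊓ Subgroup.centralizer ({x} : Set G)).relIndex K := mul_dvd_mul h2 hqd
        _ = Nat.card K := h3
    have h5 := (Nat.Prime.pow_dvd_iff_le_factorization hqp Nat.card_pos.ne').mp h4
    omega
  apply hne
  have h1 : c0 ∈ Subgroup.centralizer ({x} : Set G) := (hC hc0).2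
  rw [Subgroup.mem_centralizer_iff] at h1
  exact h1 x rfl


theorem ito_const (p : ℕ) [hp : Fact p.Prime] (K : Subgroup G) [hK : K.Normal]
    (hcop : (Nat.card K).Coprime p) (hidx : ∃ j, K.index = p ^ j) (x : G) (k : ℕ)
    (hi : orderOf x = p ^ (k + 1)) (htop : K ⊔ Subgroup.zpowers x = ⊤)
    (hcent : x ^ p ∈ Subgroup.center G) (ψ : IrrCharacter G)
    (hψd : charDegree (ψ : G → ℂ) < p) :
    ∃ θ : IrrCharacter K, charDegree (ψ : G → ℂ) = charDegree (θ : K → ℂ) ∧
      (charDegree (ψ : G → ℂ) + 1 < p → ∀ c ∈ K, (ψ : G → ℂ) ⁅c, x⁆ = (ψ : G → ℂ) 1) := by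
  set S := Subgroup.zpowers x with hS
  have hScard : Nat.card S = p ^ (k + 1) := by rw [hS, Nat.card_zpowers, hi]
  have hnorm : ∀ s ∈ S, ∀ g ∈ K, s * g * s⁻¹ ∈ K := fun s _ g hg => hK.conj_mem g hg s
  have hcop' : (Nat.card K).Coprime (Nat.card S) := by
    rw [hScard]; exact Nat.Coprime.pow_right _ hcop
  have hcyc : IsCyclic S := by rw [hS]; infer_instance
  have hψc := IsIrrCharacter.isCharacter ψ.2
  have hresc := IsCharacter.comp_hom K.subtype hψc
  obtain ⟨θ, hθ⟩ := exists_constituent hresc (by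
    rw [map_one]; exact irr_one_ne_zero ψ.2)
  have hθc := IsIrrCharacter.isCharacter θ.2
  obtain ⟨e, he1, he2⟩ := ratio_dvd_index K ψ.2 θ.2 hθ
  obtain ⟨j, hj⟩ := hidx
  rw [hj] at he2
  obtain ⟨i', -, hi'⟩ := (Nat.dvd_prime_pow hp.out).mp he2
  have he3 : charDegree (ψ : G → ℂ) = e * charDegree (θ : K → ℂ) := by
    have : (charDegree (ψ : G → ℂ) : ℂ) = ((e * charDegree (θ : K → ℂ) : ℕ) : ℂ) := by
      push_cast
      rw [charDegree_cast hψc, charDegree_cast hθc, he1]
    exact_mod_cast this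
  have hθpos := charDegree_pos θ.2
  have he4 : e = 1 := by
    rcases Nat.eq_zero_or_pos i' with rfl | hpos
    · simpa using hi'
    · exfalso
      have h1 : p ≤ e := by
        rw [hi']; exact Nat.le_self_pow hpos.ne' p
      have h2 : e ≤ e * charDegree (θ : K → ℂ) := Nat.le_mul_of_pos_right _ hθpos
      omega
  rw [he4, one_mul] at he3
  refine ⟨θ, he3, ?_⟩
  intro hsmall c hc
  have hmemK : ⁅c, x⁆ ∈ K := by
    rw [commutatorElement_def, mul_assoc, mul_assoc]
    apply K.mul_mem hc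
    rw [← mul_assoc]
    exact hK.conj_mem _ (K.inv_mem hc) x
  have hres := res_eq_of_degree_eq K ψ θ hθ he3
  have hres' : ∀ y : K, (θ : K → ℂ) y = (ψ : G → ℂ) y := fun y => (congrFun hres y).symm
  have hinv : Inv (conjOn K S hnorm) (θ : K → ℂ) := by
    intro s g
    rw [hres', hres', conjOn_apply]
    exact irr_isClassFunction ψ.2 g s
  obtain ⟨χh, hext, hdet⟩ := exists_canonical K S (K ⊓ Subgroup.centralizer (S : Set G)) hnorm
    hcop' htop hcyc rfl θ hinv
  have hχhc := IsIrrCharacter.isCharacter χh.2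
  have hirr : IsIrrCharacter K (fun g : K => (χh : G → ℂ) g) := by
    have : (fun g : K => (χh : G → ℂ) g) = θ := funext hext
    rw [this]; exact θ.2
  have hdh : charDegree (χh : G → ℂ) = charDegree (θ : K → ℂ) := by
    have : (charDegree (χh : G → ℂ) : ℂ) = (charDegree (θ : K → ℂ) : ℂ) := by
      rw [charDegree_cast hχhc, charDegree_cast hθc]
      exact hext 1
    exact_mod_cast this
  have hstep := ito_step K p x k hi hcop htop hcent χh.2 hirr hdet (by omega)
  have hxk : x ∈ kerOf hχhc := (mem_kerOf hχhc x).mpr hstep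
  have hkn := kerOf_normal hχhc
  have hck : ⁅c, x⁆ ∈ kerOf hχhc := by
    rw [commutatorElement_def]
    exact (kerOf hχhc).mul_mem (hkn.conj_mem x hxk c) ((kerOf hχhc).inv_mem hxk)
  have h5 := (mem_kerOf hχhc _).mp hck
  have h6 := hext ⟨⁅c, x⁆, hmemK⟩
  have h7 := hext 1
  have h8 := hres' ⟨⁅c, x⁆, hmemK⟩
  have h9 := hres' 1
  simp only [Subgroup.coe_one] at h6 h7 h8 h9
  rw [← h8, ← h9, ← h6, ← h7]
  exact h5

theorem ito_apply' (n p : ℕ) [hp : Fact p.Prime] (hnp : n + 1 ≤ p)
    {χ : G → ℂ} (hχ : IsCharacter G χ) (hfaith : ∀ g, χ g = χ 1 → g = 1)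
    (hdeg : charDegree χ = n) (K : Subgroup G) [hK : K.Normal]
    (hKp : ∀ y ∈ K, IsPEl p y → y = 1) (hcop : (Nat.card K).Coprime p)
    (hidx : ∃ j, K.index = p ^ j) (x : G) (hx : IsPEl p x)
    (htop : K ⊔ Subgroup.zpowers x = ⊤) (hcent : x ^ p ∈ Subgroup.center G)
    (hsub : ∀ L : Subgroup G, L ≠ ⊤ → PClosed p L) :
    (∀ c ∈ K, x * c = c * x) ∨ (n + 1 = p ∧ (∃ k : ℕ, n = 2 ^ k) ∧ IsIrrCharacter G χ) := by
  by_cases hx1 : x = 1
  · left
    intro c _
    rw [hx1]; simp
  have hx' := hx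
  obtain ⟨k', hk'⟩ := hx'
  obtain ⟨i, -, hi⟩ := (Nat.dvd_prime_pow hp.out).mp (orderOf_dvd_of_pow_eq_one hk')
  obtain ⟨k, rfl⟩ : ∃ k, i = k + 1 := by
    rcases i with _ | k
    · exfalso
      apply hx1
      rw [pow_zero] at hi
      exact orderOf_eq_one_iff.mp hi
    · exact ⟨k, rfl⟩
  by_cases hbig : ∃ ψ : IrrCharacter G, classInner χ ψ ≠ 0 ∧ p ≤ charDegree (ψ : G → ℂ) + 1
  · obtain ⟨ψ, hψ, hψp⟩ := hbig
    have hle := degree_le_of_constituent hχ ψ hψ
    have hn : charDegree χ = charDegree (ψ : G → ℂ) := by omega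
    have hχψ := eq_of_constituent_of_degree_eq hχ ψ hψ hn
    rcases qgroup_or_central p K hKp hcop x hx hsub with h | ⟨q, m, hq, hm⟩
    · exact Or.inl h
    · right
      refine ⟨by omega, ?_, hχψ ▸ ψ.2⟩
      obtain ⟨θ, hθ, -⟩ := ito_const p K hcop hidx x k hi htop hcent ψ (by omega)
      have h1 := degree_dvd_card θ.2
      rw [hm] at h1
      obtain ⟨i, -, hi'⟩ := (Nat.dvd_prime_pow hq).mp h1
      have hnq : n = q ^ i := by omega
      rcases hq.eq_two_or_odd' with rfl | hodd
      · exact ⟨i, hnq⟩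
      · have hnodd : Odd n := hnq ▸ hodd.pow
        have hpeven : Even p := by
          have : p = n + 1 := by omega
          rw [this]; exact hnodd.add_one
        have hp2 : p = 2 := (Nat.Prime.even_iff hp.out).mp hpeven
        exact ⟨0, by omega⟩
  · left
    push Not at hbig
    intro c hc
    have key : χ ⁅c, x⁆ = χ 1 := by
      apply const_of_constituents hχ
      intro ψ hψ
      have h1 := hbig ψ hψ
      obtain ⟨θ, -, h2⟩ := ito_const p K hcop hidx x k hi htop hcent ψ (by omega)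
      exact h2 h1 c hc
    exact (commutatorElement_eq_one_iff_mul_comm.mp (hfaith _ key)).symm

theorem min_case (n p : ℕ) [hp : Fact p.Prime] (hnp : n + 1 ≤ p)
    {χ : G → ℂ} (hχ : IsCharacter G χ) (hfaith : ∀ g, χ g = χ 1 → g = 1)
    (hdeg : charDegree χ = n) (hsol : IsPSolvable p G)
    (hsub : ∀ L : Subgroup G, L ≠ ⊤ → PClosed p L) (hnot : ¬ PClosed p (⊤ : Subgroup G)) :
    n + 1 = p ∧ (∃ k : ℕ, n = 2 ^ k) ∧ IsIrrCharacter G χ := by
  obtain ⟨P⟩ : Nonempty (Sylow p G) := inferInstance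
  have hPn : ¬ (P : Subgroup G).Normal := fun h => hnot (closed_of_normal P h)
  have hab := pgroup_abelian' n p (by omega) hχ hfaith hdeg P P.2
  obtain ⟨K, hKn, hKp, hidx⟩ := exists_K p P hab hsub hPn hsol
  haveI := hKn
  have hcop : (Nat.card K).Coprime p := by
    rw [Nat.coprime_comm, Nat.Prime.coprime_iff_not_dvd hp.out]
    intro hd
    obtain ⟨y, hy⟩ := exists_prime_orderOf_dvd_card' p hd
    have h1 : (y : G) = 1 := hKp y y.2 ⟨1, by
      rw [pow_one, ← Subgroup.coe_pow, ← hy, pow_orderOf_eq_one]; rfl⟩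
    have h2 : y = 1 := Subtype.ext h1
    rw [h2, orderOf_one] at hy
    exact hp.out.one_lt.ne hy
  by_contra hC
  have hcentK : ∀ k : ℕ, ∀ x ∈ (P : Subgroup G), x ^ p ^ k = 1 → ∀ c ∈ K, x * c = c * x := by
    intro k
    induction k with
    | zero =>
      intro x _ hx c _
      rw [pow_zero, pow_one] at hx
      rw [hx]; simp
    | succ k ih =>
      intro x hx hxk c hc
      have hxp : ∀ c ∈ K, x ^ p * c = c * x ^ p :=
        ih (x ^ p) (Subgroup.pow_mem _ hx p) (by rw [← pow_mul, ← pow_succ']; exact hxk)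
      by_cases hL : K ⊔ Subgroup.zpowers x = ⊤
      · have hcent : x ^ p ∈ Subgroup.center G := by
          have h1 : K ⊔ Subgroup.zpowers x ≤ Subgroup.centralizer ({x ^ p} : Set G) := by
            apply sup_le
            · intro c hc
              rw [Subgroup.mem_centralizer_iff]
              intro h hh
              rw [Set.mem_singleton_iff.mp hh]
              exact hxp c hc
            · rw [Subgroup.zpowers_le, Subgroup.mem_centralizer_iff]
              intro h hh
              rw [Set.mem_singleton_iff.mp hh, ← pow_succ, ← pow_succ']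
          rw [hL] at h1
          rw [Subgroup.mem_center_iff]
          intro g
          have hg := h1 (Subgroup.mem_top g)
          rw [Subgroup.mem_centralizer_iff] at hg
          exact (hg _ rfl).symm
        rcases ito_apply' n p hnp hχ hfaith hdeg K hKp hcop hidx x ⟨k + 1, hxk⟩ hL hcent hsub
          with h | h
        · exact h c hc
        · exact absurd h hC
      · have hLc := hsub _ hL
        have hxL : x ∈ K ⊔ Subgroup.zpowers x :=
          (le_sup_right : _ ≤ K ⊔ Subgroup.zpowers x) (Subgroup.mem_zpowers x)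
        have hcL : c ∈ K ⊔ Subgroup.zpowers x := (le_sup_left : K ≤ _) hc
        have hxe : IsPEl p x := ⟨k + 1, hxk⟩
        have h1 := hLc (c * x * c⁻¹) (mul_mem (mul_mem hcL hxL) (inv_mem hcL)) x⁻¹ (inv_mem hxL)
          (hxe.conj c) hxe.inv
        have h2 : c * x * c⁻¹ * x⁻¹ ∈ K := by
          have : c * x * c⁻¹ * x⁻¹ = c * (x * c⁻¹ * x⁻¹) := by group
          rw [this]
          exact K.mul_mem hc (hKn.conj_mem _ (K.inv_mem hc) x)
        have h3 := hKp _ h2 h1
        have h4 : c * x = x * c := by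
          have := congrArg (fun t => t * x * c) h3
          simpa [mul_assoc] using this
        exact h4.symm
  apply hPn
  have hsup : K ⊔ (P : Subgroup G) = ⊤ := by
    apply Subgroup.index_eq_one.mp
    obtain ⟨j, hj⟩ := hidx
    have h1 : (K ⊔ (P : Subgroup G)).index ∣ p ^ j := hj ▸ Subgroup.index_dvd_of_le le_sup_left
    have h2 : (K ⊔ (P : Subgroup G)).index ∣ (P : Subgroup G).index :=
      Subgroup.index_dvd_of_le le_sup_right
    obtain ⟨i, -, hi⟩ := (Nat.dvd_prime_pow hp.out).mp h1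
    rcases Nat.eq_zero_or_pos i with rfl | hpos
    · simpa using hi
    · exfalso
      apply P.not_dvd_index
      refine dvd_trans ?_ h2
      rw [hi]
      exact dvd_pow_self p hpos.ne'
  rw [← Subgroup.normalizer_eq_top_iff, eq_top_iff, ← hsup]
  apply sup_le _ Subgroup.le_normalizer
  intro c hc
  rw [Subgroup.mem_normalizer_iff]
  intro y
  have hconj : ∀ y ∈ (P : Subgroup G), c * y * c⁻¹ = y := by
    intro y hy
    obtain ⟨k, hk⟩ := isPEl_of_mem_sylow P hy
    rw [← hcentK k y hy hk c hc, mul_inv_cancel_right]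
  constructor
  · intro hy
    rw [hconj y hy]; exact hy
  · intro hy
    have h1 := hconj _ hy
    have h2 : c * y * c⁻¹ = y := by
      have := congrArg (fun t => c⁻¹ * t * c) h1
      simpa [mul_assoc] using this
    rw [h2] at hy
    exact hy

theorem irr_of_res_irr {χ : G → ℂ} (hχ : IsCharacter G χ) (H : Subgroup G)
    (h : IsIrrCharacter H (fun u : H => χ (H.subtype u))) : IsIrrCharacter G χ := by
  have h1 : χ 1 ≠ 0 := by
    have := irr_one_ne_zero h
    simpa using this
  obtain ⟨ψ, hψ⟩ := exists_constituent hχ h1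
  have hψc := IsIrrCharacter.isCharacter ψ.2
  have hsubc : IsCharacter G (χ - ψ) := IsCharacter.sub_irr hχ ψ.2 hψ
  obtain ⟨α, hα⟩ := exists_constituent (IsCharacter.comp_hom H.subtype hψc) (by
    rw [map_one]; exact irr_one_ne_zero ψ.2)
  obtain ⟨a, ha⟩ := IsCharacter.classInner_nat (IsCharacter.comp_hom H.subtype hψc)
    (IsIrrCharacter.isCharacter α.2)
  obtain ⟨b, hb⟩ := IsCharacter.classInner_nat (IsCharacter.comp_hom H.subtype hsubc)
    (IsIrrCharacter.isCharacter α.2)
  have hsum : classInner (fun u : H => χ (H.subtype u)) α = a + b := by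
    rw [← ha, ← hb, ← classInner_add_left]
    congr 1
    funext u
    simp
  have hne : classInner (fun u : H => χ (H.subtype u)) α ≠ 0 := by
    rw [hsum]
    have ha0 : a ≠ 0 := by
      rintro rfl
      exact hα (by rw [ha]; simp)
    exact_mod_cast (by omega : a + b ≠ 0)
  have heq : (fun u : H => χ (H.subtype u)) = α := by
    by_contra hne'
    rw [classInner_irr h α.2, if_neg hne'] at hne
    exact hne rfl
  have hd1 := degree_le_of_constituent (IsCharacter.comp_hom H.subtype hψc) α hα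
  have hd2 := charDegree_res hψc H
  have hd3 := charDegree_res hχ H
  have hd4 := degree_le_of_constituent hχ ψ hψ
  have hd5 : charDegree χ = charDegree (ψ : G → ℂ) := by
    rw [heq] at hd3
    omega
  rw [eq_of_constituent_of_degree_eq hχ ψ hψ hd5]
  exact ψ.2

end

theorem ito_main {G : Type*} [Group G] [Finite G] (χ : G → ℂ) (hχ : IsCharacter G χ)
    (hfaith : ∀ g : G, χ g = χ 1 → g = 1) (n : ℕ) (hn : charDegree χ = n) (p : ℕ) (hp : p.Prime)
    (hsolv : IsPSolvable p G) (hnp : n + 1 ≤ p) (P : Sylow p G)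
    (hP : ¬ (P : Subgroup G).Normal) :
    n + 1 = p ∧ (∃ k : ℕ, n = 2 ^ k) ∧ IsIrrCharacter G χ := by
  cases nonempty_fintype G
  haveI : Fact p.Prime := ⟨hp⟩
  have hnot : ¬ PClosed p (⊤ : Subgroup G) := fun h => hP (normal_of_closed P h)
  obtain ⟨H, hH, hmin⟩ : ∃ H : Subgroup G, ¬ PClosed p H ∧
      ∀ L : Subgroup G, Nat.card L < Nat.card H → PClosed p L := by
    obtain ⟨H, hH, hmin⟩ := WellFounded.has_min (measure (fun H : Subgroup G => Nat.card H)).wf
      {H | ¬ PClosed p H} ⟨⊤, hnot⟩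
    exact ⟨H, hH, fun L hL => by
      by_contra hc
      exact hmin L hc hL⟩
  have hres := min_case n p hnp (IsCharacter.comp_hom H.subtype hχ)
    (fun g hg => Subtype.ext (hfaith _ hg)) ((charDegree_res hχ H).trans hn)
    (psol_subgroup hsolv H) (by
      intro L hL a ha b hb hap hbp
      have hc : Nat.card (L.map H.subtype) = Nat.card L :=
        Subgroup.card_map_of_injective H.subtype_injective
      have hlt : Nat.card L < Nat.card H := by
        by_contra hcon
        apply hL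
        apply Subgroup.eq_top_of_card_eq
        have := Subgroup.card_le_card_group L
        omega
      have := hmin (L.map H.subtype) (by rw [hc]; exact hlt) a ⟨a, ha, rfl⟩ b ⟨b, hb, rfl⟩
        ((isPEl_coe a).mpr hap) ((isPEl_coe b).mpr hbp)
      exact (isPEl_coe (a * b)).mp this) (by
      intro hcl
      apply hH
      intro x hx y hy hxp hyp'
      have h2 := hcl ⟨x, hx⟩ (Subgroup.mem_top _) ⟨y, hy⟩ (Subgroup.mem_top _)
        ((isPEl_coe (⟨x, hx⟩ : H)).mp hxp) ((isPEl_coe (⟨y, hy⟩ : H)).mp hyp')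
      exact (isPEl_coe ((⟨x, hx⟩ : H) * ⟨y, hy⟩)).mpr h2)
  exact ⟨hres.1, hres.2.1, irr_of_res_irr hχ H hres.2.2⟩

end Cfsg.Agent.Lib.Helper13.FTRed
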