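import Mathlib
import Cfsg.Agent.Lib.Helper13.Broline

set_option autoImplicit false
set_option linter.unusedSectionVars false
set_option linter.style.haveILetI false

/-! Garrison's theorem (Isaacs 12.21): nilpotent length at most the number of degrees. -/

namespace Cfsg.Agent.Lib.Helper13.Garrison

open Cfsg Cfsg.Agent.Lib.Helper2 Cfsg.Agent.Lib.Helper6 Cfsg.Agent.Lib.Helper24
open scoped ComplexConjugate Classical

attribute [local instance] irrFintype

/-- the degree set -/
def cdS (G : Type*) [Group G] : Set ℕ := {d | ∃ χ : IrrCharacter G, charDegree (χ : G → ℂ) = d}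

theorem cdS_finite (G : Type*) [Group G] [Finite G] : (cdS G).Finite := by
  cases nonempty_fintype G
  have : cdS G = Set.range (fun χ : IrrCharacter G => charDegree (χ : G → ℂ)) := by
    ext d
    simp [cdS]
  rw [this]
  exact Set.finite_range _

theorem larger {G : Type*} [Group G] [Finite G] (hsolv : Group.IsSolvable G)
    (hF : fittingSubgroup G ≠ ⊤) {χ : G → ℂ} (hχ : IsIrrCharacter G χ)
    (hker : ∀ f ∈ fittingSubgroup G, χ f = χ 1) :
    ∃ ψ : IrrCharacter G, charDegree χ < charDegree (ψ : G → ℂ) := by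
  cases nonempty_fintype G
  have hχc := IsIrrCharacter.isCharacter hχ
  haveI := kerOf_normal hχc
  by_cases h : kerOf hχc ≤ fittingSubgroup G
  · have heq : kerOf hχc = fittingSubgroup G :=
      le_antisymm h (fun f hf => (mem_kerOf hχc f).mpr (hker f hf))
    obtain ⟨ψ, h1, -⟩ := Broline.case2 hχ (kerOf hχc) (mem_kerOf hχc) heq inferInstance
      (heq ▸ hF)
    exact ⟨ψ, h1⟩
  · obtain ⟨ψ, h1, -⟩ := Broline.case1 hχ (kerOf hχc) (mem_kerOf hχc) h
    exact ⟨ψ, h1⟩

theorem cdS_quot_ssubset {G : Type*} [Group G] [Finite G] (hsolv : Group.IsSolvable G)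
    (hF : fittingSubgroup G ≠ ⊤) [(fittingSubgroup G).Normal] :
    cdS (G ⧸ fittingSubgroup G) ⊂ cdS G := by
  cases nonempty_fintype G
  have hinf : ∀ θ : IrrCharacter (G ⧸ fittingSubgroup G),
      IsIrrCharacter G (fun g => (θ : G ⧸ fittingSubgroup G → ℂ)
        (QuotientGroup.mk' (fittingSubgroup G) g)) := fun θ =>
    Cfsg.Agent.Lib.Helper24.IsIrrCharacter.inflate (QuotientGroup.mk' (fittingSubgroup G))
      (QuotientGroup.mk'_surjective _) θ.2
  have hsub : cdS (G ⧸ fittingSubgroup G) ⊆ cdS G := by
    rintro d ⟨θ, rfl⟩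
    exact ⟨⟨_, hinf θ⟩, rfl⟩
  refine ⟨hsub, fun hsup => ?_⟩
  have hne : (cdS G).Nonempty := ⟨_, ⟨_, isIrrCharacter_one⟩, rfl⟩
  obtain ⟨d, hd, hmax⟩ := (cdS_finite G).exists_maximal hne
  obtain ⟨θ, hθ⟩ := hsup hd
  obtain ⟨ψ, hψ⟩ := larger hsolv hF (hinf θ) (by
    intro f hf
    show (θ : G ⧸ fittingSubgroup G → ℂ) (QuotientGroup.mk f) =
      (θ : G ⧸ fittingSubgroup G → ℂ) (QuotientGroup.mk 1)
    rw [(QuotientGroup.eq_one_iff f).mpr hf]
    rfl)
  have h1 : charDegree (fun g => (θ : G ⧸ fittingSubgroup G → ℂ)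
    (QuotientGroup.mk' (fittingSubgroup G) g)) = d := hθ
  rw [h1] at hψ
  have h2 := hmax ⟨ψ, rfl⟩ hψ.le
  omega

theorem nilp_transfer {H K : Type*} [Group H] [Group K] (φ : H →* K)
    (hφ : Function.Surjective φ) (M : Subgroup H) [M.Normal] (hM : φ.ker ≤ M)
    (hK : Group.IsNilpotent K) : Group.IsNilpotent (H ⧸ M) := by
  have e := QuotientGroup.quotientKerEquivOfSurjective φ hφ
  refine Group.nilpotent_of_surjective
    ((QuotientGroup.map φ.ker M (MonoidHom.id H) hM).comp e.symm.toMonoidHom) ?_
  intro x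
  obtain ⟨h, rfl⟩ := QuotientGroup.mk_surjective x
  refine ⟨e (QuotientGroup.mk h), ?_⟩
  simp only [MonoidHom.comp_apply, MulEquiv.coe_toMonoidHom, MulEquiv.symm_apply_apply]
  rfl

theorem main (n : ℕ) : ∀ (G : Type*) [Group G] [Finite G], Group.IsSolvable G →
    (cdS G).ncard ≤ n →
    ∃ N : Fin (n + 1) → Subgroup G, N 0 = ⊥ ∧ N (Fin.last n) = ⊤ ∧ Monotone N ∧
      (∀ i, (N i).Normal) ∧ ∀ i : Fin n, ∀ h : ((N i.castSucc).subgroupOf (N i.succ)).Normal,
        Group.IsNilpotent (↥(N i.succ) ⧸ (N i.castSucc).subgroupOf (N i.succ)) := by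
  induction n with
  | zero =>
    intro G _ _ hs hc
    exfalso
    have hne : (cdS G).Nonempty := ⟨_, ⟨_, isIrrCharacter_one⟩, rfl⟩
    have := (Set.ncard_pos (cdS_finite G)).mpr hne
    omega
  | succ m ih =>
    intro G _ _ hs hc
    have hFnil : Group.IsNilpotent (fittingSubgroup G) := Cfsg.Agent.S0008.result
    by_cases hF : fittingSubgroup G = ⊤
    · have hG : Group.IsNilpotent G := by
        rw [hF] at hFnil
        exact Group.nilpotent_of_surjective (⊤ : Subgroup G).subtype (fun g => ⟨⟨g, trivial⟩, rfl⟩)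
      refine ⟨Fin.cons ⊥ (fun _ => ⊤), rfl, ?_, ?_, ?_, ?_⟩
      · rw [← Fin.succ_last, Fin.cons_succ]
      · rw [Fin.monotone_iff_le_succ]
        intro i
        rw [Fin.cons_succ]
        exact le_top
      · intro i
        refine Fin.cases ?_ (fun j => ?_) i
        · rw [Fin.cons_zero]; infer_instance
        · rw [Fin.cons_succ]; infer_instance
      · intro i h
        infer_instance
    · haveI hFn : (fittingSubgroup G).Normal := Cfsg.Agent.Lib.Helper1.fitting_normal
      have hlt := Set.ncard_lt_ncard (cdS_quot_ssubset hs hF) (cdS_finite G)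
      obtain ⟨N', h0, hl, hmono, hnorm, hfac⟩ := ih (G ⧸ fittingSubgroup G) inferInstance (by omega)
      refine ⟨Fin.cons ⊥ (fun i => (N' i).comap (QuotientGroup.mk' (fittingSubgroup G))), rfl,
        ?_, ?_, ?_, ?_⟩
      · rw [← Fin.succ_last, Fin.cons_succ, hl, Subgroup.comap_top]
      · rw [Fin.monotone_iff_le_succ]
        intro i
        refine Fin.cases ?_ (fun j => ?_) i
        · exact bot_le
        · rw [Fin.cons_succ, ← Fin.succ_castSucc, Fin.cons_succ]
          exact Subgroup.comap_mono (hmono (Fin.castSucc_le_succ j))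
      · intro i
        refine Fin.cases ?_ (fun j => ?_) i
        · rw [Fin.cons_zero]; infer_instance
        · rw [Fin.cons_succ]
          haveI := hnorm j
          infer_instance
      · intro i
        refine Fin.cases ?_ (fun j => ?_) i
        · intro h
          have h1 : (Fin.cons ⊥ (fun i => (N' i).comap (QuotientGroup.mk' (fittingSubgroup G))) :
              Fin (m + 1 + 1) → Subgroup G) (Fin.succ 0) = fittingSubgroup G := by
            rw [Fin.cons_succ, h0]
            exact QuotientGroup.ker_mk' _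
          haveI : Group.IsNilpotent ↥((Fin.cons ⊥ (fun i => (N' i).comap
              (QuotientGroup.mk' (fittingSubgroup G))) :
              Fin (m + 1 + 1) → Subgroup G) (Fin.succ 0)) := by
            rw [h1]
            exact hFnil
          infer_instance
        · rw [Fin.cons_succ, ← Fin.succ_castSucc, Fin.cons_succ]
          intro h
          haveI := hnorm j.castSucc
          have hn := hfac j inferInstance
          refine nilp_transfer ((QuotientGroup.mk' ((N' j.castSucc).subgroupOf (N' j.succ))).comp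
            ((QuotientGroup.mk' (fittingSubgroup G)).subgroupComap (N' j.succ))) ?_ _ ?_ hn
          · exact (QuotientGroup.mk'_surjective _).comp
              (MonoidHom.subgroupComap_surjective_of_surjective _ _
                (QuotientGroup.mk'_surjective _))
          · intro x hx
            rw [MonoidHom.mem_ker, MonoidHom.comp_apply, QuotientGroup.mk'_apply,
              QuotientGroup.eq_one_iff] at hx
            exact hx

end Cfsg.Agent.Lib.Helper13.Garrison
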