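import Mathlib
import Cfsg.Agent.Lib.Helper13.Clifford4
import Cfsg.Agent.Lib.Helper13.Dade
import Cfsg.Agent.Lib.Helper24.NilExt
import Cfsg.Agent.Lib.Helper24.CharInt

set_option autoImplicit false
set_option linter.style.haveILetI false
set_option linter.unusedSectionVars false

/-! Isaacs (6.18): going down over an abelian chief factor. -/

namespace Cfsg.Agent.Lib.Helper13.GoingDown

open Cfsg Cfsg.Agent.Lib.Helper2 Cfsg.Agent.Lib.Helper6 Cfsg.Agent.Lib.Helper24
open Cfsg.Agent.Lib.Helper13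
open scoped ComplexConjugate commutatorElement

section generic

variable {X : Type*} [Group X] [Fintype X] (N : Subgroup X) [hN : N.Normal] [Fintype N]

/-- if no nontrivial linear character of `X/N` fixes `ϑ`, then `ϑ_N` is irreducible -/
theorem norm_restrict_eq_one (hab : ∀ x y : X, x * y * x⁻¹ * y⁻¹ ∈ N) {ϑ : X → ℂ}
    (hϑ : IsIrrCharacter X ϑ)
    (hfix : ∀ β : X → ℂ, IsCharacter X β → β 1 = 1 → (∀ n ∈ N, β n = 1) → β * ϑ = ϑ →
      β = fun _ => 1) :
    classInner (fun n : N => ϑ n) (fun n : N => ϑ n) = 1 := by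
  classical
  have := finite_irr (G := X)
  cases nonempty_fintype (IrrCharacter X)
  have hcl := IsCharacter.isClassFunction (IsIrrCharacter.isCharacter hϑ)
  rw [← frobenius_reciprocity N (fun n : N => ϑ n) ϑ hcl]
  have h1 : indFun N (fun n : N => ϑ n) = indFun N (fun _ => 1) * ϑ := by
    rw [← indFun_mul_restrict N (fun _ => 1) hcl]
    congr 1
    funext n
    simp
  rw [h1]
  obtain ⟨r, hr⟩ := IsCharacter.exists_eq_sum
    (IsCharacter.indFun N (IsIrrCharacter.isCharacter (isIrrCharacter_one (G := N))))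
  have hrin : ∀ β : IrrCharacter X,
      classInner (indFun N (fun _ => 1)) (β : X → ℂ) = r β := by
    intro β
    conv_lhs => rw [hr]
    rw [classInner_sum_irr_left]
  let χ₁ : IrrCharacter X := ⟨fun _ => 1, isIrrCharacter_one⟩
  have hr1 : (r χ₁ : ℂ) = 1 := by
    rw [← hrin, frobenius_reciprocity N _ _ (IsCharacter.isClassFunction
      (IsIrrCharacter.isCharacter χ₁.2))]
    exact (classInner_irr (isIrrCharacter_one (G := N)) (isIrrCharacter_one (G := N))).trans
      (if_pos rfl)
  rw [hr, Finset.sum_mul, classInner_sum_left, Finset.sum_eq_single χ₁]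
  · rw [smul_mul_assoc, classInner_smul_left, hr1, one_mul]
    have : (χ₁ : X → ℂ) * ϑ = ϑ := by funext x; simp [χ₁]
    rw [this, classInner_irr hϑ hϑ, if_pos rfl]
  · intro β _ hβ
    rw [smul_mul_assoc, classInner_smul_left]
    by_cases hrβ : (r β : ℂ) = 0
    · rw [hrβ, zero_mul]
    · have hk := (classInner_indFun_one_ne_zero_iff N β.2).mp (by rw [hrin]; exact hrβ)
      have hβ1 := degree_one_of_abelian_quotient N hab β.2 hk
      have hirr := IsIrrCharacter.linear_mul (IsIrrCharacter.isCharacter β.2) hβ1 hϑ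
      rw [classInner_irr hirr hϑ, if_neg, mul_zero]
      intro heq
      apply hβ
      apply Subtype.ext
      exact hfix β (IsIrrCharacter.isCharacter β.2) hβ1 (fun n hn => by rw [hk n hn, hβ1]) heq
  · intro h; exact absurd (Finset.mem_univ _) h

omit hN in
/-- if `ϑ` vanishes off `N` then `[ϑ_N, ϑ_N] = |X : N|` -/
theorem norm_restrict_of_vanish {ϑ : X → ℂ} (hϑ : IsIrrCharacter X ϑ)
    (hv : ∀ x, x ∉ N → ϑ x = 0) :
    classInner (fun n : N => ϑ n) (fun n : N => ϑ n) = (N.index : ℂ) := by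
  classical
  have h1 : classInner ϑ ϑ = 1 := by rw [classInner_irr hϑ hϑ, if_pos rfl]
  simp only [classInner] at h1 ⊢
  have h2 : ∑ x : X, ϑ x * conj (ϑ x) = ∑ n : N, ϑ n * conj (ϑ n) := by
    have h3 : ∑ x : X, ϑ x * conj (ϑ x) = ∑ x : X, if x ∈ N then ϑ x * conj (ϑ x) else 0 := by
      refine Finset.sum_congr rfl fun x _ => ?_
      by_cases hx : x ∈ N
      · rw [if_pos hx]
      · rw [if_neg hx, hv x hx, zero_mul]
    rw [h3, ← Finset.sum_filter]
    exact Finset.sum_subtype (Finset.univ.filter (· ∈ N)) (by simp)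
      (fun x => ϑ x * conj (ϑ x))
  rw [h2] at h1
  have hX : (Nat.card X : ℂ) ≠ 0 := by exact_mod_cast (Nat.card_pos (α := X)).ne'
  have hNc : (Nat.card N : ℂ) ≠ 0 := by exact_mod_cast (Nat.card_pos (α := N)).ne'
  have hidx : (Nat.card N : ℂ) * (N.index : ℂ) = Nat.card X := by
    exact_mod_cast Subgroup.card_mul_index N
  generalize (∑ n : N, ϑ n * conj (ϑ n)) = S at h1 ⊢
  rw [inv_mul_eq_iff_eq_mul₀ hX, mul_one] at h1
  rw [h1, ← hidx]
  field_simp

end generic

section main

variable {G : Type*} [Group G] [Fintype G] (K L : Subgroup G) [hK : K.Normal] [hL : L.Normal]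
  [Fintype K] [Fintype L]

theorem toSubgroupOf_injective (hLK : L ≤ K) : Function.Injective (toSubgroupOf L K) := by
  intro a b hab
  funext x
  exact congrFun hab ⟨⟨x, hLK x.2⟩, x.2⟩

/-- the inertia group in `K` of a constituent of `ϑ_L` is normal in `G` -/
theorem inertia_inf_normal (hLK : L ≤ K) (hab : ⁅K, K⁆ ≤ L) {ϑ : K → ℂ}
    (hϑ : IsIrrCharacter K ϑ)
    (hinv : ∀ g : G, conjFun L g (fun x : L => ϑ ⟨(x : G), hLK x.2⟩) =
      fun x : L => ϑ ⟨(x : G), hLK x.2⟩)
    {φ : L → ℂ} (hφ : IsIrrCharacter L φ)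
    (hne : classInner (fun x : L => ϑ ⟨(x : G), hLK x.2⟩) φ ≠ 0) :
    (inertia L φ ⊓ K).Normal := by
  classical
  have hφcl := IsCharacter.isClassFunction (IsIrrCharacter.isCharacter hφ)
  -- transitivity of `K`
  have htrans : ∀ g : G, ∃ k ∈ K, conjFun L g φ = conjFun L k φ := by
    intro g
    have h1 : classInner (fun x : L => ϑ ⟨(x : G), hLK x.2⟩) (conjFun L g φ) ≠ 0 := by
      rw [← hinv g, Cfsg.Agent.Lib.Helper13.Dade.classInner_conjFun_conjFun]
      exact hne
    have h2 := exists_conj_of_constituents (N := L.subgroupOf K) ⟨ϑ, hϑ⟩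
      ⟨toSubgroupOf L K φ, IsIrrCharacter.toSubgroupOf hLK hφ⟩
      ⟨toSubgroupOf L K (conjFun L g φ),
        IsIrrCharacter.toSubgroupOf hLK (IsIrrCharacter.conjFun L hφ g)⟩
      (by
        have := classInner_toSubgroupOf hLK (fun x : L => ϑ ⟨(x : G), hLK x.2⟩) φ
        rw [← this] at hne
        exact hne)
      (by
        have := classInner_toSubgroupOf hLK (fun x : L => ϑ ⟨(x : G), hLK x.2⟩) (conjFun L g φ)
        rw [← this] at h1
        exact h1)
    obtain ⟨k, hk⟩ := h2
    refine ⟨(k : G)⁻¹, K.inv_mem k.2, ?_⟩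
    apply toSubgroupOf_injective K L hLK
    have h3 := stmtConj_eq (L.subgroupOf K) (toSubgroupOf L K φ) k
    rw [conjFun_toSubgroupOf] at h3
    exact hk.trans h3
  constructor
  intro j hj g
  refine ⟨?_, hK.conj_mem j hj.2 g⟩
  show g * j * g⁻¹ ∈ inertia L φ
  rw [mem_inertia]
  obtain ⟨k, hkK, hk⟩ := htrans g⁻¹
  have hjφ : conjFun L j φ = φ := hj.1
  have hc : (k * j)⁻¹ * (j * k) ∈ L := by
    apply hab
    have : (k * j)⁻¹ * (j * k) = ⁅j⁻¹, k⁻¹⁆ := by
      rw [commutatorElement_def]; group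
    rw [this]
    exact Subgroup.commutator_mem_commutator (K.inv_mem hj.2) (K.inv_mem hkK)
  have h4 : conjFun L (j * k) φ = conjFun L k φ := by
    have : j * k = k * j * ((k * j)⁻¹ * (j * k)) := by group
    rw [this, conjFun_mul, conjFun_of_mem L hφcl hc, conjFun_mul, hjφ]
  rw [conjFun_mul, conjFun_mul, hk, ← conjFun_mul L j k, h4, ← hk, ← conjFun_mul, mul_inv_cancel,
    conjFun_one]

/-- **Isaacs (6.18)** -/
theorem going_down (hLK : L < K)
    (hchief : ∀ M : Subgroup G, M.Normal → L ≤ M → M ≤ K → M = L ∨ M = K) (hab : ⁅K, K⁆ ≤ L)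
    {ϑ : K → ℂ} (hϑ : IsIrrCharacter K ϑ)
    (hinv : ∀ (g : G) (n : K), ϑ ⟨g * n * g⁻¹, hK.conj_mem (n : G) n.2 g⟩ = ϑ n) :
    IsIrrCharacter L (fun x : L => ϑ ⟨(x : G), hLK.le x.2⟩) ∨
    (∃ (φ : L → ℂ) (e : ℕ), IsIrrCharacter L φ ∧
      (fun x : L => ϑ ⟨(x : G), hLK.le x.2⟩) = (e : ℂ) • φ ∧ e ^ 2 = L.relIndex K) ∨
    (∃ F : Finset (L → ℂ), (∀ φ ∈ F, IsIrrCharacter L φ) ∧ F.card = L.relIndex K ∧
      (fun x : L => ϑ ⟨(x : G), hLK.le x.2⟩) = ∑ φ ∈ F, φ) := by
  classical
  set ϑL : L → ℂ := fun x : L => ϑ ⟨(x : G), hLK.le x.2⟩ with hϑL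
  have hϑc := IsIrrCharacter.isCharacter hϑ
  have hϑLc : IsCharacter L ϑL := IsCharacter.comp_hom (Subgroup.inclusion hLK.le) hϑc
  have hinv' : ∀ g : G, conjFun L g ϑL = ϑL := by
    intro g
    funext x
    have h1 := hinv g⁻¹ ⟨x, hLK.le x.2⟩
    rw [conjFun_apply]
    show ϑ _ = ϑ _
    rw [← h1]
    congr 1
    apply Subtype.ext
    simp
  have hnormeq : classInner (fun n : L.subgroupOf K => ϑ n) (fun n : L.subgroupOf K => ϑ n) =
      classInner ϑL ϑL := classInner_toSubgroupOf hLK.le ϑL ϑL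
  have habK : ∀ x y : K, x * y * x⁻¹ * y⁻¹ ∈ L.subgroupOf K := by
    intro x y
    rw [Subgroup.mem_subgroupOf]
    apply hab
    exact Subgroup.commutator_mem_commutator x.2 y.2
  set S : Set G := {g | ∃ h : g ∈ K, ϑ ⟨g, h⟩ ≠ 0} with hS
  have hMK : L ⊔ Subgroup.normalClosure S ≤ K :=
    sup_le hLK.le (Subgroup.normalClosure_le_normal (fun g hg => hg.1))
  rcases hchief (L ⊔ Subgroup.normalClosure S) inferInstance le_sup_left hMK with hM | hM
  · -- `ϑ` vanishes off `L`
    right
    have hv : ∀ x : K, x ∉ L.subgroupOf K → ϑ x = 0 := by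
      intro x hx
      by_contra h0
      apply hx
      have : (x : G) ∈ L ⊔ Subgroup.normalClosure S :=
        Subgroup.mem_sup_right (Subgroup.subset_normalClosure ⟨x.2, h0⟩)
      rw [hM] at this
      exact this
    have hnorm := norm_restrict_of_vanish (L.subgroupOf K) hϑ hv
    obtain ⟨θ, hθ⟩ := exists_constituent (L.subgroupOf K) hϑ
    have htr : ∀ ψ : L.subgroupOf K → ℂ, IsIrrCharacter (L.subgroupOf K) ψ →
        IsIrrCharacter L (fun x : L => ψ ⟨⟨x, hLK.le x.2⟩, x.2⟩) := fun ψ hψ =>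
      IsIrrCharacter.inflate (Subgroup.subgroupOfEquivOfLe hLK.le).symm.toMonoidHom
        (Subgroup.subgroupOfEquivOfLe hLK.le).symm.surjective hψ
    set φ : L → ℂ := fun x => (θ : L.subgroupOf K → ℂ) ⟨⟨x, hLK.le x.2⟩, x.2⟩ with hφdef
    have hφ : IsIrrCharacter L φ := htr θ θ.2
    have hφθ : toSubgroupOf L K φ = θ := rfl
    have hne : classInner ϑL φ ≠ 0 := by
      rw [← classInner_toSubgroupOf hLK.le]
      exact hθ
    have hJn := inertia_inf_normal K L hLK.le hab hϑ hinv' hφ hne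
    rcases hchief _ hJn (le_inf (le_inertia L hφ _ (mem_inertia L φ)) hLK.le) inf_le_right
      with hJ | hJ
    · -- the inertia group is `L`
      right
      have hT : ∀ k : K, k ∈ L.subgroupOf K ↔
          conjFun (L.subgroupOf K) k (θ : L.subgroupOf K → ℂ) = θ := by
        intro k
        constructor
        · intro hk
          exact conjFun_of_mem _ (IsCharacter.isClassFunction (IsIrrCharacter.isCharacter θ.2)) hk
        · intro hk
          rw [← hφθ, conjFun_toSubgroupOf] at hk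
          have h1 := toSubgroupOf_injective K L hLK.le hk
          have h2 : (k : G) ∈ inertia L φ ⊓ K := ⟨h1, k.2⟩
          rw [hJ] at h2
          exact h2
      have hNc : (Nat.card (L.subgroupOf K) : ℂ) ≠ 0 := by
        exact_mod_cast (Nat.card_pos (α := L.subgroupOf K)).ne'
      have hn1 := norm_indFun (L.subgroupOf K) θ.2 (L.subgroupOf K) hT
      rw [div_self hNc] at hn1
      have hind : IsIrrCharacter K (indFun (L.subgroupOf K) (θ : L.subgroupOf K → ℂ)) :=
        isIrrCharacter_of_classInner_eq_one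
          (IsCharacter.indFun _ (IsIrrCharacter.isCharacter θ.2)) hn1
      have heq : indFun (L.subgroupOf K) (θ : L.subgroupOf K → ℂ) = ϑ := by
        by_contra hcon
        have h1 := classInner_irr hind hϑ
        rw [if_neg hcon, frobenius_reciprocity _ _ _ (IsCharacter.isClassFunction hϑc),
          ← classInner_conj_symm] at h1
        exact hθ ((map_eq_zero _).mp h1)
      have hin : inertia (L.subgroupOf K) (θ : L.subgroupOf K → ℂ) = L.subgroupOf K := by
        ext k
        rw [mem_inertia, hT]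
      set FN := Finset.univ.image
        (fun k : K => conjFun (L.subgroupOf K) k (θ : L.subgroupOf K → ℂ)) with hFN
      have hsum : (fun n : L.subgroupOf K => ϑ n) = ∑ ψ ∈ FN, ψ := by
        funext n
        rw [← heq, indFun_coe_of_normal]
        have h1 := congrFun (sum_conjFun_eq (L.subgroupOf K) (θ : L.subgroupOf K → ℂ)) n
        rw [Finset.sum_apply] at h1
        rw [h1, hin, Pi.smul_apply, smul_eq_mul, ← mul_assoc, inv_mul_cancel₀ hNc, one_mul]
      have hFNirr : ∀ ψ ∈ FN, IsIrrCharacter (L.subgroupOf K) ψ := by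
        intro ψ hψ
        obtain ⟨k, -, rfl⟩ := Finset.mem_image.mp hψ
        exact IsIrrCharacter.conjFun _ θ.2 k
      have hcard : FN.card = (L.subgroupOf K).index := by
        rw [hsum, classInner_sum_left] at hnorm
        have h1 : ∀ ψ ∈ FN, classInner ψ (∑ ψ' ∈ FN, ψ') = 1 := by
          intro ψ hψ
          rw [classInner_sum_right, Finset.sum_eq_single ψ]
          · rw [classInner_irr (hFNirr ψ hψ) (hFNirr ψ hψ), if_pos rfl]
          · intro ψ' hψ' hne'
            rw [classInner_irr (hFNirr ψ hψ) (hFNirr ψ' hψ'), if_neg hne'.symm]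
          · intro h; exact absurd hψ h
        rw [Finset.sum_congr rfl h1, Finset.sum_const, nsmul_eq_mul, mul_one] at hnorm
        exact_mod_cast hnorm
      have hinj : Function.Injective (fun (ψ : L.subgroupOf K → ℂ) (x : L) =>
          ψ ⟨⟨x, hLK.le x.2⟩, x.2⟩) := by
        intro a b hab'
        funext n
        exact congrFun hab' ⟨n, n.2⟩
      refine ⟨FN.image (fun (ψ : L.subgroupOf K → ℂ) (x : L) => ψ ⟨⟨x, hLK.le x.2⟩, x.2⟩),
        ?_, ?_, ?_⟩
      · intro φ' hφ'
        obtain ⟨ψ, hψ, rfl⟩ := Finset.mem_image.mp hφ'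
        exact htr ψ (hFNirr ψ hψ)
      · rw [Finset.card_image_of_injective _ hinj, hcard]
        rfl
      · rw [Finset.sum_image (fun a _ b _ h => hinj h)]
        funext x
        have h1 := congrFun hsum ⟨⟨x, hLK.le x.2⟩, x.2⟩
        rw [Finset.sum_apply] at h1 ⊢
        exact h1
    · -- `φ` is invariant in `K`
      left
      have hinvK : ∀ k : K, conjFun (L.subgroupOf K) k (θ : L.subgroupOf K → ℂ) = θ := by
        intro k
        rw [← hφθ, conjFun_toSubgroupOf]
        have h2 : (k : G) ∈ inertia L φ ⊓ K := by rw [hJ]; exact k.2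
        rw [(mem_inertia L φ _).mp h2.1]
      have hres := restrict_eq_smul_of_invariant (L.subgroupOf K) θ.2 hinvK hϑ hθ
      obtain ⟨e, he⟩ := IsCharacter.classInner_nat (IsCharacter.restrict (L.subgroupOf K) hϑc)
        (IsIrrCharacter.isCharacter θ.2)
      rw [he] at hres
      refine ⟨φ, e, hφ, ?_, ?_⟩
      · funext x
        exact congrFun hres ⟨⟨x, hLK.le x.2⟩, x.2⟩
      · rw [hres, classInner_smul_left, classInner_smul_right, classInner_irr θ.2 θ.2,
          if_pos rfl] at hnorm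
        simp only [map_natCast, mul_one] at hnorm
        have : e * e = (L.subgroupOf K).index := by exact_mod_cast hnorm
        rw [pow_two, this]
        rfl
  · -- the support generates `K`
    left
    apply isIrrCharacter_of_classInner_eq_one hϑLc
    rw [← hnormeq]
    apply norm_restrict_eq_one (L.subgroupOf K) habK hϑ
    intro β hβ hβ1 hβN hβϑ
    have hle : L ⊔ Subgroup.normalClosure S ≤ (kerOf hβ).map K.subtype := by
      apply sup_le
      · intro x hx
        refine ⟨⟨x, hLK.le hx⟩, ?_, rfl⟩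
        exact (mem_kerOf hβ _).mpr (by rw [hβ1]; exact hβN _ hx)
      · apply Subgroup.closure_le _ |>.mpr
        intro y hy
        obtain ⟨a, ⟨haK, ha0⟩, hconj⟩ := Group.mem_conjugatesOfSet_iff.mp hy
        obtain ⟨c, rfl⟩ := isConj_iff.mp hconj
        refine ⟨⟨c * a * c⁻¹, hK.conj_mem a haK c⟩, ?_, rfl⟩
        apply (mem_kerOf hβ _).mpr
        have h1 := congrFun hβϑ ⟨c * a * c⁻¹, hK.conj_mem a haK c⟩
        have h2 : ϑ ⟨c * a * c⁻¹, hK.conj_mem a haK c⟩ ≠ 0 := by
          rw [hinv c ⟨a, haK⟩]; exact ha0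
        rw [Pi.mul_apply] at h1
        rw [hβ1]
        exact mul_right_cancel₀ h2 (h1.trans (one_mul _).symm)
    funext k
    have h1 : (k : G) ∈ (kerOf hβ).map K.subtype := hle (by rw [hM]; exact k.2)
    obtain ⟨k', hk', hkk⟩ := h1
    have : k' = k := Subtype.ext hkk
    rw [← this, (mem_kerOf hβ _).mp hk', hβ1]

end main

end Cfsg.Agent.Lib.Helper13.GoingDown
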