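import Mathlib
import Cfsg.Agent.Lib.Helper13.GoingDown
import Cfsg.Agent.Lib.Helper13.UniqueP
import Cfsg.Agent.Lib.Helper13.CyclicExt2
import Cfsg.Agent.Lib.Helper23.IndTools
import Cfsg.Agent.Lib.Helper24.Constituent
import Cfsg.Agent.S0089

set_option autoImplicit false
set_option linter.style.haveILetI false
set_option linter.unusedSectionVars false

/-! Isaacs (6.23): relative M-groups over a normal subgroup with abelian Sylow subgroups. -/

namespace Cfsg.Agent.Lib.Helper13.MGroup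

open Cfsg Cfsg.Agent.Lib.Helper2 Cfsg.Agent.Lib.Helper6 Cfsg.Agent.Lib.Helper24
open Cfsg.Agent.Lib.Helper13 Cfsg.Agent.Lib.Helper13.GoingDown Cfsg.Agent.Lib.Helper23.IndTools
open scoped ComplexConjugate commutatorElement

universe u

section mackey

variable {X : Type u} [Group X] [Fintype X]

/-- Mackey's formula when `X = N T` -/
theorem mackey_of_mul (N T : Subgroup X) [Fintype N] (hNT : ∀ x : X, ∃ n ∈ N, ∃ t ∈ T, x = n * t)
    {η : T → ℂ} (hη : IsClassFunction T η) (n : N) :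
    indFun T η (n : X) = indFun (T.subgroupOf N) (toSubgroupOf T N η) n := by
  classical
  letI : Fintype (N ⧸ T.subgroupOf N) := Fintype.ofFinite _
  have hcl : IsClassFunction (T.subgroupOf N) (toSubgroupOf T N η) := by
    intro g h
    exact hη ⟨(g : N), g.2⟩ ⟨(h : N), h.2⟩
  rw [indFun_eq_sum_reps (T.subgroupOf N) (fun i : N ⧸ T.subgroupOf N => (Quotient.out i : N))
    (by
      have : (fun i : N ⧸ T.subgroupOf N => (QuotientGroup.mk (Quotient.out i : N) :
          N ⧸ T.subgroupOf N)) = id := by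
        funext i
        exact Quotient.out_eq' i
      rw [this]
      exact Function.bijective_id) _ hcl n]
  rw [indFun_eq_sum_reps T (fun i : N ⧸ T.subgroupOf N => ((Quotient.out i : N) : X)) ?_ η hη]
  · refine Finset.sum_congr rfl fun i _ => ?_
    exact (extendByZero_toSubgroupOf T N η ((Quotient.out i : N)⁻¹ * n * (Quotient.out i : N))).symm
  · constructor
    · intro i j hij
      simp only at hij
      rw [QuotientGroup.eq] at hij
      have h1 : (QuotientGroup.mk (Quotient.out i : N) : N ⧸ T.subgroupOf N) =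
          QuotientGroup.mk (Quotient.out j : N) := by
        rw [QuotientGroup.eq]
        exact hij
      have e1 : (QuotientGroup.mk (Quotient.out i : N) : N ⧸ T.subgroupOf N) = i :=
        Quotient.out_eq' i
      have e2 : (QuotientGroup.mk (Quotient.out j : N) : N ⧸ T.subgroupOf N) = j :=
        Quotient.out_eq' j
      rw [← e1, ← e2, h1]
    · intro y
      induction y using QuotientGroup.induction_on with
      | H y =>
        obtain ⟨m, hm, t, ht, rfl⟩ := hNT y
        refine ⟨QuotientGroup.mk (⟨m, hm⟩ : N), ?_⟩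
        simp only
        have e1 : (QuotientGroup.mk (Quotient.out (QuotientGroup.mk (⟨m, hm⟩ : N) :
            N ⧸ T.subgroupOf N) : N) : N ⧸ T.subgroupOf N) = QuotientGroup.mk (⟨m, hm⟩ : N) :=
          Quotient.out_eq' _
        rw [QuotientGroup.eq] at e1
        rw [QuotientGroup.eq]
        have e2 : ((Quotient.out (QuotientGroup.mk (⟨m, hm⟩ : N) :
            N ⧸ T.subgroupOf N) : N) : X)⁻¹ * m ∈ T := e1
        have : ((Quotient.out (QuotientGroup.mk (⟨m, hm⟩ : N) :
            N ⧸ T.subgroupOf N) : N) : X)⁻¹ * (m * t) = (((Quotient.out (QuotientGroup.mk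
            (⟨m, hm⟩ : N) : N ⧸ T.subgroupOf N) : N) : X)⁻¹ * m) * t := by group
        rw [this]
        exact T.mul_mem e2 ht

/-- a character inducing an irreducible character is irreducible -/
theorem irr_of_indFun_irr (M : Subgroup X) [Fintype M] {α : M → ℂ} (hα : IsCharacter M α)
    (h : IsIrrCharacter X (indFun M α)) : IsIrrCharacter M α := by
  classical
  haveI := finite_irr (G := M)
  letI : Fintype (IrrCharacter M) := Fintype.ofFinite _
  have hidx : (M.index : ℂ) ≠ 0 := by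
    exact_mod_cast (Subgroup.index_ne_zero_of_finite (H := M))
  have hα0 : α ≠ 0 := by
    rintro rfl
    have h1 := irr_one_ne_zero h
    rw [Cfsg.Agent.Lib.Helper24.indFun_one] at h1
    simp at h1
  obtain ⟨α₁, hα₁⟩ : ∃ α₁ : IrrCharacter M, classInner α (α₁ : M → ℂ) ≠ 0 := by
    by_contra hcon
    push Not at hcon
    exact hα0 (eq_zero_of_classInner_irr_eq_zero (IsCharacter.isClassFunction hα)
      (fun χ hχ => hcon ⟨χ, hχ⟩))
  have hα₂ := isCharacter_sub_of_constituent hα α₁.2 hα₁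
  set α₂ := α - (α₁ : M → ℂ) with hα₂def
  have hsum : indFun M α = indFun M (α₁ : M → ℂ) + indFun M α₂ := by
    rw [← Cfsg.Agent.Lib.Lead.indFun_add, hα₂def]
    congr 1
    abel
  have ha := IsCharacter.indFun M (IsIrrCharacter.isCharacter α₁.2)
  have hb := IsCharacter.indFun M hα₂
  set a := indFun M (α₁ : M → ℂ) with hadef
  set b := indFun M α₂ with hbdef
  have hχc := IsIrrCharacter.isCharacter h
  obtain ⟨n1, h1⟩ := IsCharacter.classInner_nat ha hχc
  obtain ⟨n2, h2⟩ := IsCharacter.classInner_nat hb hχc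
  obtain ⟨n3, h3⟩ := IsCharacter.classInner_nat hb ha
  obtain ⟨n4, h4⟩ := IsCharacter.classInner_nat hb hb
  obtain ⟨n5, h5⟩ := IsCharacter.classInner_nat ha ha
  obtain ⟨n6, h6⟩ := IsCharacter.classInner_nat ha hb
  have hnorm : classInner (indFun M α) (indFun M α) = 1 := by
    rw [classInner_irr h h, if_pos rfl]
  have e1 : n1 + n2 = 1 := by
    have : (n1 : ℂ) + n2 = 1 := by
      rw [← h1, ← h2, ← classInner_add_left, ← hsum, hnorm]
    exact_mod_cast this
  have e2 : n2 = n3 + n4 := by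
    have : (n2 : ℂ) = n3 + n4 := by
      rw [← h2, ← h3, ← h4, ← classInner_add_right, ← hsum]
    exact_mod_cast this
  have e3 : n1 = n5 + n6 := by
    have : (n1 : ℂ) = n5 + n6 := by
      rw [← h1, ← h5, ← h6, ← classInner_add_right, ← hsum]
    exact_mod_cast this
  have ha0 : n5 ≠ 0 := by
    rintro rfl
    have h7 := eq_zero_of_classInner_self_eq_zero a (by rw [h5]; simp)
    have h8 := congrFun h7 1
    rw [hadef, Cfsg.Agent.Lib.Helper24.indFun_one] at h8
    exact (mul_ne_zero hidx (irr_one_ne_zero α₁.2)) h8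
  have hb0 : n4 = 0 := by omega
  have h7 := eq_zero_of_classInner_self_eq_zero b (by rw [h4, hb0]; simp)
  have h8 := congrFun h7 1
  rw [hbdef, Cfsg.Agent.Lib.Helper24.indFun_one] at h8
  have h9 : α₂ 1 = 0 := by
    rcases mul_eq_zero.mp h8 with h | h
    · exact absurd h hidx
    · exact h
  have h10 := IsCharacter.eq_zero_of_apply_one hα₂ h9
  have : α = α₁ := by
    rw [hα₂def, sub_eq_zero] at h10
    exact h10
  rw [this]
  exact α₁.2

end mackey

section trans

variable {G : Type u} [Group G] [Fintype G] (K L : Subgroup G) [hK : K.Normal] [hL : L.Normal]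
  [Fintype K] [Fintype L]

theorem exists_conj_in (hLK : L ≤ K) {ϑ : K → ℂ} (hϑ : IsIrrCharacter K ϑ)
    (hinv : ∀ g : G, conjFun L g (fun x : L => ϑ ⟨(x : G), hLK x.2⟩) =
      fun x : L => ϑ ⟨(x : G), hLK x.2⟩)
    {φ : L → ℂ} (hφ : IsIrrCharacter L φ)
    (hne : classInner (fun x : L => ϑ ⟨(x : G), hLK x.2⟩) φ ≠ 0) (g : G) :
    ∃ k ∈ K, conjFun L g φ = conjFun L k φ := by
  classical
  have h1 : classInner (fun x : L => ϑ ⟨(x : G), hLK x.2⟩) (conjFun L g φ) ≠ 0 := by
    rw [← hinv g, Cfsg.Agent.Lib.Helper13.Dade.classInner_conjFun_conjFun]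
    exact hne
  have h2 := exists_conj_of_constituents (N := L.subgroupOf K) ⟨ϑ, hϑ⟩
    ⟨toSubgroupOf L K φ, IsIrrCharacter.toSubgroupOf hLK hφ⟩
    ⟨toSubgroupOf L K (conjFun L g φ),
      IsIrrCharacter.toSubgroupOf hLK (IsIrrCharacter.conjFun L hφ g)⟩
    (by
      have := classInner_toSubgroupOf hLK (fun x : L => ϑ ⟨(x : G), hLK x.2⟩) φ
      rw [← this] at hne
      exact hne)
    (by
      have := classInner_toSubgroupOf hLK (fun x : L => ϑ ⟨(x : G), hLK x.2⟩) (conjFun L g φ)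
      rw [← this] at h1
      exact h1)
  obtain ⟨k, hk⟩ := h2
  refine ⟨(k : G)⁻¹, K.inv_mem k.2, ?_⟩
  apply toSubgroupOf_injective K L hLK
  have h3 := stmtConj_eq (L.subgroupOf K) (toSubgroupOf L K φ) k
  rw [conjFun_toSubgroupOf] at h3
  exact hk.trans h3

theorem mul_inertia (hLK : L ≤ K) {ϑ : K → ℂ} (hϑ : IsIrrCharacter K ϑ)
    (hinv : ∀ g : G, conjFun L g (fun x : L => ϑ ⟨(x : G), hLK x.2⟩) =
      fun x : L => ϑ ⟨(x : G), hLK x.2⟩)
    {φ : L → ℂ} (hφ : IsIrrCharacter L φ)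
    (hne : classInner (fun x : L => ϑ ⟨(x : G), hLK x.2⟩) φ ≠ 0) (x : G) :
    ∃ n ∈ K, ∃ t ∈ inertia L φ, x = n * t := by
  obtain ⟨k, hk, hkx⟩ := exists_conj_in K L hLK hϑ hinv hφ hne x
  refine ⟨k, hk, k⁻¹ * x, ?_, by group⟩
  rw [mem_inertia, conjFun_mul, hkx, ← conjFun_mul, inv_mul_cancel, conjFun_one]

end trans

/-- a relative version of Taunt's theorem -/
theorem rel_taunt {H : Type u} [Group H] [Finite H] (N C : Subgroup H) [C.Normal]
    (hPA : ∀ (p : ℕ) [Fact p.Prime] (P : Sylow p N), ∀ a ∈ P, ∀ b ∈ P, a * b = b * a)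
    {b : H} (hb : b ∈ ⁅N, N⁆) (hc : ∀ n ∈ N, b * n * b⁻¹ * n⁻¹ ∈ C) : b ∈ C := by
  rw [← Subgroup.map_subtype_commutator] at hb
  obtain ⟨b', hb', rfl⟩ := hb
  have hsurj := QuotientGroup.mk'_surjective (C.subgroupOf N)
  have hS := Cfsg.Agent.S0089.result (G := N ⧸ C.subgroupOf N) (fun p hp P => by
    haveI : Fact p.Prime := ⟨hp⟩
    obtain ⟨P₀, rfl⟩ := Sylow.mapSurjective_surjective hsurj p P
    refine ⟨⟨fun x y => ?_⟩⟩
    obtain ⟨x₀, hx₀, hx⟩ := x.2
    obtain ⟨y₀, hy₀, hy⟩ := y.2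
    apply Subtype.ext
    show (x : N ⧸ C.subgroupOf N) * y = y * x
    rw [← hx, ← hy, ← map_mul, ← map_mul, hPA p P₀ x₀ hx₀ y₀ hy₀])
  have h1 : QuotientGroup.mk' (C.subgroupOf N) b' ∈
      commutator (N ⧸ C.subgroupOf N) ⊓ Subgroup.center (N ⧸ C.subgroupOf N) := by
    constructor
    · have : (commutator N).map (QuotientGroup.mk' (C.subgroupOf N)) ≤
          commutator (N ⧸ C.subgroupOf N) := by
        rw [commutator_def, Subgroup.map_commutator, commutator_def]
        exact Subgroup.commutator_mono le_top le_top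
      exact this ⟨b', hb', rfl⟩
    · show QuotientGroup.mk' (C.subgroupOf N) b' ∈ Subgroup.center (N ⧸ C.subgroupOf N)
      rw [Subgroup.mem_center_iff]
      intro q
      obtain ⟨n, rfl⟩ := hsurj q
      rw [← map_mul, ← map_mul]
      apply QuotientGroup.eq.mpr
      have h2 := hc n n.2
      have h3 : ((n * b')⁻¹ * (b' * n) : N) = n⁻¹ * (b'⁻¹ * (b' * n * b'⁻¹ * n⁻¹)⁻¹⁻¹ * b') * n := by
        group
      rw [h3]
      have h4 : (b' * n * b'⁻¹ * n⁻¹ : N) ∈ C.subgroupOf N := h2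
      have hn : (C.subgroupOf N).Normal := inferInstance
      have h5 := hn.conj_mem _ h4 b'⁻¹
      have h6 := hn.conj_mem _ h5 n⁻¹
      simpa using h6
  rw [hS, Subgroup.mem_bot] at h1
  exact (QuotientGroup.eq_one_iff b').mp h1

/-- monomial characters -/
def Mono (H : Type u) [Group H] [Fintype H] (ψ : H → ℂ) : Prop :=
  ∃ (U : Subgroup H) (lam : U → ℂ), IsCharacter U lam ∧ lam 1 = 1 ∧ indFun U lam = ψ

/-- every `p`-subgroup of `N` is abelian -/
def PAb {H : Type u} [Group H] (N : Subgroup H) : Prop :=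
  ∀ (p : ℕ) [Fact p.Prime] (Q : Subgroup H), Q ≤ N → IsPGroup p Q → ∀ a ∈ Q, ∀ b ∈ Q, a * b = b * a

theorem PAb.sylow {H : Type u} [Group H] {N : Subgroup H} (h : PAb N) (p : ℕ) [Fact p.Prime]
    (P : Sylow p N) : ∀ a ∈ P, ∀ b ∈ P, a * b = b * a := by
  intro a ha b hb
  apply Subtype.ext
  exact h p ((P : Subgroup N).map N.subtype) (Subgroup.map_subtype_le _) (P.2.map _) a
    ⟨a, ha, rfl⟩ b ⟨b, hb, rfl⟩

theorem PAb.of_sylow {H : Type u} [Group H] [Finite H] {N : Subgroup H}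
    (h : ∀ (p : ℕ) [Fact p.Prime] (P : Sylow p N), ∀ a ∈ P, ∀ b ∈ P, a * b = b * a) : PAb N := by
  intro p _ Q hQN hQ a ha b hb
  have h1 : IsPGroup p (Q.subgroupOf N) :=
    hQ.comap_of_injective N.subtype N.subtype_injective
  obtain ⟨P, hP⟩ := h1.exists_le_sylow
  have := h p P ⟨a, hQN ha⟩ (hP ha) ⟨b, hQN hb⟩ (hP hb)
  exact congrArg Subtype.val this

theorem PAb.subgroupOf {H : Type u} [Group H] {N : Subgroup H} (h : PAb N) (T : Subgroup H) :
    PAb (N.subgroupOf T) := by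
  intro p _ Q hQN hQ a ha b hb
  apply Subtype.ext
  refine h p (Q.map T.subtype) ?_ (hQ.map _) a ⟨a, ha, rfl⟩ b ⟨b, hb, rfl⟩
  rintro _ ⟨x, hx, rfl⟩
  exact hQN hx

theorem exists_B {H : Type u} [Group H] [Finite H] [Group.IsSolvable H] (C : Subgroup H) :
    ∀ (n : ℕ) (A : Subgroup H), A.Normal → Nat.card A = n → ¬ A ≤ C →
      ∃ B : Subgroup H, B.Normal ∧ B ≤ A ∧ ¬ B ≤ C ∧ ⁅B, B⁆ ≤ C := by
  intro n
  induction n using Nat.strong_induction_on with
  | _ n ih =>
  intro A hA hn hAC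
  by_cases h : ⁅A, A⁆ ≤ C
  · exact ⟨A, hA, le_rfl, hAC, h⟩
  · have hne : A ≠ ⊥ := by
      rintro rfl
      exact hAC bot_le
    have hlt := Group.IsSolvable.commutator_lt_of_ne_bot hne
    have hc : Nat.card (⁅A, A⁆ : Subgroup H) < n := by
      rw [← hn]
      exact Set.Finite.card_lt_card (Set.toFinite _) hlt
    obtain ⟨B, h1, h2, h3, h4⟩ := ih _ hc ⁅A, A⁆ inferInstance rfl h
    exact ⟨B, h1, h2.trans hlt.le, h3, h4⟩

theorem monomial_of_restrict_irr : ∀ (n : ℕ) (H : Type u) [Group H] [Fintype H]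
    [Group.IsSolvable H] (N : Subgroup H) [N.Normal], Nat.card H = n → PAb N → ∀ ψ : H → ℂ,
    IsIrrCharacter H ψ → IsIrrCharacter N (fun x : N => ψ x) → Mono H ψ := by
  intro n
  induction n using Nat.strong_induction_on with
  | _ n ih =>
  intro H _ _ _ N hNn hn hPA ψ hψ hφ
  classical
  have hψc := IsIrrCharacter.isCharacter hψ
  have hψcl := IsCharacter.isClassFunction hψc
  by_cases hlin : ψ 1 = 1
  · exact ⟨⊤, fun x => ψ x, IsCharacter.restrict ⊤ hψc, hlin, indFun_top hψcl⟩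
  set C := kerOf hψc with hC
  haveI hCn : C.Normal := kerOf_normal hψc
  have hD1 : ¬ ⁅N, N⁆ ≤ C := by
    intro h1
    apply hlin
    have h2 : charDegree (fun x : N => ψ x) = 1 := by
      rw [Cfsg.Agent.Lib.Helper13.UniqueP.degree_one_iff hφ]
      intro x hx
      have h3 : (x : H) ∈ ⁅N, N⁆ := by
        rw [← Subgroup.map_subtype_commutator]
        exact ⟨x, hx, rfl⟩
      exact (mem_kerOf hψc _).mp (h1 h3)
    have h4 := charDegree_cast (IsIrrCharacter.isCharacter hφ)
    rw [h2] at h4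
    simpa using h4.symm
  obtain ⟨B, hBn, hBN', hBC, hBB⟩ := exists_B C _ ⁅N, N⁆ inferInstance rfl hD1
  have hBN : B ≤ N := hBN'.trans (Subgroup.commutator_le_self N)
  obtain ⟨μ, hμ⟩ := exists_constituent B hψ
  by_cases hT : inertia B (μ : B → ℂ) = ⊤
  · exfalso
    have hinv : ∀ g : H, conjFun B g (μ : B → ℂ) = μ := fun g =>
      (mem_inertia B _ g).mp (hT ▸ Subgroup.mem_top g)
    have hres := restrict_eq_smul_of_invariant B μ.2 hinv hψ hμ
    set c := classInner (fun n : B => ψ n) (μ : B → ℂ) with hc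
    have hval : ∀ x : B, ψ x = c * (μ : B → ℂ) x := fun x => congrFun hres x
    have hμ1 : (μ : B → ℂ) 1 = 1 := by
      have h2 : charDegree (μ : B → ℂ) = 1 := by
        rw [Cfsg.Agent.Lib.Helper13.UniqueP.degree_one_iff μ.2]
        intro x hx
        have h3 : (x : H) ∈ ⁅B, B⁆ := by
          rw [← Subgroup.map_subtype_commutator]
          exact ⟨x, hx, rfl⟩
        have h4 : ψ x = ψ 1 := (mem_kerOf hψc _).mp (hBB h3)
        have h5 := hval x
        have h6 := hval 1
        rw [h4] at h5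
        have h7 : ψ ((1 : B) : H) = ψ 1 := rfl
        rw [h7] at h6
        exact (mul_left_cancel₀ hμ (h5.symm.trans h6))
      have h4 := charDegree_cast (IsIrrCharacter.isCharacter μ.2)
      rw [h2] at h4
      simpa using h4.symm
    obtain ⟨f, hf⟩ := exists_hom_of_linear (IsIrrCharacter.isCharacter μ.2) hμ1
    apply hBC
    intro b hb
    apply rel_taunt N C (fun p _ P => hPA.sylow p P) (hBN' hb)
    intro y _
    rw [hC, mem_kerOf]
    have hyb : y * b⁻¹ * y⁻¹ ∈ B := hBn.conj_mem _ (B.inv_mem hb) y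
    have e1 : b * y * b⁻¹ * y⁻¹ = ((⟨b, hb⟩ * ⟨y * b⁻¹ * y⁻¹, hyb⟩ : B) : H) := by
      show _ = b * (y * b⁻¹ * y⁻¹)
      group
    have e2 : (μ : B → ℂ) ⟨y * b⁻¹ * y⁻¹, hyb⟩ = (μ : B → ℂ) ⟨b⁻¹, B.inv_mem hb⟩ := by
      have h5 := hval ⟨y * b⁻¹ * y⁻¹, hyb⟩
      have h6 := hval ⟨b⁻¹, B.inv_mem hb⟩
      have h7 : ψ (y * b⁻¹ * y⁻¹) = ψ b⁻¹ := hψcl _ _
      exact mul_left_cancel₀ hμ (h5.symm.trans (h7.trans h6))
    rw [e1, hval]
    have e3 : (μ : B → ℂ) (⟨b, hb⟩ * ⟨y * b⁻¹ * y⁻¹, hyb⟩) = 1 := by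
      rw [hf] at e2 ⊢
      rw [linCoe_apply] at e2 ⊢
      rw [linCoe_apply] at e2
      rw [map_mul, Units.val_mul, e2, ← Units.val_mul, ← map_mul]
      have : (⟨b, hb⟩ * ⟨b⁻¹, B.inv_mem hb⟩ : B) = 1 := Subtype.ext (mul_inv_cancel b)
      rw [this, map_one, Units.val_one]
    rw [e3]
    have h6 := hval 1
    rw [hμ1] at h6
    exact h6.symm
  · have hBT : B ≤ inertia B (μ : B → ℂ) := le_inertia B μ.2 _ (mem_inertia B _)
    obtain ⟨η, hη, hηind, -, -⟩ := clifford_surj B μ.2 (inertia B (μ : B → ℂ)) (mem_inertia B _)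
      hBT hψ hμ
    have hNT := mul_inertia N B hBN hφ (fun g => by
      funext x
      rw [conjFun_apply]
      have := hψcl x g⁻¹
      simpa using this) μ.2 hμ
    have hηcl := IsCharacter.isClassFunction (IsIrrCharacter.isCharacter hη)
    have hmk : indFun ((inertia B (μ : B → ℂ)).subgroupOf N)
        (toSubgroupOf (inertia B (μ : B → ℂ)) N η) = fun x : N => ψ x := by
      funext x
      rw [← mackey_of_mul N (inertia B (μ : B → ℂ)) hNT hηcl x, hηind]
    let f1 : (inertia B (μ : B → ℂ)).subgroupOf N →* inertia B (μ : B → ℂ) :=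
      { toFun := fun x => ⟨((x : N) : H), x.2⟩
        map_one' := rfl
        map_mul' := fun _ _ => rfl }
    have hch1 : IsCharacter ((inertia B (μ : B → ℂ)).subgroupOf N)
        (toSubgroupOf (inertia B (μ : B → ℂ)) N η) :=
      IsCharacter.comp_hom f1 (IsIrrCharacter.isCharacter hη)
    have hirr1 := irr_of_indFun_irr _ hch1 (by rw [hmk]; exact hφ)
    let f2 : N.subgroupOf (inertia B (μ : B → ℂ)) →* (inertia B (μ : B → ℂ)).subgroupOf N :=
      { toFun := fun x => ⟨⟨((x : inertia B (μ : B → ℂ)) : H), x.2⟩, (x : inertia B (μ : B → ℂ)).2⟩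
        map_one' := rfl
        map_mul' := fun _ _ => rfl }
    have hf2 : Function.Surjective f2 := fun y => ⟨⟨⟨((y : N) : H), y.2⟩, (y : N).2⟩, rfl⟩
    have hirr2 : IsIrrCharacter (N.subgroupOf (inertia B (μ : B → ℂ)))
        (fun x : N.subgroupOf (inertia B (μ : B → ℂ)) => η x) :=
      Cfsg.Agent.Lib.Helper24.IsIrrCharacter.inflate f2 hf2 hirr1
    have hcardlt : Nat.card (inertia B (μ : B → ℂ)) < n := by
      rw [← hn]
      apply lt_of_le_of_ne (Subgroup.card_le_card_group _)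
      intro h
      exact hT (Subgroup.eq_top_of_card_eq _ h)
    obtain ⟨U, lam, h1, h2, h3⟩ := ih _ hcardlt (inertia B (μ : B → ℂ))
      (N.subgroupOf (inertia B (μ : B → ℂ))) rfl (hPA.subgroupOf _) η hη hirr2
    refine ⟨U.map (inertia B (μ : B → ℂ)).subtype, fun x => lam ((U.equivMapOfInjective
      (inertia B (μ : B → ℂ)).subtype (inertia B (μ : B → ℂ)).subtype_injective).symm x),
      ?_, ?_, ?_⟩
    · exact IsCharacter.comp_hom (U.equivMapOfInjective
        (inertia B (μ : B → ℂ)).subtype (inertia B (μ : B → ℂ)).subtype_injective).symm.toMonoidHom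
        h1
    · show lam ((U.equivMapOfInjective (inertia B (μ : B → ℂ)).subtype
        (inertia B (μ : B → ℂ)).subtype_injective).symm 1) = 1
      rw [map_one, h2]
    · rw [← indFun_indFun_map, h3, hηind]

end Cfsg.Agent.Lib.Helper13.MGroup
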