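import Mathlib
import Cfsg.Agent.Lib.Lead.GlaubG
import Cfsg.Agent.S0160

set_option autoImplicit false
set_option linter.unusedSectionVars false
set_option linter.style.haveILetI false

/-! Real invariant characters and real invariant classes under a `p`-group of operators. -/

namespace Cfsg.Agent.Lib.Helper13.RealGlaub

open Cfsg Cfsg.Agent.Lib.Helper2 Cfsg.Agent.Lib.Helper6 Cfsg.Agent.Lib.Helper24
open Cfsg.Agent.Lib.Lead.Glaub
open scoped ComplexConjugate Classical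

variable {G C P : Type*} [Group G] [Group C] [Group P] {p : ℕ}
  {φ : P →* MulAut G} {ι : C →* G}

theorem exists_fixed [Finite G] (h : Setup p φ ι) (hp : p.Prime) {g₀ : G}
    (hK : InvC φ (ConjClasses.mk g₀)) : ∃ c : C, IsConj (ι c) g₀ := by
  cases nonempty_fintype G
  haveI : Fact p.Prime := ⟨hp⟩
  by_contra hcon
  push Not at hcon
  have h1 := card_filter_modEq h (fun g => IsConj g₀ g) (by
    intro s g
    constructor
    · intro h
      have h2 := hK (s : P)⁻¹ (φ s g) (ConjClasses.mk_eq_mk_iff_isConj.mpr h.symm)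
      rw [map_inv, MulAut.inv_apply_self] at h2
      exact (ConjClasses.mk_eq_mk_iff_isConj.mp h2).symm
    · intro h
      exact (ConjClasses.mk_eq_mk_iff_isConj.mp
        (hK s g (ConjClasses.mk_eq_mk_iff_isConj.mpr h.symm))).symm) (fun c hc => hcon c hc.symm)
  apply h.cop
  have h2 := card_isConj_eq_index g₀
  rw [Nat.card_eq_fintype_card, Fintype.card_subtype] at h2
  have h3 := Subgroup.index_dvd_card (Subgroup.centralizer ({g₀} : Set G))
  rw [← h2] at h3
  refine Nat.dvd_trans ?_ h3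
  convert h1

theorem isConj_inv' {X : Type*} [Group X] {a b : X} (h : IsConj a b) : IsConj a⁻¹ b⁻¹ := by
  rw [isConj_iff] at h ⊢
  obtain ⟨c, rfl⟩ := h
  exact ⟨c, by group⟩

theorem rel_conj [Fintype C] {χ : G → ℂ} {β : C → ℂ} (h : Rel p ι χ β) :
    Rel p ι (fun g => conj (χ g)) (fun c => conj (β c)) := by
  obtain ⟨m, hm, hpm⟩ := h
  refine ⟨m, ?_, hpm⟩
  have h1 := congrArg (starRingEnd ℂ) hm
  rw [Complex.conj_natCast] at h1
  rw [← h1]
  simp only [classInner, map_mul, map_inv₀, map_natCast, map_sum, Function.comp_apply]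

theorem real_iff {X : Type*} (f : X → ℂ) : (∀ x, (f x).im = 0) ↔ (fun x => conj (f x)) = f := by
  constructor
  · intro h
    funext x
    exact Complex.conj_eq_iff_im.mpr (h x)
  · intro h x
    exact Complex.conj_eq_iff_im.mp (congrFun h x)

theorem card_real_inv_irr [Fintype G] [Fintype C] (h : Setup p φ ι) (hp : p.Prime) :
    Nat.card {χ : IrrCharacter G // (∀ g, ((χ : G → ℂ) g).im = 0) ∧ Inv φ (χ : G → ℂ)} =
      Nat.card {β : IrrCharacter C // ∀ c, ((β : C → ℂ) c).im = 0} := by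
  obtain ⟨c1, -, c3, c4⟩ := main hp h
  have hreal : ∀ (χ : IrrCharacter G) (β : IrrCharacter C), Inv φ (χ : G → ℂ) →
      Rel p ι (χ : G → ℂ) (β : C → ℂ) →
      ((∀ g, ((χ : G → ℂ) g).im = 0) ↔ ∀ c, ((β : C → ℂ) c).im = 0) := by
    intro χ β hχ hr
    have hr' := rel_conj hr
    rw [real_iff, real_iff]
    constructor
    · intro h1
      rw [h1] at hr'
      have := (c1 χ hχ).unique (y₁ := ⟨_, IsIrrCharacter.conj β.2⟩) (y₂ := β) hr' hr
      exact congrArg Subtype.val this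
    · intro h1
      rw [h1] at hr'
      obtain ⟨m, hm, hpm⟩ := hr
      obtain ⟨m', hm', hpm'⟩ := hr'
      have := c3 ⟨_, IsIrrCharacter.conj χ.2⟩ χ (fun s g => by
        show conj ((χ : G → ℂ) (φ s g)) = conj ((χ : G → ℂ) g)
        rw [hχ]) hχ β m' m hm' hpm' hm hpm
      exact congrArg Subtype.val this
  refine Nat.card_eq_of_bijective
    (fun χ : {χ : IrrCharacter G // (∀ g, ((χ : G → ℂ) g).im = 0) ∧ Inv φ (χ : G → ℂ)} =>
      (⟨(c1 χ.1 χ.2.2).choose, (hreal χ.1 _ χ.2.2 (c1 χ.1 χ.2.2).choose_spec.1).mp χ.2.1⟩ :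
        {β : IrrCharacter C // ∀ c, ((β : C → ℂ) c).im = 0})) ⟨?_, ?_⟩
  · intro χ χ' hh
    have h1 : (c1 χ.1 χ.2.2).choose = (c1 χ'.1 χ'.2.2).choose := congrArg Subtype.val hh
    obtain ⟨m, hm, hpm⟩ := (c1 χ.1 χ.2.2).choose_spec.1
    obtain ⟨m', hm', hpm'⟩ := (c1 χ'.1 χ'.2.2).choose_spec.1
    rw [← h1] at hm'
    exact Subtype.ext (c3 χ.1 χ'.1 χ.2.2 χ'.2.2 _ m m' hm hpm hm' hpm')
  · intro β
    obtain ⟨χ, hχ, hr⟩ := c4 β.1
    refine ⟨⟨χ, (hreal χ β.1 hχ hr).mpr β.2, hχ⟩, Subtype.ext ?_⟩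
    exact ((c1 χ hχ).unique hr (c1 χ hχ).choose_spec.1).symm

theorem card_real_inv_classes [Finite G] (h : Setup p φ ι) (hp : p.Prime) :
    Nat.card {L : ConjClasses C // ∀ c, ConjClasses.mk c = L → IsConj c c⁻¹} =
      Nat.card {K : ConjClasses G // (∀ g, ConjClasses.mk g = K → IsConj g g⁻¹) ∧ InvC φ K} := by
  have hfus : ∀ c c' : C, IsConj (ι c) (ι c') → IsConj c c' := by
    intro c c' h'
    obtain ⟨x, hx⟩ := isConj_iff.mp h'
    obtain ⟨d, hd⟩ := h.fusion hp (c := c) (c' := c') (g := x) hx.symm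
    exact isConj_iff.mpr ⟨d, hd.symm⟩
  have hmap : ∀ L : ConjClasses C, (∀ c, ConjClasses.mk c = L → IsConj c c⁻¹) →
      (∀ g, ConjClasses.mk g = ConjClasses.map ι L → IsConj g g⁻¹) ∧
        InvC φ (ConjClasses.map ι L) := by
    intro L
    obtain ⟨c, rfl⟩ := ConjClasses.exists_rep L
    intro hL
    constructor
    · intro g hg
      have h1 : IsConj g (ι c) := ConjClasses.mk_eq_mk_iff_isConj.mp hg
      have h2 : IsConj (ι c) (ι c)⁻¹ := by
        rw [← map_inv]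
        exact ι.map_isConj (hL c rfl)
      exact h1.trans (h2.trans (isConj_inv' h1).symm)
    · intro s g hg
      have h1 : IsConj g (ι c) := ConjClasses.mk_eq_mk_iff_isConj.mp hg
      have h2 : IsConj (φ s g) (φ s (ι c)) := (φ s).toMonoidHom.map_isConj h1
      rw [h.fixed] at h2
      exact ConjClasses.mk_eq_mk_iff_isConj.mpr h2
  refine Nat.card_eq_of_bijective
    (fun L : {L : ConjClasses C // ∀ c, ConjClasses.mk c = L → IsConj c c⁻¹} =>
      (⟨ConjClasses.map ι L.1, hmap L.1 L.2⟩ :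
        {K : ConjClasses G // (∀ g, ConjClasses.mk g = K → IsConj g g⁻¹) ∧ InvC φ K})) ⟨?_, ?_⟩
  · rintro ⟨L, hL⟩ ⟨L', hL'⟩ hh
    have hh' : ConjClasses.map ι L = ConjClasses.map ι L' := congrArg Subtype.val hh
    apply Subtype.ext
    obtain ⟨c, rfl⟩ := ConjClasses.exists_rep L
    obtain ⟨c', rfl⟩ := ConjClasses.exists_rep L'
    exact ConjClasses.mk_eq_mk_iff_isConj.mpr
      (hfus c c' (ConjClasses.mk_eq_mk_iff_isConj.mp hh'))
  · rintro ⟨K, hK1, hK2⟩
    obtain ⟨g₀, rfl⟩ := ConjClasses.exists_rep K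
    obtain ⟨c, hc⟩ := exists_fixed h hp hK2
    refine ⟨⟨ConjClasses.mk c, ?_⟩, Subtype.ext ?_⟩
    · intro d hd
      have h1 : IsConj d c := ConjClasses.mk_eq_mk_iff_isConj.mp hd
      have h2 : IsConj (ι d) g₀ := (ι.map_isConj h1).trans hc
      have h3 := hK1 (ι d) (ConjClasses.mk_eq_mk_iff_isConj.mpr h2)
      rw [← map_inv] at h3
      exact hfus _ _ h3
    · exact ConjClasses.mk_eq_mk_iff_isConj.mpr hc

theorem card_real_inv [Fintype G] [Fintype C] (h : Setup p φ ι) (hp : p.Prime) :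
    Nat.card {χ : IrrCharacter G // (∀ g, ((χ : G → ℂ) g).im = 0) ∧ Inv φ (χ : G → ℂ)} =
      Nat.card {K : ConjClasses G // (∀ g, ConjClasses.mk g = K → IsConj g g⁻¹) ∧ InvC φ K} := by
  rw [card_real_inv_irr h hp, Cfsg.Agent.S0160.result, card_real_inv_classes h hp]

end Cfsg.Agent.Lib.Helper13.RealGlaub
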