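import Mathlib
import Cfsg.Agent.Lib.Helper13.GoingDown
import Cfsg.Agent.Lib.Helper23.IndTools

set_option autoImplicit false
set_option linter.style.haveILetI false
set_option linter.unusedSectionVars false

/-! Isaacs (6.22): relative M-groups. -/

namespace Cfsg.Agent.Lib.Helper13.RelM

open Cfsg Cfsg.Agent.Lib.Helper2 Cfsg.Agent.Lib.Helper6 Cfsg.Agent.Lib.Helper24
open Cfsg.Agent.Lib.Helper13 Cfsg.Agent.Lib.Helper13.GoingDown Cfsg.Agent.Lib.Helper23.IndTools
open scoped ComplexConjugate commutatorElement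

universe u

/-- the hypothesis on chief factors -/
def NonSq {G : Type u} [Group G] (N : Subgroup G) : Prop :=
  ∀ (H K L : Subgroup G), N ≤ L → L < K → K ≤ H → (∀ h ∈ H, ∀ k ∈ K, h * k * h⁻¹ ∈ K) →
    (∀ h ∈ H, ∀ l ∈ L, h * l * h⁻¹ ∈ L) →
    (∀ M : Subgroup G, L ≤ M → M ≤ K → (∀ h ∈ H, ∀ m ∈ M, h * m * h⁻¹ ∈ M) → M = L ∨ M = K) →
    ¬ IsSquare (L.relIndex K)

theorem NonSq.subgroupOf {G : Type u} [Group G] {N : Subgroup G} (h : NonSq N) (T : Subgroup G)
    (hNT : N ≤ T) : NonSq (N.subgroupOf T) := by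
  intro H K L hNL hLK hKH hK hL hmin
  have hinj := T.subtype_injective
  rw [← Subgroup.relIndex_map_map_of_injective L K hinj]
  apply h (H.map T.subtype) (K.map T.subtype) (L.map T.subtype)
  · intro x hx
    exact ⟨⟨x, hNT hx⟩, hNL (Subgroup.mem_subgroupOf.mpr hx), rfl⟩
  · exact (Subgroup.map_lt_map_iff_of_injective hinj).mpr hLK
  · exact Subgroup.map_mono hKH
  · rintro _ ⟨a, ha, rfl⟩ _ ⟨k, hk, rfl⟩
    exact ⟨a * k * a⁻¹, hK a ha k hk, rfl⟩
  · rintro _ ⟨a, ha, rfl⟩ _ ⟨k, hk, rfl⟩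
    exact ⟨a * k * a⁻¹, hL a ha k hk, rfl⟩
  · intro M hLM hMK hM
    have hMT : M ≤ T := hMK.trans (Subgroup.map_subtype_le K)
    have h1 := hmin (M.subgroupOf T)
      (fun x hx => Subgroup.mem_subgroupOf.mpr (hLM ⟨x, hx, rfl⟩))
      (fun x hx => by
        obtain ⟨y, hy, hxy⟩ := hMK (Subgroup.mem_subgroupOf.mp hx)
        have : y = x := Subtype.ext hxy
        rwa [← this])
      (fun a ha m hm => Subgroup.mem_subgroupOf.mpr
        (hM a ⟨a, ha, rfl⟩ m (Subgroup.mem_subgroupOf.mp hm)))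
    rcases h1 with h1 | h1
    · left; rw [← h1, Subgroup.map_subgroupOf_eq_of_le hMT]
    · right; rw [← h1, Subgroup.map_subgroupOf_eq_of_le hMT]

theorem solvable_subgroupOf {G : Type u} [Group G] (N : Subgroup G) [N.Normal]
    (h : Group.IsSolvable (G ⧸ N)) (T : Subgroup G) :
    Group.IsSolvable (T ⧸ N.subgroupOf T) := by
  let f : T ⧸ N.subgroupOf T →* G ⧸ N :=
    QuotientGroup.map (N.subgroupOf T) N T.subtype (fun x hx => hx)
  apply Group.isSolvable_of_isSolvable_injective (f := f)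
  rw [injective_iff_map_eq_one]
  intro x
  induction x using QuotientGroup.induction_on with
  | H t =>
    intro ht
    have h1 : ((t : G) : G ⧸ N) = 1 := ht
    rw [QuotientGroup.eq_one_iff] at h1 ⊢
    exact h1

/-- a chief factor above `N` is abelian when `G/N` is solvable -/
theorem chief_abelian {G : Type u} [Group G] (N : Subgroup G) [N.Normal]
    (h : Group.IsSolvable (G ⧸ N)) (K L : Subgroup G) [K.Normal] [L.Normal] (hNL : N ≤ L)
    (hLK : L < K) (hch : ∀ M : Subgroup G, M.Normal → L ≤ M → M ≤ K → M = L ∨ M = K) :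
    ⁅K, K⁆ ≤ L := by
  haveI : Group.IsSolvable (G ⧸ L) := by
    apply Group.isSolvable_of_surjective
      (f := QuotientGroup.map N L (MonoidHom.id G) (fun x hx => hNL hx))
    intro x
    induction x using QuotientGroup.induction_on with
    | H t => exact ⟨(t : G ⧸ N), rfl⟩
  have hne : K.map (QuotientGroup.mk' L) ≠ ⊥ := by
    intro h0
    rw [Subgroup.map_eq_bot_iff, QuotientGroup.ker_mk'] at h0
    exact absurd h0 (not_le_of_gt hLK)
  have hlt := Group.IsSolvable.commutator_lt_of_ne_bot hne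
  rcases hch (⁅K, K⁆ ⊔ L) inferInstance le_sup_right
    (sup_le (Subgroup.commutator_le_left K K) hLK.le) with h1 | h1
  · rw [← h1]; exact le_sup_left
  · exfalso
    have h2 : (⁅K, K⁆ ⊔ L).map (QuotientGroup.mk' L) = K.map (QuotientGroup.mk' L) := by rw [h1]
    rw [Subgroup.map_sup, Subgroup.map_commutator] at h2
    have h3 : L.map (QuotientGroup.mk' L) = ⊥ := by
      rw [Subgroup.map_eq_bot_iff, QuotientGroup.ker_mk']
    rw [h3, sup_bot_eq] at h2
    exact hlt.ne h2

theorem relM : ∀ (n : ℕ) (G : Type u) [Group G] [Fintype G] (N : Subgroup G) [N.Normal],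
    Nat.card G = n → Group.IsSolvable (G ⧸ N) → NonSq N → ∀ χ : G → ℂ, IsIrrCharacter G χ →
    ∃ (H : Subgroup G) (hNH : N ≤ H) (ψ : H → ℂ), IsIrrCharacter H ψ ∧ indFun H ψ = χ ∧
      IsIrrCharacter N (fun n : N => ψ ⟨(n : G), hNH n.2⟩) := by
  intro n
  induction n using Nat.strong_induction_on with
  | _ n ih =>
  intro G _ _ N _ hn hsolv hchief χ hχ
  classical
  have hχc := IsIrrCharacter.isCharacter hχ
  have hχcl := IsCharacter.isClassFunction hχc
  have htop : IsIrrCharacter (⊤ : Subgroup G) (fun x : (⊤ : Subgroup G) => χ x) :=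
    Cfsg.Agent.Lib.Helper24.IsIrrCharacter.inflate (Subgroup.topEquiv (G := G)).toMonoidHom
      (Subgroup.topEquiv (G := G)).surjective hχ
  by_cases hirrN : IsIrrCharacter N (fun n : N => χ n)
  · exact ⟨⊤, le_top, fun x => χ x, htop, indFun_top hχcl, hirrN⟩
  have hfin : {K : Subgroup G | K.Normal ∧ N ≤ K ∧ IsIrrCharacter K (fun k : K => χ k)}.Finite :=
    Set.toFinite _
  obtain ⟨K, hKmin⟩ := hfin.exists_minimal ⟨⊤, inferInstance, le_top, htop⟩
  obtain ⟨hKn, hNK, hKirr⟩ := hKmin.1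
  have hNK' : N < K := lt_of_le_of_ne hNK (by rintro rfl; exact hirrN hKirr)
  have hfin2 : {L : Subgroup G | L.Normal ∧ N ≤ L ∧ L < K}.Finite := Set.toFinite _
  obtain ⟨L, hLmax⟩ := hfin2.exists_maximal ⟨N, inferInstance, le_rfl, hNK'⟩
  obtain ⟨hLn, hNL, hLK⟩ := hLmax.1
  have hch : ∀ M : Subgroup G, M.Normal → L ≤ M → M ≤ K → M = L ∨ M = K := by
    intro M hM h1 h2
    by_cases h3 : M = K
    · right; exact h3
    · left
      exact le_antisymm (hLmax.2 (show M ∈ {L : Subgroup G | L.Normal ∧ N ≤ L ∧ L < K} from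
        ⟨hM, hNL.trans h1, lt_of_le_of_ne h2 h3⟩) h1) h1
  have hab := chief_abelian N hsolv K L hNL hLK hch
  have hgd := going_down K L hLK hch hab hKirr (fun g k => hχcl k g)
  rcases hgd with h | ⟨φ, e, _, _, he⟩ | ⟨F, hF, hFcard, hFsum⟩
  · exact absurd (hKmin.2 (show L ∈ {K : Subgroup G | K.Normal ∧ N ≤ K ∧
      IsIrrCharacter K (fun k : K => χ k)} from ⟨hLn, hNL, h⟩) hLK.le) (not_le_of_gt hLK)
  · exfalso
    apply hchief ⊤ K L hNL hLK le_top (fun h _ k hk => hKn.conj_mem k hk h)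
      (fun h _ k hk => hLn.conj_mem k hk h)
      (fun M h1 h2 h3 => hch M ⟨fun m hm g => h3 g (Subgroup.mem_top g) m hm⟩ h1 h2)
    exact ⟨e, by rw [← he, pow_two]⟩
  · have hcard2 : 1 < F.card := by
      rw [hFcard]
      have h1 : L.relIndex K ≠ 1 := fun h => absurd (Subgroup.relIndex_eq_one.mp h)
        (not_le_of_gt hLK)
      have h0 : L.relIndex K ≠ 0 := Subgroup.index_ne_zero_of_finite
      omega
    obtain ⟨φ, hφF, φ', hφ'F, hne⟩ := Finset.one_lt_card.mp hcard2
    have hsum : (fun x : L => χ x) = ∑ ψ ∈ F, ψ := hFsum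
    have hin : ∀ ψ ∈ F, classInner (fun x : L => χ x) ψ = 1 := by
      intro ψ hψ
      rw [hsum, classInner_sum_left, Finset.sum_eq_single ψ]
      · rw [classInner_irr (hF ψ hψ) (hF ψ hψ), if_pos rfl]
      · intro ψ' hψ' hne'
        rw [classInner_irr (hF ψ' hψ') (hF ψ hψ), if_neg hne']
      · intro h; exact absurd hψ h
    have hφ := hF φ hφF
    have hne0 : classInner (fun x : L => χ x) φ ≠ 0 := by rw [hin φ hφF]; exact one_ne_zero
    have hLT : L ≤ inertia L φ := le_inertia L hφ _ (mem_inertia L φ)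
    have hTne : inertia L φ ≠ ⊤ := by
      intro htop'
      have hinv : ∀ g : G, conjFun L g φ = φ := fun g =>
        (mem_inertia L φ g).mp (htop' ▸ Subgroup.mem_top g)
      have hres := restrict_eq_smul_of_invariant L hφ hinv hχ hne0
      have h1 := hin φ' hφ'F
      rw [hres, classInner_smul_left, classInner_irr hφ (hF φ' hφ'F), if_neg hne, mul_zero] at h1
      exact zero_ne_one h1
    obtain ⟨ψ, hψ, hψind, -, -⟩ := clifford_surj L hφ (inertia L φ) (mem_inertia L φ) hLT hχ hne0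
    have hcardlt : Nat.card (inertia L φ) < n := by
      rw [← hn]
      apply lt_of_le_of_ne (Subgroup.card_le_card_group _)
      intro h
      exact hTne (Subgroup.eq_top_of_card_eq _ h)
    have hNT : N ≤ inertia L φ := hNL.trans hLT
    obtain ⟨H', hNH', η, hη, hηind, hηN⟩ := ih _ hcardlt (inertia L φ)
      (N.subgroupOf (inertia L φ)) rfl (solvable_subgroupOf N hsolv _) (hchief.subgroupOf _ hNT)
      ψ hψ
    set E := H'.equivMapOfInjective (inertia L φ).subtype (inertia L φ).subtype_injective with hE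
    have hNH : N ≤ H'.map (inertia L φ).subtype := by
      intro x hx
      exact ⟨⟨x, hNT hx⟩, hNH' (Subgroup.mem_subgroupOf.mpr hx), rfl⟩
    refine ⟨H'.map (inertia L φ).subtype, hNH, fun x => η (E.symm x), ?_, ?_, ?_⟩
    · exact Cfsg.Agent.Lib.Helper24.IsIrrCharacter.inflate E.symm.toMonoidHom E.symm.surjective hη
    · rw [← indFun_indFun_map, hηind, hψind]
    · have h1 := Cfsg.Agent.Lib.Helper24.IsIrrCharacter.inflate (Subgroup.subgroupOfEquivOfLe hNT).symm.toMonoidHom
        (Subgroup.subgroupOfEquivOfLe hNT).symm.surjective hηN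
      convert h1 using 1
      funext x
      show η (E.symm _) = η _
      congr 1
      apply E.injective
      rw [MulEquiv.apply_symm_apply]
      rfl

end Cfsg.Agent.Lib.Helper13.RelM
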