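import Mathlib
import Cfsg.Agent.Lib.Helper13.Thompson2
import Cfsg.Agent.Lib.Helper13.LinCount
import Cfsg.Agent.Lib.Helper13.DetExt3
import Cfsg.Agent.Lib.Helper13.Garrison
import Cfsg.Agent.Lib.Helper6.LinChar
import Cfsg.Agent.S0178
import Cfsg.Agent.Lib.Helper24.PrinSmall

set_option autoImplicit false
set_option linter.unusedSectionVars false
set_option linter.style.haveILetI false

/-! Groups with two character degrees (Isaacs 12.5, 12.6). -/

namespace Cfsg.Agent.Lib.Helper13.TwoDeg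

open Cfsg Cfsg.Agent.Lib.Helper2 Cfsg.Agent.Lib.Helper6 Cfsg.Agent.Lib.Helper24
  Cfsg.Agent.Lib.Helper13
open scoped ComplexConjugate Classical

attribute [local instance] irrFintype

section abstract

variable {V : Type*} [CommGroup V]

theorem abstractK (α : V →* V) (k e : ℕ) (hk : ∀ v, (α^[k]) v = v) (he : ∀ v : V, v ^ e = 1)
    (hcop : Nat.Coprime k e) (τ : V) (h : α (α τ * τ⁻¹) = α τ * τ⁻¹) : α τ = τ := by
  have h1 : ∀ i : ℕ, (α^[i]) τ = τ * (α τ * τ⁻¹) ^ i := by
    intro i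
    induction i with
    | zero => simp
    | succ i ih =>
      rw [Function.iterate_succ_apply', ih, map_mul, map_pow, h, pow_succ]
      simp only [mul_assoc, mul_comm, mul_left_comm, inv_mul_cancel_left, mul_inv_cancel_left]
  have h2 : (α τ * τ⁻¹) ^ k = 1 := by
    have := h1 k
    rw [hk] at this
    exact (mul_eq_left.mp this.symm)
  have h3 : orderOf (α τ * τ⁻¹) ∣ Nat.gcd k e :=
    Nat.dvd_gcd (orderOf_dvd_of_pow_eq_one h2) (orderOf_dvd_of_pow_eq_one (he _))
  rw [hcop.gcd_eq_one, Nat.dvd_one, orderOf_eq_one_iff] at h3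
  exact mul_inv_eq_one.mp h3

theorem abstractU (α γ : V →* V) (hcomm : ∀ v, α (γ v) = γ (α v)) (k e : ℕ)
    (hk : ∀ v, (α^[k]) v = v) (he : ∀ v : V, v ^ e = 1) (hcop : Nat.Coprime k e) (lam ν : V)
    (hl : α lam = lam) (hg : γ (lam * (α ν * ν⁻¹)) = lam * (α ν * ν⁻¹)) : γ lam = lam := by
  have h1 : γ lam * lam⁻¹ = α (ν * (γ ν)⁻¹) * (ν * (γ ν)⁻¹)⁻¹ := by
    rw [map_mul, map_mul, map_inv] at hg
    rw [map_mul, map_inv, hcomm, mul_inv_eq_iff_eq_mul]
    have h2 : γ lam = lam * (α ν * ν⁻¹) * (γ (α ν) * (γ ν)⁻¹)⁻¹ := by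
      rw [← hg, mul_inv_cancel_right]
    rw [h2]
    simp only [mul_inv_rev, inv_inv]
    simp only [mul_assoc, mul_comm, mul_left_comm]
  have h3 := abstractK α k e hk he hcop (ν * (γ ν)⁻¹) (by
    rw [← h1, map_mul, map_inv, hcomm, hl])
  rw [h3, mul_inv_cancel] at h1
  exact mul_inv_eq_one.mp h1

end abstract

/-- nilpotency of a quotient from a homomorphism to a nilpotent group -/
theorem nilp_of_hom {H K : Type*} [Group H] [Group K] (φ : H →* K) (M : Subgroup H) [M.Normal]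
    (hM : φ.ker ≤ M) (hK : Group.IsNilpotent K) : Group.IsNilpotent (H ⧸ M) :=
  Garrison.nilp_transfer φ.rangeRestrict φ.rangeRestrict_surjective M
    (by rw [MonoidHom.ker_rangeRestrict]; exact hM) inferInstance

section hall

variable {G : Type*} [Group G] [Finite G]

theorem exists_hall_aux (m : ℕ)
    (hcd : ∀ χ : IrrCharacter G, charDegree (χ : G → ℂ) = 1 ∨ charDegree (χ : G → ℂ) = m)
    (S : Finset ℕ) (hS : ∀ p ∈ S, p.Prime ∧ p ∣ m) :
    ∃ N : Subgroup G, ∃ _ : N.Normal, (∀ p ∈ S, ¬ p ∣ Nat.card N) ∧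
      (∀ p : ℕ, p.Prime → p ∣ N.index → p ∈ S) ∧ Group.IsNilpotent (G ⧸ N) := by
  induction S using Finset.induction_on with
  | empty =>
    haveI : Subsingleton (G ⧸ (⊤ : Subgroup G)) := QuotientGroup.subsingleton_quotient_top
    refine ⟨⊤, inferInstance, by simp, ?_, inferInstance⟩
    intro p hp hd
    rw [Subgroup.index_top] at hd
    exact absurd (Nat.dvd_one.mp hd) hp.one_lt.ne'
  | insert p S hpS ih =>
    obtain ⟨N, hNn, h1, h2, h3⟩ := ih (fun q hq => hS q (Finset.mem_insert_of_mem hq))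
    obtain ⟨hp, hpm⟩ := hS p (Finset.mem_insert_self p S)
    haveI : Fact p.Prime := ⟨hp⟩
    obtain ⟨M, hMn, hM1, k, hM2⟩ := thompson_npc (G := G) p (by
      intro χ hχ
      rcases hcd χ with h | h
      · exact absurd h hχ
      · rw [h]; exact hpm)
    refine ⟨N ⊓ M, inferInstance, ?_, ?_, ?_⟩
    · intro q hq hd
      rcases Finset.mem_insert.mp hq with rfl | hq
      · exact (Nat.Coprime.symm hM1 |> (Nat.Prime.coprime_iff_not_dvd hp).mp)
          (hd.trans (Subgroup.card_dvd_of_le inf_le_right))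
      · exact h1 q hq (hd.trans (Subgroup.card_dvd_of_le inf_le_left))
    · intro q hq hd
      rw [← Subgroup.relIndex_mul_index (inf_le_left : N ⊓ M ≤ N), Subgroup.inf_relIndex_left] at hd
      rcases (Nat.Prime.dvd_mul hq).mp hd with h | h
      · have h4 := h.trans (Subgroup.relIndex_dvd_index_of_normal M N)
        rw [hM2] at h4
        have := (Nat.prime_dvd_prime_iff_eq hq hp).mp (hq.dvd_of_dvd_pow h4)
        rw [this]
        exact Finset.mem_insert_self p S
      · exact Finset.mem_insert_of_mem (h2 q hq h)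
    · haveI : Group.IsNilpotent (G ⧸ M) := by
        apply IsPGroup.isNilpotent (p := p)
        apply IsPGroup.of_card (n := k)
        rw [← hM2]
        rfl
      apply nilp_of_hom ((QuotientGroup.mk' N).prod (QuotientGroup.mk' M)) _ _ inferInstance
      intro x hx
      rw [MonoidHom.mem_ker, MonoidHom.prod_apply, Prod.mk_eq_one] at hx
      exact ⟨(QuotientGroup.eq_one_iff x).mp hx.1, (QuotientGroup.eq_one_iff x).mp hx.2⟩

theorem exists_hall (m : ℕ) (hm0 : m ≠ 0)
    (hcd : ∀ χ : IrrCharacter G, charDegree (χ : G → ℂ) = 1 ∨ charDegree (χ : G → ℂ) = m) :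
    ∃ N : Subgroup G, ∃ _ : N.Normal, (∀ a ∈ N, ∀ b ∈ N, a * b = b * a) ∧
      Nat.Coprime (Nat.card N) N.index ∧ Group.IsNilpotent (G ⧸ N) := by
  obtain ⟨N, hNn, h1, h2, h3⟩ := exists_hall_aux m hcd m.primeFactors (fun p hp =>
    ⟨Nat.prime_of_mem_primeFactors hp, Nat.dvd_of_mem_primeFactors hp⟩)
  refine ⟨N, hNn, ?_, ?_, h3⟩
  · have hlin : ∀ θ : IrrCharacter N, (θ : N → ℂ) 1 = 1 := by
      intro θ
      obtain ⟨χ, e, he, -⟩ := exists_over_degree N θ
      have hd1 : charDegree (θ : N → ℂ) ∣ m := by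
        rcases hcd χ with h | h
        · rw [h] at he
          have : charDegree (θ : N → ℂ) = 1 := Nat.eq_one_of_mul_eq_one_left he.symm
          rw [this]
          exact one_dvd _
        · rw [h] at he
          exact Dvd.intro_left _ he.symm
      have hd2 := degree_dvd_card θ.2
      have : charDegree (θ : N → ℂ) = 1 := by
        by_contra hne
        obtain ⟨q, hq, hqd⟩ := Nat.exists_prime_and_dvd hne
        exact h1 q (Nat.mem_primeFactors.mpr ⟨hq, hqd.trans hd1, hm0⟩) (hqd.trans hd2)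
      rw [← charDegree_cast (IsIrrCharacter.isCharacter θ.2), this]
      simp
    intro a ha b hb
    exact congrArg Subtype.val (comm_of_all_linear hlin ⟨a, ha⟩ ⟨b, hb⟩)
  · apply Nat.coprime_of_dvd
    intro q hq hd1 hd2
    exact h1 q (h2 q hq hd2) hd1

end hall

section inert

variable {G : Type*} [Group G] [Fintype G] (N : Subgroup G) [hN : N.Normal]

/-- the function of a hom -/
def fn (lam : N →* ℂˣ) : N → ℂ := fun n => ((lam n : ℂˣ) : ℂ)

/-- the action of `G` on the dual of `N` -/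
def act (g : G) : (N →* ℂˣ) →* (N →* ℂˣ) :=
  MonoidHom.compHom' ((MulAut.conjNormal g⁻¹ : N ≃* N).toMonoidHom)

theorem conjFun_fn (g : G) (lam : N →* ℂˣ) : conjFun N g (fn N lam) = fn N (act N g lam) := by
  rw [conjFun_eq_comp]
  rfl

theorem fn_injective : Function.Injective (fn N) := by
  intro a b h
  ext n
  exact congrFun h n

theorem fn_irr (lam : N →* ℂˣ) : IsIrrCharacter N (fn N lam) := isIrrCharacter_of_hom lam

theorem mem_inertia_fn (g : G) (lam : N →* ℂˣ) :
    g ∈ inertia N (fn N lam) ↔ act N g lam = lam := by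
  rw [mem_inertia, conjFun_fn]
  exact ⟨fun h => fn_injective N h, fun h => by rw [h]⟩

theorem act_mul (g h : G) (lam : N →* ℂˣ) : act N (g * h) lam = act N g (act N h lam) := by
  apply fn_injective N
  rw [← conjFun_fn, ← conjFun_fn, ← conjFun_fn, conjFun_mul]

theorem act_one (lam : N →* ℂˣ) : act N 1 lam = lam := by
  apply fn_injective N
  rw [← conjFun_fn, conjFun_one]

theorem inertia_props (m : ℕ) (hm0 : m ≠ 0)
    (hcd : ∀ χ : IrrCharacter G, charDegree (χ : G → ℂ) = 1 ∨ charDegree (χ : G → ℂ) = m)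
    (hcop : Nat.Coprime (Nat.card N) N.index) (hsolv : Group.IsSolvable (G ⧸ N))
    (lam : N →* ℂˣ) (hne : inertia N (fn N lam) ≠ ⊤) :
    (inertia N (fn N lam)).index = m ∧ ∀ x ∈ inertia N (fn N lam), ∀ y ∈ inertia N (fn N lam),
      ∃ h : x * y * x⁻¹ * y⁻¹ ∈ N, lam ⟨_, h⟩ = 1 := by
  obtain ⟨T, hTdef⟩ : ∃ T : Subgroup G, T = inertia N (fn N lam) := ⟨_, rfl⟩
  rw [← hTdef] at hne ⊢
  have hφ := fn_irr N lam
  have hT : ∀ g, g ∈ T ↔ conjFun N g (fn N lam) = fn N lam := fun g => by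
    rw [hTdef]; exact mem_inertia N _ g
  have hNT : N ≤ T := le_inertia N hφ T hT
  obtain ⟨ψ, hψ, hψext⟩ := exists_extension_of_coprime_solvable (N.subgroupOf T)
    (solvable_quotient_subgroupOf N T hsolv) (IsIrrCharacter.toSubgroupOf hNT hφ)
    (by
      intro t
      rw [conjFun_toSubgroupOf, (hT t).mp t.2])
    (by
      rw [card_subgroupOf_of_le hNT]
      exact Nat.Coprime.coprime_dvd_right (Subgroup.relIndex_dvd_index_of_normal N T) hcop)
  have hext : ∀ n : N, ψ ⟨n, hNT n.2⟩ = fn N lam n := fun n =>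
    hψext ⟨⟨n, hNT n.2⟩, Subgroup.mem_subgroupOf.mpr n.2⟩
  have hψc := IsIrrCharacter.isCharacter hψ
  have hψ1 : ψ 1 = 1 := by
    have h0 := hext 1
    have h1 : ψ 1 = fn N lam 1 := h0
    rw [h1]
    simp [fn]
  have hψd : charDegree ψ = 1 := charDegree_eq_of_cast (by rw [hψ1]; simp)
  have hidx : T.index = m := by
    have h1 := LinCount.indFun_irr_of_ext N hφ T hT hNT hψ hext
    have h2 := charDegree_indFun T hψc
    rw [hψd, mul_one] at h2
    rcases hcd ⟨_, h1⟩ with h | h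
    · exfalso
      apply hne
      apply Subgroup.index_eq_one.mp
      rw [← h2]
      exact h
    · rw [← h2]
      exact h
  refine ⟨hidx, ?_⟩
  have hab : ∀ β : IrrCharacter (T ⧸ N.subgroupOf T), (β : T ⧸ N.subgroupOf T → ℂ) 1 = 1 := by
    intro β
    have hβ := Cfsg.Agent.Lib.Helper24.IsIrrCharacter.inflate (QuotientGroup.mk' (N.subgroupOf T))
      (QuotientGroup.mk'_surjective _) β.2
    have hprod := IsIrrCharacter.linear_mul hψc hψ1 hβ
    obtain ⟨c1, -, -⟩ := clifford_main N hφ T hT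
    have hind := c1 _ hprod (by
      rw [classInner_indFun_toSubgroupOf N (fn N lam) T hNT
        (IsCharacter.isClassFunction (IsIrrCharacter.isCharacter hprod))]
      have h3 : (fun n : N => (ψ * fun g => (β : T ⧸ N.subgroupOf T → ℂ)
          ((QuotientGroup.mk' (N.subgroupOf T)) g)) ⟨(n : G), hNT n.2⟩) =
          ((β : T ⧸ N.subgroupOf T → ℂ) 1) • fn N lam := by
        ext n
        rw [Pi.mul_apply, hext, Pi.smul_apply, smul_eq_mul, mul_comm]
        congr 1
        show (β : T ⧸ N.subgroupOf T → ℂ) (QuotientGroup.mk (⟨(n : G), hNT n.2⟩ : T)) = _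
        rw [(QuotientGroup.eq_one_iff (⟨(n : G), hNT n.2⟩ : T)).mpr
          (Subgroup.mem_subgroupOf.mpr n.2)]
      rw [h3, classInner_smul_right, classInner_irr hφ hφ, if_pos rfl, mul_one]
      exact (map_ne_zero _).mpr (irr_one_ne_zero β.2))
    have hdeg := charDegree_indFun T (IsIrrCharacter.isCharacter hprod)
    have hd : ((charDegree (ψ * fun g => (β : T ⧸ N.subgroupOf T → ℂ)
        ((QuotientGroup.mk' (N.subgroupOf T)) g)) : ℕ) : ℂ) = (β : T ⧸ N.subgroupOf T → ℂ) 1 := by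
      rw [charDegree_cast (IsIrrCharacter.isCharacter hprod), Pi.mul_apply, hψ1, one_mul, map_one]
    rw [hidx] at hdeg
    have hd1 : charDegree (ψ * fun g => (β : T ⧸ N.subgroupOf T → ℂ)
        ((QuotientGroup.mk' (N.subgroupOf T)) g)) = 1 := by
      rcases hcd ⟨_, hind⟩ with h | h
      · have h4 : m * charDegree (ψ * fun g => (β : T ⧸ N.subgroupOf T → ℂ)
          ((QuotientGroup.mk' (N.subgroupOf T)) g)) = 1 := by rw [← hdeg]; exact h
        exact Nat.eq_one_of_mul_eq_one_left h4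
      · have h4 : m * charDegree (ψ * fun g => (β : T ⧸ N.subgroupOf T → ℂ)
          ((QuotientGroup.mk' (N.subgroupOf T)) g)) = m * 1 := by rw [← hdeg, mul_one]; exact h
        exact Nat.eq_of_mul_eq_mul_left (Nat.pos_of_ne_zero hm0) h4
    rw [← hd, hd1]
    simp
  obtain ⟨f, rfl⟩ := exists_hom_of_degree_one hψc hψ1
  intro x hx y hy
  have hc := comm_of_all_linear hab (QuotientGroup.mk (⟨x, hx⟩ : T)) (QuotientGroup.mk (⟨y, hy⟩ : T))
  have hmem : (⟨x, hx⟩ * ⟨y, hy⟩ * (⟨x, hx⟩ : T)⁻¹ * (⟨y, hy⟩ : T)⁻¹ : T) ∈ N.subgroupOf T := by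
    rw [← QuotientGroup.eq_one_iff, QuotientGroup.mk_mul, QuotientGroup.mk_mul,
      QuotientGroup.mk_mul, QuotientGroup.mk_inv, QuotientGroup.mk_inv, hc]
    group
  have hmem' : x * y * x⁻¹ * y⁻¹ ∈ N := Subgroup.mem_subgroupOf.mp hmem
  refine ⟨hmem', ?_⟩
  have h5 := hext ⟨_, hmem'⟩
  have h6 : f (⟨x * y * x⁻¹ * y⁻¹, hNT hmem'⟩ : T) = 1 := by
    have : (⟨x * y * x⁻¹ * y⁻¹, hNT hmem'⟩ : T) =
        ⟨x, hx⟩ * ⟨y, hy⟩ * (⟨x, hx⟩ : T)⁻¹ * (⟨y, hy⟩ : T)⁻¹ := rfl
    rw [this, map_mul, map_mul, map_mul, map_inv, map_inv]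
    rw [mul_comm (f ⟨x, hx⟩), mul_assoc (f ⟨y, hy⟩), mul_inv_cancel, mul_one, mul_inv_cancel]
  apply Units.ext
  have h7 : ((f (⟨x * y * x⁻¹ * y⁻¹, hNT hmem'⟩ : T) : ℂˣ) : ℂ) = fn N lam ⟨_, hmem'⟩ := h5
  rw [h6] at h7
  exact h7.symm

end inert

theorem eq_one_of_irr_const {A : Type*} [Group A] [Fintype A] (a : A)
    (h : ∀ ψ : A → ℂ, IsIrrCharacter A ψ → ψ a = ψ 1) : a = 1 := by
  have hreg : IsCharacter A (indFun (⊥ : Subgroup A) (fun _ => 1)) :=
    IsCharacter.indFun ⊥ (IsIrrCharacter.isCharacter isIrrCharacter_one)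
  obtain ⟨d, hd⟩ := IsCharacter.apply_one hreg
  have := Cfsg.Agent.S0175.char_const_of_irr_const hreg d hd a (fun ψ hψ _ => h ψ hψ)
  exact Subgroup.mem_bot.mp (Cfsg.Agent.S0175.mem_of_indFun_one_eq ⊥ a this)

section caseII

variable {G : Type*} [Group G] [Fintype G] (N : Subgroup G) [hN : N.Normal]

theorem act_of_mem_centralizer {c : G} (hc : c ∈ Subgroup.centralizer (N : Set G))
    (lam : N →* ℂˣ) : act N c lam = lam := by
  ext n
  show ((lam (MulAut.conjNormal c⁻¹ n) : ℂˣ) : ℂ) = lam n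
  congr 2
  apply Subtype.ext
  show c⁻¹ * n * c⁻¹⁻¹ = n
  have := Subgroup.mem_centralizer_iff.mp hc n n.2
  rw [inv_inv, mul_assoc, this, inv_mul_cancel_left]

theorem exists_hom_eq (hab : ∀ a ∈ N, ∀ b ∈ N, a * b = b * a) {θ : N → ℂ}
    (hθ : IsIrrCharacter N θ) : ∃ lam : N →* ℂˣ, θ = fn N lam :=
  exists_hom_of_degree_one (IsIrrCharacter.isCharacter hθ)
    (irr_one_eq_one_of_comm (fun a b => Subtype.ext (hab a a.2 b b.2)) hθ)

theorem mem_centralizer_of_act (hab : ∀ a ∈ N, ∀ b ∈ N, a * b = b * a) {g : G}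
    (h : ∀ lam, act N g lam = lam) : g ∈ Subgroup.centralizer (N : Set G) := by
  have hinv : ∀ θ : IrrCharacter N, conjFun N g (θ : N → ℂ) = θ := by
    intro θ
    obtain ⟨lam, hl⟩ := exists_hom_eq N hab θ.2
    rw [hl, conjFun_fn, h]
  rw [Subgroup.mem_centralizer_iff]
  intro n hn
  obtain ⟨c, hc⟩ := isConj_iff.mp (isConj_of_all_invariant N g hinv ⟨n, hn⟩)
  have h1 : (c : G) * (g * n * g⁻¹) * (c : G)⁻¹ = n := congrArg Subtype.val hc
  have h2 : (c : G) * (g * n * g⁻¹) = (g * n * g⁻¹) * c := hab _ c.2 _ (hN.conj_mem n hn g)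
  rw [h2, mul_inv_cancel_right] at h1
  exact (mul_inv_eq_iff_eq_mul.mp h1).symm

theorem iterate_act (z : G) (v : N →* ℂˣ) (i : ℕ) : (act N z)^[i] v = act N (z ^ i) v := by
  induction i with
  | zero => rw [pow_zero, act_one]; rfl
  | succ i ih => rw [Function.iterate_succ_apply', ih, ← act_mul, pow_succ']

theorem dual_pow_card (v : N →* ℂˣ) : v ^ Nat.card N = 1 := by
  ext n
  rw [MonoidHom.pow_apply, ← map_pow, pow_card_eq_one', map_one]
  rfl

theorem u1 (m : ℕ) (hm0 : m ≠ 0)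
    (hcd : ∀ χ : IrrCharacter G, charDegree (χ : G → ℂ) = 1 ∨ charDegree (χ : G → ℂ) = m)
    (hab : ∀ a ∈ N, ∀ b ∈ N, a * b = b * a)
    (hcop : Nat.Coprime (Nat.card N) N.index) (hsolv : Group.IsSolvable (G ⧸ N))
    (lam : N →* ℂˣ) (hne : inertia N (fn N lam) ≠ ⊤) {z : G} (hz : z ∈ inertia N (fn N lam))
    (hzc : ∀ g : G, ∃ c ∈ Subgroup.centralizer (N : Set G), z * g = g * z * c) :
    z ∈ Subgroup.centralizer (N : Set G) := by
  have hNC : N ≤ Subgroup.centralizer (N : Set G) := by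
    intro a ha
    rw [Subgroup.mem_centralizer_iff]
    intro b hb
    exact hab b hb a ha
  have hk : ∀ v, ((act N z)^[N.index]) v = v := by
    intro v
    rw [iterate_act]
    exact act_of_mem_centralizer N (hNC (Subgroup.pow_index_mem N z)) v
  have hcomm : ∀ (g : G) (v : N →* ℂˣ), act N z (act N g v) = act N g (act N z v) := by
    intro g v
    obtain ⟨c, hc, hzg⟩ := hzc g
    rw [← act_mul, hzg, act_mul, act_mul, act_of_mem_centralizer N hc]
  have hzl := (mem_inertia_fn N z lam).mp hz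
  apply mem_centralizer_of_act N hab
  intro ν
  have hle : inertia N (fn N (lam * (act N z ν * ν⁻¹))) ≤ inertia N (fn N lam) := by
    intro g hg
    rw [mem_inertia_fn] at hg ⊢
    exact abstractU (act N z) (act N g) (hcomm g) N.index (Nat.card N) hk (dual_pow_card N)
      hcop.symm lam ν hzl hg
  have hne2 : inertia N (fn N (lam * (act N z ν * ν⁻¹))) ≠ ⊤ := by
    intro h
    apply hne
    rw [eq_top_iff, ← h]
    exact hle
  have hi1 := (inertia_props N m hm0 hcd hcop hsolv lam hne).1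
  have hi2 := (inertia_props N m hm0 hcd hcop hsolv _ hne2).1
  have hrel := Subgroup.relIndex_mul_index hle
  rw [hi1, hi2] at hrel
  have hrel1 : (inertia N (fn N (lam * (act N z ν * ν⁻¹)))).relIndex (inertia N (fn N lam)) = 1 :=
    Nat.eq_of_mul_eq_mul_right (Nat.pos_of_ne_zero hm0) (by rw [hrel, one_mul])
  have hz2 := Subgroup.relIndex_eq_one.mp hrel1 hz
  rw [mem_inertia_fn, map_mul, hzl] at hz2
  exact abstractK (act N z) N.index (Nat.card N) hk (dual_pow_card N) hcop.symm ν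
    (mul_left_cancel hz2)

theorem caseII (m : ℕ) (hm0 : m ≠ 0)
    (hcd : ∀ χ : IrrCharacter G, charDegree (χ : G → ℂ) = 1 ∨ charDegree (χ : G → ℂ) = m)
    (hab : ∀ a ∈ N, ∀ b ∈ N, a * b = b * a)
    (hcop : Nat.Coprime (Nat.card N) N.index) (hnilq : Group.IsNilpotent (G ⧸ N))
    (hnil : ¬ Group.IsNilpotent G) :
    ∃ A : Subgroup G, A.Normal ∧ (∀ a ∈ A, ∀ b ∈ A, a * b = b * a) ∧ A.index = m := by
  have hsolv : Group.IsSolvable (G ⧸ N) := inferInstance
  obtain ⟨C, hCdef⟩ : ∃ C : Subgroup G, C = Subgroup.centralizer (N : Set G) := ⟨_, rfl⟩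
  haveI hCn : C.Normal := hCdef ▸ inferInstance
  have hNC : N ≤ C := by
    intro a ha
    rw [hCdef, Subgroup.mem_centralizer_iff]
    intro b hb
    exact hab b hb a ha
  obtain ⟨lam₀, hne⟩ : ∃ lam₀ : N →* ℂˣ, inertia N (fn N lam₀) ≠ ⊤ := by
    by_contra hcon
    push Not at hcon
    apply hnil
    apply Subgroup.isNilpotent_of_ker_le_center (QuotientGroup.mk' N)
    rw [QuotientGroup.ker_mk']
    intro n hn
    rw [Subgroup.mem_center_iff]
    intro g
    have hg : g ∈ Subgroup.centralizer (N : Set G) := by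
      apply mem_centralizer_of_act N hab
      intro lam
      rw [← mem_inertia_fn, hcon lam]
      exact Subgroup.mem_top g
    exact (Subgroup.mem_centralizer_iff.mp hg n hn).symm
  obtain ⟨T, hTdef⟩ : ∃ T : Subgroup G, T = inertia N (fn N lam₀) := ⟨_, rfl⟩
  have hprops := inertia_props N m hm0 hcd hcop hsolv lam₀ hne
  have hCall : ∀ lam : N →* ℂˣ, C ≤ inertia N (fn N lam) := by
    intro lam c hc
    rw [mem_inertia_fn]
    exact act_of_mem_centralizer N (hCdef ▸ hc) lam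
  have hCT : C ≤ T := hTdef ▸ hCall lam₀
  have hTcomm : ∀ x ∈ T, ∀ y ∈ T, (QuotientGroup.mk x : G ⧸ C) * QuotientGroup.mk y =
      QuotientGroup.mk y * QuotientGroup.mk x := by
    intro x hx y hy
    obtain ⟨h, -⟩ := hprops.2 x (hTdef ▸ hx) y (hTdef ▸ hy)
    have h1 : (QuotientGroup.mk (x * y * x⁻¹ * y⁻¹) : G ⧸ C) = 1 :=
      (QuotientGroup.eq_one_iff _).mpr (hNC h)
    rw [QuotientGroup.mk_mul, QuotientGroup.mk_mul, QuotientGroup.mk_mul, QuotientGroup.mk_inv,
      QuotientGroup.mk_inv, mul_inv_eq_one, mul_inv_eq_iff_eq_mul] at h1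
    exact h1
  have hcentral : ∀ z : G, (QuotientGroup.mk z : G ⧸ C) ∈ Subgroup.center (G ⧸ C) →
      ∀ g : G, ∃ c ∈ Subgroup.centralizer (N : Set G), z * g = g * z * c := by
    intro z hz g
    refine ⟨(g * z)⁻¹ * (z * g), ?_, by group⟩
    rw [← hCdef, ← QuotientGroup.eq_one_iff, QuotientGroup.mk_mul, QuotientGroup.mk_inv,
      QuotientGroup.mk_mul, QuotientGroup.mk_mul, Subgroup.mem_center_iff.mp hz, inv_mul_cancel]
  haveI hnilC : Group.IsNilpotent (G ⧸ C) :=
    nilp_of_hom (QuotientGroup.mk' N) C (by rw [QuotientGroup.ker_mk']; exact hNC) hnilq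
  haveI hnt : Nontrivial (G ⧸ C) := by
    rw [← not_subsingleton_iff_nontrivial]
    intro hs
    apply hne
    rw [← hTdef, eq_top_iff]
    intro g _
    apply hCT
    rw [← QuotientGroup.eq_one_iff]
    exact Subsingleton.elim _ _
  have hTC : T ≤ C := by
    by_cases habq : ∀ a b : G ⧸ C, a * b = b * a
    · intro z hz
      rw [hCdef]
      exact u1 N m hm0 hcd hab hcop hsolv lam₀ hne (hTdef ▸ hz)
        (hcentral z (Subgroup.mem_center_iff.mpr fun g => habq _ _))
    · exfalso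
      obtain ⟨β, hβ⟩ : ∃ β : IrrCharacter (G ⧸ C), (β : G ⧸ C → ℂ) 1 ≠ 1 := by
        by_contra hcon
        push Not at hcon
        exact habq (comm_of_all_linear hcon)
      have hβc := IsIrrCharacter.isCharacter β.2
      have hdeg : charDegree (β : G ⧸ C → ℂ) = m := by
        have hinf := Cfsg.Agent.Lib.Helper24.IsIrrCharacter.inflate (QuotientGroup.mk' C)
          (QuotientGroup.mk'_surjective C) β.2
        have h1 : charDegree (fun g => (β : G ⧸ C → ℂ) (QuotientGroup.mk' C g)) =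
            charDegree (β : G ⧸ C → ℂ) := rfl
        rcases hcd ⟨_, hinf⟩ with h | h
        · exfalso
          apply hβ
          rw [← charDegree_cast hβc, ← h1]
          have h2 : charDegree (fun g => (β : G ⧸ C → ℂ) (QuotientGroup.mk' C g)) = 1 := h
          rw [h2]
          simp
        · rw [← h1]
          exact h
      obtain ⟨B, hBdef⟩ : ∃ B : Subgroup (G ⧸ C),
        B = T.map (QuotientGroup.mk' C) ⊔ Subgroup.center (G ⧸ C) := ⟨_, rfl⟩
      have hBab : ∀ a ∈ B, ∀ b ∈ B, a * b = b * a := by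
        intro a ha b hb
        rw [hBdef, Subgroup.mem_sup_of_normal_right] at ha hb
        obtain ⟨_, ⟨x, hx, rfl⟩, z₁, hz₁, rfl⟩ := ha
        obtain ⟨_, ⟨y, hy, rfl⟩, z₂, hz₂, rfl⟩ := hb
        have h1 := hTcomm x hx y hy
        have h1' : (QuotientGroup.mk' C) x * (QuotientGroup.mk' C) y =
          (QuotientGroup.mk' C) y * (QuotientGroup.mk' C) x := h1
        rw [Subgroup.mem_center_iff] at hz₁ hz₂
        calc (QuotientGroup.mk' C) x * z₁ * ((QuotientGroup.mk' C) y * z₂)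
            = (QuotientGroup.mk' C) x * (z₁ * (QuotientGroup.mk' C) y) * z₂ := by group
          _ = (QuotientGroup.mk' C) x * ((QuotientGroup.mk' C) y * z₁) * z₂ := by rw [hz₁]
          _ = ((QuotientGroup.mk' C) x * (QuotientGroup.mk' C) y) * (z₁ * z₂) := by group
          _ = ((QuotientGroup.mk' C) y * (QuotientGroup.mk' C) x) * (z₂ * z₁) := by
              rw [h1', hz₂ z₁]
          _ = (QuotientGroup.mk' C) y * ((QuotientGroup.mk' C) x * z₂) * z₁ := by group
          _ = (QuotientGroup.mk' C) y * (z₂ * (QuotientGroup.mk' C) x) * z₁ := by rw [hz₂]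
          _ = (QuotientGroup.mk' C) y * z₂ * ((QuotientGroup.mk' C) x * z₁) := by group
      have hle : m ≤ B.index := by
        obtain ⟨n, ρ, hρ, hβeq⟩ := β.2
        haveI := hρ
        have h1 := Cfsg.Agent.S0178.result ρ B hBab
        have h2 : (charDegree (β : G ⧸ C → ℂ) : ℂ) = (Module.finrank ℂ (Fin n → ℂ) : ℂ) := by
          rw [charDegree_cast hβc, ← hβeq, Representation.char_one]
        have h3 : charDegree (β : G ⧸ C → ℂ) = Module.finrank ℂ (Fin n → ℂ) := by exact_mod_cast h2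
        rw [← hdeg, h3]
        exact h1
      have hTidx : (T.map (QuotientGroup.mk' C)).index = m := by
        rw [Subgroup.index_map_eq T (QuotientGroup.mk'_surjective C)
          (by rw [QuotientGroup.ker_mk']; exact hCT), hTdef]
        exact hprops.1
      have hTB : T.map (QuotientGroup.mk' C) ≤ B := hBdef ▸ le_sup_left
      have hrel := Subgroup.relIndex_mul_index hTB
      rw [hTidx] at hrel
      have hBm : B.index = m :=
        le_antisymm (Nat.le_of_dvd (Nat.pos_of_ne_zero hm0) (Dvd.intro_left _ hrel)) hle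
      rw [hBm] at hrel
      have hrel1 : (T.map (QuotientGroup.mk' C)).relIndex B = 1 :=
        Nat.eq_of_mul_eq_mul_right (Nat.pos_of_ne_zero hm0) (by rw [hrel, one_mul])
      have hBT := Subgroup.relIndex_eq_one.mp hrel1
      apply Group.IsNilpotent.center_ne_bot (G := G ⧸ C)
      rw [Subgroup.eq_bot_iff_forall]
      intro w hw
      obtain ⟨z, hz, rfl⟩ := hBT (hBdef ▸ (le_sup_right : _ ≤ T.map (QuotientGroup.mk' C) ⊔
        Subgroup.center (G ⧸ C)) hw)
      have := u1 N m hm0 hcd hab hcop hsolv lam₀ hne (hTdef ▸ hz) (hcentral z hw)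
      exact (QuotientGroup.eq_one_iff z).mpr (hCdef ▸ this)
  have hCeq : C = T := le_antisymm hCT hTC
  refine ⟨C, hCn, ?_, ?_⟩
  · intro x hx y hy
    obtain ⟨hw, hw0⟩ := hprops.2 x (hCall lam₀ hx) y (hCall lam₀ hy)
    have hall : ∀ lam : N →* ℂˣ, lam ⟨_, hw⟩ = 1 := by
      intro lam
      by_cases hl : inertia N (fn N lam) = ⊤
      · have hne2 : inertia N (fn N (lam * lam₀)) ≠ ⊤ := by
          intro h
          apply hne
          rw [eq_top_iff]
          intro g _
          have h1 : g ∈ inertia N (fn N (lam * lam₀)) := h ▸ Subgroup.mem_top g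
          have h2 : g ∈ inertia N (fn N lam) := hl ▸ Subgroup.mem_top g
          rw [mem_inertia_fn] at h1 h2 ⊢
          rw [map_mul, h2] at h1
          exact mul_left_cancel h1
        obtain ⟨_, h3⟩ := (inertia_props N m hm0 hcd hcop hsolv _ hne2).2 x (hCall _ hx) y
          (hCall _ hy)
        rw [MonoidHom.mul_apply, hw0, mul_one] at h3
        exact h3
      · obtain ⟨_, h3⟩ := (inertia_props N m hm0 hcd hcop hsolv _ hl).2 x (hCall _ hx) y
          (hCall _ hy)
        exact h3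
    have h1 : (⟨_, hw⟩ : N) = 1 := by
      apply eq_one_of_irr_const
      intro ψ hψ
      obtain ⟨lam, rfl⟩ := exists_hom_eq N hab hψ
      show ((lam ⟨_, hw⟩ : ℂˣ) : ℂ) = ((lam 1 : ℂˣ) : ℂ)
      rw [hall lam, map_one]
    have h2 : x * y * x⁻¹ * y⁻¹ = 1 := congrArg Subtype.val h1
    rw [mul_inv_eq_one, mul_inv_eq_iff_eq_mul] at h2
    exact h2
  · rw [hCeq, hTdef]
    exact hprops.1

end caseII

section caseI

variable {G : Type*} [Group G] [Fintype G]

theorem caseI (m : ℕ) (hm1 : m ≠ 1)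
    (hcd : ∀ χ : IrrCharacter G, charDegree (χ : G → ℂ) = 1 ∨ charDegree (χ : G → ℂ) = m)
    (hm : ∃ χ : IrrCharacter G, charDegree (χ : G → ℂ) = m) (hnil : Group.IsNilpotent G) :
    ∃ p e : ℕ, p.Prime ∧ m = p ^ e ∧ ∃ P A : Subgroup G, P.Normal ∧ A.Normal ∧ IsPGroup p P ∧
      (∀ a ∈ A, ∀ b ∈ A, a * b = b * a) ∧ P ⊓ A = ⊥ ∧ P ⊔ A = ⊤ := by
  obtain ⟨p, hp, hpm⟩ := Nat.exists_prime_and_dvd hm1
  haveI : Fact p.Prime := ⟨hp⟩
  obtain ⟨A, hAn, hA1, k, hA2⟩ := thompson_npc (G := G) p (by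
    intro χ hχ
    rcases hcd χ with h | h
    · exact absurd h hχ
    · rw [h]; exact hpm)
  obtain ⟨P⟩ : Nonempty (Sylow p G) := inferInstance
  have h3 : ∀ (p : ℕ) (_hp : Fact p.Prime) (P : Sylow p G), (P : Subgroup G).Normal :=
    ((Group.isNilpotent_of_finite_tfae (G := G)).out 0 3).mp hnil
  haveI hPn : (P : Subgroup G).Normal := h3 p inferInstance P
  have hdisj : (P : Subgroup G) ⊓ A = ⊥ := by
    apply disjoint_iff.mp
    apply Subgroup.disjoint_of_coprime_natCard
    obtain ⟨j, hj⟩ := IsPGroup.iff_card.mp P.2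
    rw [hj]
    exact (Nat.Coprime.pow_right j hA1).symm
  have hsup : (P : Subgroup G) ⊔ A = ⊤ := by
    apply Subgroup.index_eq_one.mp
    have h1 : ((P : Subgroup G) ⊔ A).index ∣ p ^ k := hA2 ▸ Subgroup.index_dvd_of_le le_sup_right
    have h2 : ((P : Subgroup G) ⊔ A).index ∣ (P : Subgroup G).index :=
      Subgroup.index_dvd_of_le le_sup_left
    obtain ⟨i, -, hi⟩ := (Nat.dvd_prime_pow hp).mp h1
    rcases Nat.eq_zero_or_pos i with rfl | hpos
    · simpa using hi
    · exfalso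
      apply P.not_dvd_index
      refine dvd_trans ?_ h2
      rw [hi]
      exact dvd_pow_self p hpos.ne'
  have hcomm : ∀ x ∈ (P : Subgroup G), ∀ a ∈ A, x * a = a * x := fun x hx a ha =>
    Subgroup.commute_of_normal_of_disjoint _ _ hPn hAn (disjoint_iff.mpr hdisj) x a hx ha
  have hcop : Nat.Coprime (Nat.card A) A.index := by
    rw [hA2]
    exact Nat.Coprime.pow_right k hA1
  have hlin : ∀ θ : IrrCharacter A, (θ : A → ℂ) 1 = 1 := by
    intro θ
    have hθc := IsIrrCharacter.isCharacter θ.2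
    have hinv : ∀ g : G, conjFun A g (θ : A → ℂ) = θ := by
      intro g
      have hg : g ∈ (P : Subgroup G) ⊔ A := hsup ▸ Subgroup.mem_top g
      rw [Subgroup.mem_sup_of_normal_right] at hg
      obtain ⟨x, hx, a, ha, rfl⟩ := hg
      rw [conjFun_mul, conjFun_of_mem A (IsCharacter.isClassFunction hθc) ha]
      ext n
      rw [conjFun_apply]
      have hmem : x⁻¹ * (n : G) * x = n := by
        rw [mul_assoc, ← hcomm x hx n n.2, inv_mul_cancel_left]
      exact congrArg (θ : A → ℂ) (Subtype.ext hmem)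
    obtain ⟨χ, hχ, hext⟩ := exists_extension_of_coprime_solvable A inferInstance θ.2 hinv hcop
    have h1 : χ 1 = (θ : A → ℂ) 1 := hext 1
    have hχc := IsIrrCharacter.isCharacter hχ
    have h2 : charDegree χ = charDegree (θ : A → ℂ) := by
      have : (charDegree χ : ℂ) = (charDegree (θ : A → ℂ) : ℂ) := by
        rw [charDegree_cast hχc, charDegree_cast hθc, h1]
      exact_mod_cast this
    rcases hcd ⟨χ, hχ⟩ with h | h
    · rw [← charDegree_cast hθc, ← h2]
      have h3 : charDegree χ = 1 := h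
      rw [h3]
      simp
    · exfalso
      have h3 : charDegree χ = m := h
      have h4 : p ∣ Nat.card A := by
        refine dvd_trans ?_ (degree_dvd_card θ.2)
        rw [← h2, h3]
        exact hpm
      exact (Nat.Prime.coprime_iff_not_dvd hp).mp hA1.symm h4
  have hAab : ∀ a ∈ A, ∀ b ∈ A, a * b = b * a := fun a ha b hb =>
    congrArg Subtype.val (comm_of_all_linear hlin ⟨a, ha⟩ ⟨b, hb⟩)
  obtain ⟨χ₀, hχ₀⟩ := hm
  have hdvd := ito_degree_dvd A hAab χ₀
  rw [hχ₀, hA2] at hdvd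
  obtain ⟨e, -, he⟩ := (Nat.dvd_prime_pow hp).mp hdvd
  exact ⟨p, e, hp, he, P, A, hPn, hAn, P.2, hAab, hdisj, hsup⟩

end caseI

theorem main {G : Type*} [Group G] [Finite G] (m : ℕ)
    (hcd : ∀ χ : IrrCharacter G, charDegree (χ : G → ℂ) = 1 ∨ charDegree (χ : G → ℂ) = m)
    (hm : ∃ χ : IrrCharacter G, charDegree (χ : G → ℂ) = m) (hm1 : m ≠ 1) :
    (¬ Group.IsNilpotent G ∧
      ∃ A : Subgroup G, A.Normal ∧ (∀ a ∈ A, ∀ b ∈ A, a * b = b * a) ∧ A.index = m) ∨
    (Group.IsNilpotent G ∧ ∃ p e : ℕ, p.Prime ∧ m = p ^ e ∧ ∃ P A : Subgroup G, P.Normal ∧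
      A.Normal ∧ IsPGroup p P ∧ (∀ a ∈ A, ∀ b ∈ A, a * b = b * a) ∧ P ⊓ A = ⊥ ∧ P ⊔ A = ⊤) := by
  cases nonempty_fintype G
  have hm0 : m ≠ 0 := by
    obtain ⟨χ, hχ⟩ := hm
    rw [← hχ]
    exact (charDegree_pos χ.2).ne'
  by_cases hnil : Group.IsNilpotent G
  · exact Or.inr ⟨hnil, caseI m hm1 hcd hm hnil⟩
  · obtain ⟨N, hNn, hab, hcop, hq⟩ := exists_hall m hm0 hcd
    exact Or.inl ⟨hnil, caseII N m hm0 hcd hab hcop hq hnil⟩

end Cfsg.Agent.Lib.Helper13.TwoDeg
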