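import Mathlib
import Cfsg.Agent.Lib.Helper13.TwoDeg
import Cfsg.Agent.Lib.Helper13.UniqueP
import Cfsg.Agent.S0175
import Cfsg.Agent.S0176

set_option autoImplicit false
set_option linter.unusedSectionVars false
set_option linter.style.haveILetI false

/-! Groups with two character degrees have abelian derived subgroup (Isaacs 12.6). -/

namespace Cfsg.Agent.Lib.Helper13.TwoDeg

open Cfsg Cfsg.Agent.Lib.Helper2 Cfsg.Agent.Lib.Helper6 Cfsg.Agent.Lib.Helper24
  Cfsg.Agent.Lib.Helper13
open scoped ComplexConjugate Classical commutatorElement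

attribute [local instance] irrFintype

variable {G : Type*} [Group G] [Fintype G]

theorem comm_le_of_index (m : ℕ)
    (hcd : ∀ χ : IrrCharacter G, charDegree (χ : G → ℂ) = 1 ∨ charDegree (χ : G → ℂ) = m)
    (H : Subgroup G) (hH : H.index = m) : commutator G ≤ H := by
  have hm0 : m ≠ 0 := hH ▸ Subgroup.index_ne_zero_of_finite
  set θ := Cfsg.indFun H (fun _ => (1 : ℂ)) with hθdef
  have hθ : Cfsg.IsCharacter G θ := IsCharacter.indFun H (IsIrrCharacter.isCharacter isIrrCharacter_one)
  have hθ1 : θ 1 = (m : ℂ) := by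
    rw [hθdef, Cfsg.Agent.S0175.indFun_one, ← hH, mul_one, ← Subgroup.card_mul_index H]
    have : (Nat.card H : ℂ) ≠ 0 := card_subgroup_ne_zero H
    push_cast
    field_simp
  have hinner : Cfsg.classInner θ (fun _ => 1) = 1 := by
    rw [hθdef, frobenius_reciprocity H _ _ (IsCharacter.isClassFunction
      (IsIrrCharacter.isCharacter isIrrCharacter_one))]
    have := classInner_irr (G := H) isIrrCharacter_one isIrrCharacter_one
    rw [if_pos rfl] at this
    exact this
  have hθ' : Cfsg.IsCharacter G (θ - fun _ => 1) :=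
    IsCharacter.sub_irr hθ isIrrCharacter_one (by rw [hinner]; exact one_ne_zero)
  have hθ'1 : (θ - (fun _ => 1 : G → ℂ)) 1 = ((m - 1 : ℕ) : ℂ) := by
    simp only [Pi.sub_apply, hθ1]
    rw [Nat.cast_sub (Nat.one_le_iff_ne_zero.mpr hm0)]
    simp
  intro y hy
  apply Cfsg.Agent.S0175.mem_of_indFun_one_eq
  have h1 := Cfsg.Agent.S0175.char_const_of_irr_const hθ' (m - 1) hθ'1 y (by
    rintro ψ hψ ⟨k, hk, hψk⟩
    have hψc := IsIrrCharacter.isCharacter hψ
    apply UniqueP.ker_of_degree_one hψc _ y hy
    have hc := charDegree_cast hψc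
    rcases hcd ⟨ψ, hψ⟩ with h | h
    · have h' : charDegree ψ = 1 := h
      rw [← hc, h']; simp
    · exfalso
      have h' : charDegree ψ = m := h
      rw [h', hψk] at hc
      have : m = k := by exact_mod_cast hc
      omega)
  simp only [Pi.sub_apply] at h1
  exact sub_left_injective h1

theorem derived_abelian (m : ℕ)
    (hcd : ∀ χ : IrrCharacter G, charDegree (χ : G → ℂ) = 1 ∨ charDegree (χ : G → ℂ) = m)
    (hm : ∃ χ : IrrCharacter G, charDegree (χ : G → ℂ) = m) (hm1 : m ≠ 1) :
    ∀ a ∈ commutator G, ∀ b ∈ commutator G, a * b = b * a := by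
  rcases main m hcd hm hm1 with ⟨-, A, hAn, hAab, hAi⟩ | ⟨hnil, -⟩
  · have hle := comm_le_of_index m hcd A hAi
    exact fun a ha b hb => hAab a (hle ha) b (hle hb)
  · intro a ha b hb
    apply commutatorElement_eq_one_iff_mul_comm.mp
    apply eq_one_of_irr_const
    intro χ hχ
    have hχc := IsIrrCharacter.isCharacter hχ
    have hc := charDegree_cast hχc
    rcases hcd ⟨χ, hχ⟩ with h | h
    · have h' : charDegree χ = 1 := h
      apply UniqueP.ker_of_degree_one hχc _ _
        (Subgroup.commutator_mem_commutator (Subgroup.mem_top a) (Subgroup.mem_top b))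
      rw [← hc, h']; simp
    · have h' : charDegree χ = m := h
      obtain ⟨H, lam, rfl⟩ := Cfsg.Agent.S0176.result χ hχ
      have hHi : H.index = m := by
        rw [h', Cfsg.Agent.S0175.indFun_one, ← Subgroup.card_mul_index H] at hc
        have h0 : (Nat.card H : ℂ) ≠ 0 := card_subgroup_ne_zero H
        have : (m : ℂ) = (H.index : ℂ) := by
          rw [hc]
          push_cast
          simp only [map_one, Units.val_one, mul_one]
          field_simp
        exact_mod_cast this.symm
      have hle := comm_le_of_index m hcd H hHi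
      apply Cfsg.Agent.S0175.indFun_eq_one_of_forall
      intro x
      have hn : (commutator G).Normal := inferInstance
      have ha' : x⁻¹ * a * x ∈ commutator G := by
        have := hn.conj_mem a ha x⁻¹
        rwa [inv_inv] at this
      have hb' : x⁻¹ * b * x ∈ commutator G := by
        have := hn.conj_mem b hb x⁻¹
        rwa [inv_inv] at this
      have heq : x⁻¹ * ⁅a, b⁆ * x = ⁅x⁻¹ * a * x, x⁻¹ * b * x⁆ := by
        simp only [commutatorElement_def]
        group
      have hmem : x⁻¹ * ⁅a, b⁆ * x ∈ H := by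
        rw [heq]
        rw [commutatorElement_def]
        exact H.mul_mem (H.mul_mem (H.mul_mem (hle ha') (hle hb')) (H.inv_mem (hle ha')))
          (H.inv_mem (hle hb'))
      refine ⟨hmem, ?_⟩
      have hyeq : (⟨x⁻¹ * ⁅a, b⁆ * x, hmem⟩ : H) =
          ⁅(⟨x⁻¹ * a * x, hle ha'⟩ : H), (⟨x⁻¹ * b * x, hle hb'⟩ : H)⁆ := Subtype.ext heq
      rw [hyeq, map_one, map_commutatorElement]
      rw [commutatorElement_eq_one_iff_mul_comm.mpr (mul_comm _ _)]

end Cfsg.Agent.Lib.Helper13.TwoDeg
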